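import Cfsg.Agent.Lib.Helper7.ChevOrder

set_option autoImplicit false

namespace Cfsg.Agent.Lib.Helper7.ChevOrd2
open Cfsg.Lie Cfsg.Agent.Lib.Helper7.PoinAbs Cfsg.Agent.Lib.Helper7.ChevWGrp Cfsg.Agent.Lib.Helper7.ChevOrder
  Cfsg.Agent.Lib.Helper7.ChevCell

theorem order_formula {F : Type*} [Field F] [Fintype F] (D : ChevalleyDatum)
    (hD : D ∈ [chevG2, chevB2, chevD4, chevF4, chevE6, chevE7, chevE8]) [Fintype ↥(Wg D hD)]
    (d l R : ℕ)
    (h4 : d * Nat.card (D.diagonalSubgroup F) = (Fintype.card F - 1) ^ l)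
    (h5 : ((∑ σ : ↥(Wg D hD), Fintype.card F ^ Nv (sgn D hD) (σ : Equiv.Perm (Fin D.nroots)) : ℕ) : ℤ) *
      ((Fintype.card F : ℤ) - 1) ^ l = (R : ℤ)) :
    d * Nat.card (D.group F) = Fintype.card F ^ (D.nroots / 2) * R := by
  have hq : 0 < Fintype.card F := Fintype.card_pos
  rw [card_group D hD, card_borel D hD, card_posUnipotent D hD]
  have h4' : (d : ℤ) * (Nat.card (D.diagonalSubgroup F) : ℤ) = ((Fintype.card F : ℤ) - 1) ^ l := by
    have := congrArg (Nat.cast : ℕ → ℤ) h4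
    rwa [Nat.cast_mul, Nat.cast_pow, Nat.cast_pred hq] at this
  generalize (∑ σ : ↥(Wg D hD), Fintype.card F ^ Nv (sgn D hD) (σ : Equiv.Perm (Fin D.nroots))) = W at h5 ⊢
  apply Int.natCast_inj.mp
  push_cast
  rw [← h5, ← h4']
  ring

theorem cast_pred_pow (q k : ℕ) (hq : 0 < q) : ((q ^ k - 1 : ℕ) : ℤ) = (q : ℤ) ^ k - 1 := by
  rw [Nat.cast_pred (pow_pos hq k), Nat.cast_pow]

end Cfsg.Agent.Lib.Helper7.ChevOrd2
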