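import Cfsg.Agent.Lib.Helper7.ChevBN3
import Cfsg.Agent.S1060
import Cfsg.Prelude.Def_ChevB2

set_option autoImplicit false

namespace Cfsg.Agent.Lib.Helper7.B2S6
open Cfsg.Lie Cfsg.Agent.Lib.Helper7.ChevEngine Cfsg.Agent.Lib.Helper7.ChevTorus
  Cfsg.Agent.Lib.Helper7.ChevBN3

section
variable {F : Type*} [Field F]

def wvec (l n : ℕ) (F : Type*) [Field F] (S : List ℕ) : Ix l n → F := fun idx => if code idx ∈ S then 1 else 0

def dotS (m : ℕ) (S : List ℕ) (v : SVec) : Poly := v.flatMap fun x => if x.1 ∈ S ∧ x.1 < m then x.2 else []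

theorem exists_code (l n k : ℕ) (hk : k < l + n) : ∃ j : Ix l n, code j = k := by
  by_cases h : k < l
  · exact ⟨Sum.inl ⟨k, h⟩, rfl⟩
  · refine ⟨Sum.inr ⟨k - l, by omega⟩, ?_⟩
    simp only [code, Sum.elim_inr]
    omega

theorem dot_bvec (l n : ℕ) (S : List ℕ) (k : ℕ) :
    wvec l n F S ⬝ᵥ bvec l n F k = if k ∈ S ∧ k < l + n then 1 else 0 := by
  by_cases hk : k < l + n
  · obtain ⟨j, rfl⟩ := exists_code l n k hk
    simp only [dotProduct, wvec, bvec]
    rw [Finset.sum_eq_single j]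
    · simp [hk]
    · intro c _ hc
      have : code c ≠ code j := fun h => hc (code_injective h)
      simp [this]
    · intro h
      exact absurd (Finset.mem_univ j) h
  · have : bvec l n F k = 0 := by
      funext idx
      have := code_lt idx
      simp only [bvec, Pi.zero_apply]
      rw [if_neg (by omega)]
    rw [this, dotProduct_zero, if_neg (fun h => hk h.2)]

theorem dot_evalV (l n : ℕ) (a b : F) (S : List ℕ) (v : SVec) :
    wvec l n F S ⬝ᵥ evalV l n a b v = eval a b (dotS (l + n) S v) := by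
  induction v with
  | nil => simp [dotS, evalV_nil]
  | cons x v ih =>
    have e : dotS (l + n) S (x :: v) = (if x.1 ∈ S ∧ x.1 < l + n then x.2 else []) ++ dotS (l + n) S v := by
      simp [dotS]
    rw [evalV_cons, dotProduct_add, dotProduct_smul, dot_bvec, ih, e, eval_append]
    split_ifs <;> simp

def csum (p : Poly) : ℤ := (p.map fun m => m.1).sum

theorem eval_one_one (p : Poly) : eval (1 : F) 1 p = ((csum p : ℤ) : F) := by
  induction p with
  | nil => simp [csum]
  | cons m p ih =>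
    have e : csum (m :: p) = m.1 + csum p := by simp [csum]
    rw [eval_cons, ih, e, Int.cast_add]
    simp [evalM]

theorem cast_parity (h2 : (2 : F) = 0) (z e : ℤ) (h : z % 2 = e) : (z : F) = (e : F) := by
  have hz : z = 2 * (z / 2) + e := by
    rw [← h]
    exact (Int.mul_ediv_add_emod z 2).symm
  calc (z : F) = ((2 * (z / 2) + e : ℤ) : F) := by rw [← hz]
    _ = (e : F) := by
      push_cast
      rw [h2, zero_mul, zero_add]

def rowCheck (l n : ℕ) (A : Fns) (S S' : List ℕ) (r : ℕ) : Bool :=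
  (List.range (l + n)).all fun c =>
    decide (csum (dotS (l + n) S (applyWord l n A false [(r, one)] [(c, one)])) % 2 = if c ∈ S' then 1 else 0)

theorem vecMul_of_check (h2 : (2 : F) = 0) (l n : ℕ) (A : Fns) (S S' : List ℕ) (r : ℕ)
    (h : rowCheck l n A S S' r = true) :
    Matrix.vecMul (wvec l n F S) (xx l n A F r 1) = wvec l n F S' := by
  funext c
  have hc := code_lt c
  unfold rowCheck at h
  rw [List.all_eq_true] at h
  have h1 := h (code c) (List.mem_range.mpr hc)
  rw [decide_eq_true_eq] at h1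
  have e1 : Matrix.vecMul (wvec l n F S) (xx l n A F r 1) c =
      wvec l n F S ⬝ᵥ (fun j => xx l n A F r 1 j c) := rfl
  have e2 : xx l n A F r 1 = wM l n A F ([(r, one)].map fun x => (x.1, eval (1 : F) 1 x.2)) := by
    simp [wM]
  rw [e1, ← mulVec_bvec_code, e2, bvec_eq_evalV l n (1 : F) 1 (code c),
    applyWord_sound l n A false (1 : F) 1 (by simp), dot_evalV, eval_one_one, cast_parity h2 _ _ h1]
  unfold wvec
  split_ifs <;> simp

def supL : List (List ℕ) := [[1, 5, 6], [1, 5, 6, 9], [1, 2, 9], [1, 2, 6, 9], [1, 2, 5, 9], [1, 2, 5, 6]]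

def rhoL : List (List ℕ) := [[1, 0, 2, 3, 4, 5], [1, 0, 3, 2, 5, 4], [1, 0, 4, 5, 2, 3], [0, 1, 3, 2, 4, 5],
  [0, 1, 4, 3, 2, 5], [5, 4, 3, 2, 1, 0], [5, 3, 4, 1, 2, 0], [5, 1, 2, 3, 4, 0]]

def rhoF (r : ℕ) : Fin 6 → Fin 6 := fun i => ⟨(rhoL.getD r []).getD i.val 0 % 6, Nat.mod_lt _ (by norm_num)⟩

def W (F : Type*) [Field F] (i : Fin 6) : chevB2.Idx → F :=
  wvec chevB2.rank chevB2.nroots F (supL.getD i.val [])

theorem rows_ok : ∀ r < chevB2.nroots, ∀ i : Fin 6,
    rowCheck chevB2.rank chevB2.nroots (fnsOf chevB2) (supL.getD i.val []) (supL.getD (rhoF r i).val []) r = true := by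
  decide +kernel

theorem W_act (h2 : (2 : F) = 0) (r : ℕ) (hr : r < chevB2.nroots) (i : Fin 6) :
    Matrix.vecMul (W F i) (chevB2.x F r 1) = W F (rhoF r i) := by
  rw [x_eq]
  exact vecMul_of_check h2 _ _ _ _ _ r (rows_ok r hr i)

theorem sup_distinct : ∀ i j : Fin 6, i ≠ j → ∃ c < chevB2.rank + chevB2.nroots,
    decide (c ∈ supL.getD i.val []) ≠ decide (c ∈ supL.getD j.val []) := by
  decide +kernel

theorem W_inj : Function.Injective (W F) := by
  intro i j hij
  by_contra hne
  obtain ⟨c, hc, hd⟩ := sup_distinct i j hne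
  obtain ⟨idx, rfl⟩ := exists_code chevB2.rank chevB2.nroots c hc
  have := congrFun hij idx
  unfold W wvec at this
  apply hd
  by_cases h1 : code idx ∈ supL.getD i.val [] <;> by_cases h2 : code idx ∈ supL.getD j.val []
  · rw [decide_eq_true h1, decide_eq_true h2]
  · rw [if_pos h1, if_neg h2] at this
    exact absurd this one_ne_zero
  · rw [if_neg h1, if_pos h2] at this
    exact absurd this zero_ne_one
  · rw [decide_eq_false h1, decide_eq_false h2]

def Stab (F : Type*) [Field F] : Subgroup (GL chevB2.Idx F) where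
  carrier := {g | (∀ i, ∃ j, Matrix.vecMul (W F i) (g : Matrix chevB2.Idx chevB2.Idx F) = W F j) ∧
    (∀ i, ∃ j, Matrix.vecMul (W F i) ((g⁻¹ : GL chevB2.Idx F) : Matrix chevB2.Idx chevB2.Idx F) = W F j)}
  mul_mem' := by
    rintro a b ⟨ha, ha'⟩ ⟨hb, hb'⟩
    refine ⟨fun i => ?_, fun i => ?_⟩
    · obtain ⟨j, hj⟩ := ha i
      obtain ⟨k, hk⟩ := hb j
      exact ⟨k, by rw [Units.val_mul, ← Matrix.vecMul_vecMul, hj, hk]⟩
    · obtain ⟨j, hj⟩ := hb' i
      obtain ⟨k, hk⟩ := ha' j
      exact ⟨k, by rw [mul_inv_rev, Units.val_mul, ← Matrix.vecMul_vecMul, hj, hk]⟩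
  one_mem' := ⟨fun i => ⟨i, by simp⟩, fun i => ⟨i, by simp⟩⟩
  inv_mem' := by
    rintro a ⟨ha, ha'⟩
    exact ⟨ha', by rw [inv_inv]; exact ha⟩

noncomputable def act (g : Stab F) (i : Fin 6) : Fin 6 := Classical.choose (g.2.2 i)

theorem act_spec (g : Stab F) (i : Fin 6) :
    Matrix.vecMul (W F i) (((g : GL chevB2.Idx F)⁻¹ : GL chevB2.Idx F) : Matrix chevB2.Idx chevB2.Idx F) =
      W F (act g i) := Classical.choose_spec (g.2.2 i)

theorem act_mul (g h : Stab F) (i : Fin 6) : act (g * h) i = act g (act h i) := by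
  apply W_inj (F := F)
  rw [← act_spec, ← act_spec, ← act_spec, Matrix.vecMul_vecMul, ← Units.val_mul, ← mul_inv_rev]
  rfl

theorem act_one (i : Fin 6) : act (1 : Stab F) i = i := by
  apply W_inj (F := F)
  rw [← act_spec]
  simp

noncomputable def phi (F : Type*) [Field F] : Stab F →* Equiv.Perm (Fin 6) where
  toFun g :=
    { toFun := act g
      invFun := act g⁻¹
      left_inv := fun i => by rw [← act_mul, inv_mul_cancel, act_one]
      right_inv := fun i => by rw [← act_mul, mul_inv_cancel, act_one] }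
  map_one' := Equiv.ext fun i => act_one i
  map_mul' g h := Equiv.ext fun i => act_mul g h i

theorem t01 [Fintype F] (hF : Fintype.card F = 2) (t : F) : t = 0 ∨ t = 1 := by
  classical
  by_contra h
  rw [not_or] at h
  have h3 : ({0, 1, t} : Finset F).card = 3 := by
    rw [Finset.card_insert_of_notMem, Finset.card_insert_of_notMem, Finset.card_singleton]
    · simp only [Finset.mem_singleton]
      exact fun hh => h.2 hh.symm
    · simp only [Finset.mem_insert, Finset.mem_singleton, not_or]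
      exact ⟨zero_ne_one, fun hh => h.1 hh.symm⟩
  have h4 := Finset.card_le_univ ({0, 1, t} : Finset F)
  omega

theorem two_zero [Fintype F] (hF : Fintype.card F = 2) : (2 : F) = 0 := by
  have := Nat.cast_card_eq_zero F
  rw [hF] at this
  exact_mod_cast this

theorem hB2 : chevB2 ∈ [chevG2, chevB2, chevD4, chevF4, chevE6, chevE7, chevE8] := by simp

theorem xGL_mem_Stab (h2 : (2 : F) = 0) (r : ℕ) (hr : r < chevB2.nroots) :
    xGL chevB2 hB2 r (1 : F) ∈ Stab F := by
  have hneg : (-1 : F) = 1 := by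
    have : (1 : F) + 1 = 0 := by rw [one_add_one_eq_two, h2]
    exact neg_eq_of_add_eq_zero_left this
  refine ⟨fun i => ⟨rhoF r i, ?_⟩, fun i => ⟨rhoF r i, ?_⟩⟩
  · rw [xGL_val]
    exact W_act h2 r hr i
  · rw [xGL_inv_val, hneg]
    exact W_act h2 r hr i

theorem group_le_Stab [Fintype F] (hF : Fintype.card F = 2) : chevB2.group F ≤ Stab F := by
  have h2 := two_zero hF
  unfold ChevalleyDatum.group
  rw [Subgroup.closure_le]
  rintro g ⟨r, t, hg⟩
  have hx : (g : Matrix chevB2.Idx chevB2.Idx F) = chevB2.x F r.val t := by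
    rw [hg]
    simp [ChevalleyDatum.x, r.isLt]
  have hgx : g = xGL chevB2 hB2 r.val t := Units.ext (by rw [hx, xGL_val])
  rcases t01 hF t with rfl | rfl
  · rw [hgx, xGL_zero]
    exact one_mem _
  · rw [hgx]
    exact xGL_mem_Stab h2 r.val r.isLt

noncomputable def psi [Fintype F] (hF : Fintype.card F = 2) : ↥(chevB2.group F) →* Equiv.Perm (Fin 6) :=
  (phi F).comp (Subgroup.inclusion (group_le_Stab hF))

def xG (F : Type*) [Field F] (r : ℕ) : ↥(chevB2.group F) := ⟨xGL chevB2 hB2 r 1, xGL_mem_group chevB2 hB2 r 1⟩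

theorem psi_xG [Fintype F] (hF : Fintype.card F = 2) (r : ℕ) (hr : r < chevB2.nroots) (j : Fin 6) :
    psi hF (xG F r) j = rhoF r j := by
  have h2 := two_zero hF
  have hneg : (-1 : F) = 1 := by
    have : (1 : F) + 1 = 0 := by rw [one_add_one_eq_two, h2]
    exact neg_eq_of_add_eq_zero_left this
  apply W_inj (F := F)
  change W F (act (Subgroup.inclusion (group_le_Stab hF) (xG F r)) j) = _
  rw [← act_spec]
  change Matrix.vecMul (W F j) (((xGL chevB2 hB2 r (1 : F))⁻¹ : GL chevB2.Idx F) :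
    Matrix chevB2.Idx chevB2.Idx F) = _
  rw [xGL_inv_val, hneg]
  exact W_act h2 r hr j

theorem swap_mem [Fintype F] (hF : Fintype.card F = 2) (i : Fin 5) :
    Equiv.swap i.castSucc i.succ ∈ (psi hF).range := by
  have h8 : ∀ r < 8, r < chevB2.nroots := fun r hr => hr
  fin_cases i
  · refine ⟨xG F 0, Equiv.ext fun j => ?_⟩
    rw [psi_xG hF 0 (h8 0 (by norm_num))]
    revert j
    decide
  · refine ⟨xG F 3 * xG F 2 * xG F 7 * xG F 2 * xG F 3, Equiv.ext fun j => ?_⟩
    simp only [map_mul, Equiv.Perm.mul_apply]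
    rw [psi_xG hF 3 (h8 3 (by norm_num)), psi_xG hF 2 (h8 2 (by norm_num)), psi_xG hF 7 (h8 7 (by norm_num)),
      psi_xG hF 2 (h8 2 (by norm_num)), psi_xG hF 3 (h8 3 (by norm_num))]
    revert j
    decide
  · refine ⟨xG F 3, Equiv.ext fun j => ?_⟩
    rw [psi_xG hF 3 (h8 3 (by norm_num))]
    revert j
    decide
  · refine ⟨xG F 3 * xG F 4 * xG F 3, Equiv.ext fun j => ?_⟩
    simp only [map_mul, Equiv.Perm.mul_apply]
    rw [psi_xG hF 3 (h8 3 (by norm_num)), psi_xG hF 4 (h8 4 (by norm_num)), psi_xG hF 3 (h8 3 (by norm_num))]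
    revert j
    decide
  · refine ⟨xG F 0 * xG F 1 * xG F 3, Equiv.ext fun j => ?_⟩
    simp only [map_mul, Equiv.Perm.mul_apply]
    rw [psi_xG hF 0 (h8 0 (by norm_num)), psi_xG hF 1 (h8 1 (by norm_num)), psi_xG hF 3 (h8 3 (by norm_num))]
    revert j
    decide

theorem psi_surjective [Fintype F] (hF : Fintype.card F = 2) : Function.Surjective (psi hF) := by
  rw [← MonoidHom.range_eq_top, eq_top_iff]
  intro σ _
  have hmem : σ ∈ Submonoid.closure (Set.range fun i : Fin 5 => Equiv.swap i.castSucc i.succ) := by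
    rw [Equiv.Perm.mclosure_swap_castSucc_succ]
    exact Submonoid.mem_top σ
  have hle : Submonoid.closure (Set.range fun i : Fin 5 => Equiv.swap i.castSucc i.succ) ≤
      (psi hF).range.toSubmonoid := by
    rw [Submonoid.closure_le]
    rintro _ ⟨i, rfl⟩
    exact swap_mem hF i
  exact hle hmem

theorem iso [Fintype F] (hF : Fintype.card F = 2) :
    Nonempty (↥(chevB2.group F) ≃* Equiv.Perm (Fin 6)) := by
  have hcard : Nat.card ↥(chevB2.group F) = Nat.card (Equiv.Perm (Fin 6)) := by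
    have h := Cfsg.Agent.S1060.result (F := F) (q := 2) hF
    have e6 : Nat.card (Equiv.Perm (Fin 6)) = 720 := by
      rw [Nat.card_perm, Nat.card_fin]
      decide
    have e : Nat.gcd 2 (2 - 1) = 1 := by decide
    rw [e, one_mul] at h
    rw [h, e6]
    norm_num
  have hbij : Function.Bijective (psi hF) :=
    (psi_surjective hF).bijective_of_nat_card_le (le_of_eq hcard)
  exact ⟨MulEquiv.ofBijective (psi hF) hbij⟩

end

end Cfsg.Agent.Lib.Helper7.B2S6
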