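import Cfsg.Agent.Lib.Helper7.ChevOrder

set_option autoImplicit false
set_option maxHeartbeats 400000
set_option maxRecDepth 1000000

namespace Cfsg.Agent.Lib.Helper7.ChevChain
open Cfsg.Lie Cfsg.Agent.Lib.Helper7.ChevEngine Cfsg.Agent.Lib.Helper7.ChevN
  Cfsg.Agent.Lib.Helper7.ChevConj
  Cfsg.Agent.Lib.Helper7.ChevConjT Cfsg.Agent.Lib.Helper7.ChevConjU Cfsg.Agent.Lib.Helper7.ChevAdd
  Cfsg.Agent.Lib.Helper7.ChevHAll Cfsg.Agent.Lib.Helper7.HBaseAll Cfsg.Agent.Lib.Helper7.ChevTorus
  Cfsg.Agent.Lib.Helper7.ChevBN Cfsg.Agent.Lib.Helper7.ChevGen Cfsg.Agent.Lib.Helper7.ChevOrb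
  Cfsg.Agent.Lib.Helper7.ChevW0 Cfsg.Agent.Lib.Helper7.ChevComm Cfsg.Agent.Lib.Helper7.ChevPerf
  Cfsg.Agent.Lib.Helper7.ChevRel Cfsg.Agent.Lib.Helper7.Shift Cfsg.Agent.Lib.Helper7.Tri2
  Cfsg.Agent.Lib.Helper7.ChevTri Cfsg.Agent.Lib.Helper7.ChevTriNeg Cfsg.Agent.Lib.Helper7.ChevNW
  Cfsg.Agent.Lib.Helper7.W0All Cfsg.Agent.Lib.Helper7.ChevExch Cfsg.Agent.Lib.Helper7.RelAll
  Cfsg.Agent.Lib.Helper7.ChevBN3 Cfsg.Agent.Lib.Helper7.ChevBNP Cfsg.Agent.Lib.Helper7.ChevBruhat
  Cfsg.Agent.Lib.Helper7.ChevCell Cfsg.Agent.Lib.Helper7.PoinAbs Cfsg.Agent.Lib.Helper7.ChevWPerm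
  Cfsg.Agent.Lib.Helper7.WPermAll Cfsg.Agent.Lib.Helper7.ChevWGrp Equiv Classical

def tf (D : ChevalleyDatum) (hD : D ∈ [chevG2, chevB2, chevD4, chevF4, chevE6, chevE7, chevE8])
    (l : ℕ) : Fin D.nroots :=
  if h : l < D.nroots then ⟨l, h⟩ else ⟨D.simple 0, simple_lt D (all_of_mem D hD).1 0 (rank_pos D hD)⟩

theorem tf_val (D : ChevalleyDatum) (hD : D ∈ [chevG2, chevB2, chevD4, chevF4, chevE6, chevE7, chevE8])
    (l : ℕ) (h : l < D.nroots) : ((tf D hD l : Fin D.nroots) : ℕ) = l := by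
  unfold tf
  rw [dif_pos h]

theorem tf_eq (D : ChevalleyDatum) (hD : D ∈ [chevG2, chevB2, chevD4, chevF4, chevE6, chevE7, chevE8])
    (r : Fin D.nroots) : tf D hD r.val = r := Fin.ext (tf_val D hD r r.isLt)

def Kc (D : ChevalleyDatum) (hD : D ∈ [chevG2, chevB2, chevD4, chevF4, chevE6, chevE7, chevE8]) :
    List ℕ → Subgroup (Perm (Fin D.nroots))
  | [] => Wg D hD
  | l :: ls => stab (Kc D hD ls) (tf D hD l)

def Ψc (D : ChevalleyDatum) (hD : D ∈ [chevG2, chevB2, chevD4, chevF4, chevE6, chevE7, chevE8]) :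
    List ℕ → Set (Fin D.nroots)
  | [] => {r | D.IsPosRoot r}
  | l :: ls => {r | r ∈ Ψc D hD ls ∧ cF D r (tf D hD l) = 0}

theorem mem_Kc (D : ChevalleyDatum) (hD : D ∈ [chevG2, chevB2, chevD4, chevF4, chevE6, chevE7, chevE8])
    (ls : List ℕ) (σ : Perm (Fin D.nroots)) :
    σ ∈ Kc D hD ls ↔ σ ∈ Wg D hD ∧ ∀ l ∈ ls, σ (tf D hD l) = tf D hD l := by
  induction ls with
  | nil => simp [Kc]
  | cons l ls ih =>
    show σ ∈ stab (Kc D hD ls) (tf D hD l) ↔ _
    rw [mem_stab, ih]
    constructor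
    · rintro ⟨⟨h1, h2⟩, h3⟩
      refine ⟨h1, ?_⟩
      intro l' hl'
      rcases List.mem_cons.mp hl' with rfl | h
      · exact h3
      · exact h2 l' h
    · rintro ⟨h1, h2⟩
      exact ⟨⟨h1, fun l' hl' => h2 l' (List.mem_cons_of_mem _ hl')⟩, h2 l (by simp)⟩

theorem mem_Ψc (D : ChevalleyDatum) (hD : D ∈ [chevG2, chevB2, chevD4, chevF4, chevE6, chevE7, chevE8])
    (ls : List ℕ) (r : Fin D.nroots) :
    r ∈ Ψc D hD ls ↔ D.IsPosRoot r ∧ ∀ l ∈ ls, cF D r (tf D hD l) = 0 := by
  induction ls with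
  | nil => simp [Ψc]
  | cons l ls ih =>
    show (r ∈ Ψc D hD ls ∧ cF D r (tf D hD l) = 0) ↔ _
    rw [ih]
    constructor
    · rintro ⟨⟨h1, h2⟩, h3⟩
      refine ⟨h1, ?_⟩
      intro l' hl'
      rcases List.mem_cons.mp hl' with rfl | h
      · exact h3
      · exact h2 l' h
    · rintro ⟨h1, h2⟩
      exact ⟨⟨h1, fun l' hl' => h2 l' (List.mem_cons_of_mem _ hl')⟩, h2 l (by simp)⟩

theorem supp_base (D : ChevalleyDatum) (hD : D ∈ [chevG2, chevB2, chevD4, chevF4, chevE6, chevE7, chevE8]) :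
    Supp (sgn D hD) (Kc D hD []) (Ψc D hD []) := by
  intro v _
  constructor
  · intro r hr hn
    exact absurd hr hn
  · intro r _
    constructor
    · exact fun h => h
    · intro h
      exact ((sgn D hD).pos_ng _).mpr h

theorem cF_tf (D : ChevalleyDatum) (hD : D ∈ [chevG2, chevB2, chevD4, chevF4, chevE6, chevE7, chevE8])
    (caP coP : List ℕ) (hP : PackOk D caP coP) (r l : ℕ) (hr : r < D.nroots) (hl : l < D.nroots) :
    cF D (tf D hD r) (tf D hD l) = cP D.rank caP coP r l := by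
  unfold cF
  rw [tf_val D hD r hr, tf_val D hD l hl]
  exact cD_eq_cP D caP coP hP r l hr hl

def LabOk (D : ChevalleyDatum) (labs : List ℕ) : Prop :=
  ∀ j < D.rank, ∀ r < D.nroots, labs.getD (D.reflectRoot j r) 0 = labs.getD r 0

def labCheck (D : ChevalleyDatum) (Wtab labs : List ℕ) : Bool :=
  (List.range D.rank).all fun j => (List.range D.nroots).all fun r =>
    decide (labs.getD (wdig (Wtab.getD j 0) r) 0 = labs.getD r 0)

theorem lab_of_check (D : ChevalleyDatum) (Wtab labs : List ℕ) (hW : WtabOk D Wtab)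
    (h : labCheck D Wtab labs = true) : LabOk D labs := by
  unfold labCheck at h
  simp only [List.all_eq_true, List.mem_range, decide_eq_true_eq] at h
  intro j hj r hr
  rw [hW j hj r hr]
  exact h j hj r hr

theorem lab_inv (D : ChevalleyDatum) (hD : D ∈ [chevG2, chevB2, chevD4, chevF4, chevE6, chevE7, chevE8])
    (labs : List ℕ) (hlab : LabOk D labs) (σ : Perm (Fin D.nroots)) (hσ : σ ∈ Wg D hD) (r : Fin D.nroots) :
    labs.getD (σ r) 0 = labs.getD r 0 := by
  obtain ⟨is, his, rfl⟩ := hσ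
  induction is with
  | nil => rfl
  | cons i is ih =>
    have hi : i < D.rank := his i (by simp)
    rw [permOf_cons, Perm.mul_apply, sPerm_apply D hD i hi, hlab i hi _ (Fin.isLt _)]
    exact ih (fun j hj => his j (List.mem_cons_of_mem _ hj))

def dpOf (tab : List (ℕ × ℕ × ℕ)) (x : ℕ) : ℕ := (tab.getD x (0, 0, 0)).2.2

def polyOf (n : ℕ) (tab : List (ℕ × ℕ × ℕ)) (q : ℕ) : ℕ :=
  ∑ x ∈ Finset.range n, if dpOf tab x ≠ 0 then q ^ (dpOf tab x - 1) else 0

def stepCheck (D : ChevalleyDatum) (Wtab caP coP labs : List ℕ) (ls : List ℕ) (lam : ℕ)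
    (tab : List (ℕ × ℕ × ℕ)) : Bool :=
  decide (lam < D.nroots) &&
  ((List.range D.nroots).all fun r =>
    !decide (D.IsPosRoot r) || !(ls.all fun l => decide (cP D.rank caP coP r l = 0)) ||
      decide (0 ≤ cP D.rank caP coP r lam)) &&
  decide (dpOf tab lam = 1) &&
  ((List.range D.nroots).all fun x =>
    decide (dpOf tab x = 0) ||
    (decide (dpOf tab x = 1) && decide (x = lam)) ||
    (decide ((tab.getD x (0, 0, 0)).1 < D.nroots) &&
      decide (dpOf tab (tab.getD x (0, 0, 0)).1 + 1 = dpOf tab x) &&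
      decide (1 ≤ dpOf tab (tab.getD x (0, 0, 0)).1) &&
      decide ((tab.getD x (0, 0, 0)).2.1 < D.rank) &&
      (ls.all fun l => decide (wdig (Wtab.getD (tab.getD x (0, 0, 0)).2.1 0) l = l) &&
        decide (cP D.rank caP coP (D.simple (tab.getD x (0, 0, 0)).2.1) l = 0)) &&
      decide (0 < cP D.rank caP coP (D.simple (tab.getD x (0, 0, 0)).2.1) (tab.getD x (0, 0, 0)).1) &&
      decide (wdig (Wtab.getD (tab.getD x (0, 0, 0)).2.1 0) (tab.getD x (0, 0, 0)).1 = x))) &&
  ((List.range D.nroots).all fun r =>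
    decide (labs.getD r 0 ≠ labs.getD lam 0) ||
    !(ls.all fun l => decide (cP D.rank caP coP r l = cP D.rank caP coP lam l) &&
        decide (cP D.rank caP coP l r = cP D.rank caP coP l lam)) ||
    decide (dpOf tab r ≠ 0))

theorem step_sound (D : ChevalleyDatum) (hD : D ∈ [chevG2, chevB2, chevD4, chevF4, chevE6, chevE7, chevE8])
    (Wtab caP coP labs : List ℕ) (hW : WtabOk D Wtab) (hP : PackOk D caP coP) (hlab : LabOk D labs)
    (ls : List ℕ) (hls : ∀ l ∈ ls, l < D.nroots) (lam : ℕ) (tab : List (ℕ × ℕ × ℕ))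
    (h : stepCheck D Wtab caP coP labs ls lam tab = true)
    (hInv : Supp (sgn D hD) (Kc D hD ls) (Ψc D hD ls)) (q : ℕ)
    [Fintype ↥(Kc D hD ls)] [Fintype ↥(stab (Kc D hD ls) (tf D hD lam))] :
    lam < D.nroots ∧ Supp (sgn D hD) (stab (Kc D hD ls) (tf D hD lam))
      {r | r ∈ Ψc D hD ls ∧ cF D r (tf D hD lam) = 0} ∧
    ∑ σ : ↥(Kc D hD ls), q ^ Nv (sgn D hD) (σ : Perm (Fin D.nroots)) =
      polyOf D.nroots tab q *
        ∑ σ : ↥(stab (Kc D hD ls) (tf D hD lam)), q ^ Nv (sgn D hD) (σ : Perm (Fin D.nroots)) := by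
  unfold stepCheck at h
  simp only [Bool.and_eq_true, decide_eq_true_eq, List.all_eq_true, List.mem_range, Bool.or_eq_true,
    Bool.not_eq_true', decide_eq_false_iff_not] at h
  obtain ⟨⟨⟨⟨hlam, hdom⟩, hroot⟩, htree⟩, htight⟩ := h
  have sd := signData_of_mem D hD
  have hKW : ∀ σ ∈ Kc D hD ls, σ ∈ Wg D hD := fun σ hσ => ((mem_Kc D hD ls σ).mp hσ).1
  have hc : Pairing (sgn D hD) (Kc D hD ls) (cF D) :=
    ⟨fun σ hσ r s => (Wg_pairing D hD).inv σ (hKW σ hσ) r s, (Wg_pairing D hD).odd⟩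
  have hcomm : ∀ σ ∈ Kc D hD ls, Comm (sgn D hD) σ := fun σ hσ => Wg_comm D hD σ (hKW σ hσ)
  have hcf : ∀ (r : Fin D.nroots) (l : ℕ), l < D.nroots → cF D r (tf D hD l) = cP D.rank caP coP r l := by
    intro r l hl
    have := cF_tf D hD caP coP hP r l r.isLt hl
    rw [tf_eq] at this
    exact this
  have hcf' : ∀ (l : ℕ) (r : Fin D.nroots), l < D.nroots → cF D (tf D hD l) r = cP D.rank caP coP l r := by
    intro l r hl
    have := cF_tf D hD caP coP hP l r hl r.isLt
    rw [tf_eq] at this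
    exact this
  have hdom' : ∀ r ∈ Ψc D hD ls, 0 ≤ cF D r (tf D hD lam) := by
    intro r hr
    rw [mem_Ψc] at hr
    rw [hcf r lam hlam]
    rcases hdom r r.isLt with (h1 | h1) | h1
    · exact absurd hr.1 h1
    · have h2 : (ls.all fun l => decide (cP D.rank caP coP r l = 0)) = true := by
        rw [List.all_eq_true]
        intro l hl
        rw [decide_eq_true_eq, ← hcf r l (hls l hl)]
        exact hr.2 l hl
      rw [h2] at h1
      exact absurd h1 (by simp)
    · exact h1
  have hΨpos : ∀ r ∈ {r | r ∈ Ψc D hD ls ∧ cF D r (tf D hD lam) = 0}, (sgn D hD).pos r := by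
    rintro r ⟨hr, -⟩
    exact ((mem_Ψc D hD ls r).mp hr).1
  have hO : ∀ σ ∈ Kc D hD ls, σ (tf D hD lam) ∈
      (Finset.univ.filter fun x : Fin D.nroots => dpOf tab x ≠ 0) := by
    intro σ hσ
    rw [Finset.mem_filter]
    refine ⟨Finset.mem_univ _, ?_⟩
    have hσ' := (mem_Kc D hD ls σ).mp hσ
    rcases htight (σ (tf D hD lam)) (Fin.isLt _) with (h1 | h1) | h1
    · exfalso
      apply h1
      rw [lab_inv D hD labs hlab σ hσ'.1, tf_val D hD lam hlam]
    · exfalso
      have h2 : (ls.all fun l =>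
          decide (cP D.rank caP coP (σ (tf D hD lam)) l = cP D.rank caP coP lam l) &&
            decide (cP D.rank caP coP l (σ (tf D hD lam)) = cP D.rank caP coP l lam)) = true := by
        rw [List.all_eq_true]
        intro l hl
        have hl' := hls l hl
        rw [Bool.and_eq_true, decide_eq_true_eq, decide_eq_true_eq]
        constructor
        · rw [← hcf _ l hl', ← cF_tf D hD caP coP hP lam l hlam hl']
          have := hc.inv σ hσ (tf D hD lam) (tf D hD l)
          rw [hσ'.2 l hl] at this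
          exact this
        · rw [← hcf' l _ hl', ← cF_tf D hD caP coP hP l lam hl' hlam]
          have := hc.inv σ hσ (tf D hD l) (tf D hD lam)
          rw [hσ'.2 l hl] at this
          exact this
      rw [h2] at h1
      exact absurd h1 (by simp)
    · exact h1
  have hTall : ∀ m : ℕ, ∀ x : Fin D.nroots, dpOf tab x = m + 1 →
      ∃ u, Tr (sgn D hD) (Kc D hD ls) {r | r ∈ Ψc D hD ls ∧ cF D r (tf D hD lam) = 0} (tf D hD lam) u x m := by
    intro m
    induction m with
    | zero =>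
      intro x hx
      rcases htree x x.isLt with (h1 | h1) | h1
      · omega
      · have e : x = tf D hD lam := by
          apply Fin.ext
          rw [tf_val D hD lam hlam]
          exact h1.2
        rw [e]
        exact ⟨1, tr_base (sgn D hD) _ _ hΨpos _⟩
      · obtain ⟨⟨⟨⟨⟨⟨-, h2⟩, h3⟩, -⟩, -⟩, -⟩, -⟩ := h1
        omega
    | succ m ih =>
      intro x hx
      rcases htree x x.isLt with (h1 | h1) | h1
      · omega
      · omega
      · obtain ⟨⟨⟨⟨⟨⟨hx'lt, h2⟩, h3⟩, hi⟩, hJ⟩, hpos⟩, hrefl⟩ := h1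
        obtain ⟨u, hu⟩ := ih ⟨(tab.getD x (0, 0, 0)).1, hx'lt⟩ (by show dpOf tab (tab.getD x (0, 0, 0)).1 = m + 1; omega)
        have hsK : sPerm D hD (tab.getD x (0, 0, 0)).2.1 ∈ Kc D hD ls := by
          rw [mem_Kc]
          refine ⟨sPerm_mem D hD _ hi, ?_⟩
          intro l hl
          apply Fin.ext
          rw [sPerm_apply D hD _ hi, tf_val D hD l (hls l hl), hW _ hi l (hls l hl)]
          exact (hJ l hl).1
        have hα : simpF D hD _ hi ∈ Ψc D hD ls := by
          rw [mem_Ψc]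
          refine ⟨posSimple D hD _ hi, ?_⟩
          intro l hl
          rw [hcf _ l (hls l hl)]
          exact (hJ l hl).2
        have hpos' : 0 < cF D (simpF D hD _ hi) (⟨(tab.getD x (0, 0, 0)).1, hx'lt⟩ : Fin D.nroots) := by
          have e1 : cF D (simpF D hD _ hi) (⟨(tab.getD x (0, 0, 0)).1, hx'lt⟩ : Fin D.nroots) =
              cD D (D.simple (tab.getD x (0, 0, 0)).2.1) (tab.getD x (0, 0, 0)).1 := rfl
          rw [e1, cD_eq_cP D caP coP hP _ _ (simple_lt D (all_of_mem D hD).1 _ hi) hx'lt]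
          exact hpos
        have hstep := tr_step (sgn D hD) (Kc D hD ls) (Ψc D hD ls) (cF D) hc hInv hcomm (tf D hD lam) hdom'
          u _ m hu (sPerm D hD (tab.getD x (0, 0, 0)).2.1) (simpF D hD _ hi) (sPerm_refl D hD _ hi) hsK hα hpos'
        have e2 : sPerm D hD (tab.getD x (0, 0, 0)).2.1 (⟨(tab.getD x (0, 0, 0)).1, hx'lt⟩ : Fin D.nroots) = x := by
          apply Fin.ext
          rw [sPerm_apply D hD _ hi, hW _ hi _ hx'lt]
          exact hrefl
        rw [e2] at hstep
        exact ⟨_, hstep⟩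
  have hT : ∀ x ∈ (Finset.univ.filter fun x : Fin D.nroots => dpOf tab x ≠ 0),
      ∃ u, Tr (sgn D hD) (Kc D hD ls) {r | r ∈ Ψc D hD ls ∧ cF D r (tf D hD lam) = 0} (tf D hD lam) u x
        (dpOf tab x - 1) := by
    intro x hx
    rw [Finset.mem_filter] at hx
    exact hTall (dpOf tab x - 1) x (by omega)
  refine ⟨hlam, supp_stab (sgn D hD) (Kc D hD ls) (Ψc D hD ls) (cF D) hc hInv (tf D hD lam) hdom', ?_⟩
  have hsum := sum_orbit (sgn D hD) (Kc D hD ls) (Ψc D hD ls) (cF D) hc hInv hcomm (tf D hD lam) hdom'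
    (Finset.univ.filter fun x : Fin D.nroots => dpOf tab x ≠ 0) (fun x => dpOf tab x - 1) hO hT q
  have hpoly : ∑ x ∈ (Finset.univ.filter fun x : Fin D.nroots => dpOf tab x ≠ 0), q ^ (dpOf tab x - 1) =
      polyOf D.nroots tab q := by
    unfold polyOf
    rw [Finset.sum_filter]
    exact Fin.sum_univ_eq_sum_range (fun x => if dpOf tab x ≠ 0 then q ^ (dpOf tab x - 1) else 0) D.nroots
  rw [hpoly] at hsum
  exact hsum

def chainCheck (D : ChevalleyDatum) (Wtab caP coP labs : List ℕ) :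
    List ℕ → List (ℕ × List (ℕ × ℕ × ℕ)) → Bool
  | ls, [] => (List.range D.nroots).all fun r =>
      !decide (D.IsPosRoot r) || !(ls.all fun l => decide (cP D.rank caP coP r l = 0))
  | ls, (lam, tab) :: rest =>
      stepCheck D Wtab caP coP labs ls lam tab && chainCheck D Wtab caP coP labs (lam :: ls) rest

def chainPoly (n : ℕ) : List (ℕ × List (ℕ × ℕ × ℕ)) → ℕ → ℕ
  | [], _ => 1
  | (_, tab) :: rest, q => polyOf n tab q * chainPoly n rest q

theorem chain_sound (D : ChevalleyDatum) (hD : D ∈ [chevG2, chevB2, chevD4, chevF4, chevE6, chevE7, chevE8])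
    (Wtab caP coP labs : List ℕ) (hW : WtabOk D Wtab) (hP : PackOk D caP coP) (hlab : LabOk D labs) (q : ℕ) :
    ∀ (steps : List (ℕ × List (ℕ × ℕ × ℕ))) (ls : List ℕ), (∀ l ∈ ls, l < D.nroots) →
      Supp (sgn D hD) (Kc D hD ls) (Ψc D hD ls) → chainCheck D Wtab caP coP labs ls steps = true →
      ∀ (inst : Fintype ↥(Kc D hD ls)),
        @Finset.sum _ _ _ (@Finset.univ _ inst) (fun σ : ↥(Kc D hD ls) =>
          q ^ Nv (sgn D hD) (σ : Perm (Fin D.nroots))) = chainPoly D.nroots steps q := by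
  intro steps
  induction steps with
  | nil =>
    intro ls hls hInv hchk inst
    unfold chainCheck at hchk
    simp only [List.all_eq_true, List.mem_range, Bool.or_eq_true, Bool.not_eq_true',
      decide_eq_false_iff_not] at hchk
    have hempty : Ψc D hD ls = ∅ := by
      rw [Set.eq_empty_iff_forall_notMem]
      intro r hr
      rw [mem_Ψc] at hr
      rcases hchk r r.isLt with h1 | h1
      · exact h1 hr.1
      · have h2 : (ls.all fun l => decide (cP D.rank caP coP r l = 0)) = true := by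
          rw [List.all_eq_true]
          intro l hl
          rw [decide_eq_true_eq]
          have := cF_tf D hD caP coP hP r l r.isLt (hls l hl)
          rw [tf_eq] at this
          rw [← this]
          exact hr.2 l hl
        rw [h2] at h1
        exact absurd h1 (by simp)
    rw [hempty] at hInv
    have h0 := supp_empty (sgn D hD) (Kc D hD ls) hInv
    have h1 : ∀ v ∈ Kc D hD ls, v = 1 := fun v hv =>
      Nv_eq_zero D hD v ((mem_Kc D hD ls v).mp hv).1 (h0 v hv)
    exact sum_trivial (sgn D hD) (Kc D hD ls) h1 q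
  | cons st rest ih =>
    intro ls hls hInv hchk inst
    obtain ⟨lam, tab⟩ := st
    have hchk' : stepCheck D Wtab caP coP labs ls lam tab = true ∧
        chainCheck D Wtab caP coP labs (lam :: ls) rest = true := by
      have : chainCheck D Wtab caP coP labs ls ((lam, tab) :: rest) =
          (stepCheck D Wtab caP coP labs ls lam tab && chainCheck D Wtab caP coP labs (lam :: ls) rest) := rfl
      rw [this, Bool.and_eq_true] at hchk
      exact hchk
    let inst' : Fintype ↥(stab (Kc D hD ls) (tf D hD lam)) := Fintype.ofFinite _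
    obtain ⟨hlam, hSupp, hsum⟩ := @step_sound D hD Wtab caP coP labs hW hP hlab ls hls lam tab hchk'.1 hInv q
      inst inst'
    have hls' : ∀ l ∈ lam :: ls, l < D.nroots := by
      intro l hl
      rcases List.mem_cons.mp hl with rfl | h
      · exact hlam
      · exact hls l h
    have h2 := ih (lam :: ls) hls' hSupp hchk'.2 inst'
    have e : chainPoly D.nroots ((lam, tab) :: rest) q = polyOf D.nroots tab q * chainPoly D.nroots rest q := rfl
    rw [e, ← h2]
    exact hsum

theorem poincare (D : ChevalleyDatum) (hD : D ∈ [chevG2, chevB2, chevD4, chevF4, chevE6, chevE7, chevE8])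
    (Wtab caP coP labs : List ℕ) (hW : WtabOk D Wtab) (hP : PackOk D caP coP) (hlab : LabOk D labs)
    (steps : List (ℕ × List (ℕ × ℕ × ℕ))) (h : chainCheck D Wtab caP coP labs [] steps = true) (q : ℕ)
    [inst : Fintype ↥(Wg D hD)] :
    ∑ σ : ↥(Wg D hD), q ^ Nv (sgn D hD) (σ : Perm (Fin D.nroots)) = chainPoly D.nroots steps q :=
  chain_sound D hD Wtab caP coP labs hW hP hlab q steps [] (by simp) (supp_base D hD) h inst

def cnt (n : ℕ) (tab : List (ℕ × ℕ × ℕ)) (k : ℕ) : ℕ :=
  ((List.range n).filter fun x => decide (dpOf tab x = k + 1)).length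

def evalH (cs : List ℕ) (q : ℕ) : ℕ := cs.foldr (fun c acc => c + q * acc) 0

theorem filter_length_eq (n : ℕ) (p : ℕ → Bool) :
    ((List.range n).filter p).length = ∑ x ∈ Finset.range n, if p x = true then 1 else 0 := by
  induction n with
  | zero => simp
  | succ n ih =>
    rw [List.range_succ, List.filter_append, List.length_append, ih, Finset.sum_range_succ]
    congr 1
    by_cases hp : p n = true
    · simp [hp]
    · simp [hp]

theorem evalH_eq (q : ℕ) : ∀ (B : ℕ) (f : ℕ → ℕ),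
    evalH ((List.range B).map f) q = ∑ k ∈ Finset.range B, f k * q ^ k := by
  intro B
  induction B with
  | zero => intro f; simp [evalH]
  | succ B ih =>
    intro f
    rw [List.range_succ_eq_map, List.map_cons, List.map_map, Finset.sum_range_succ']
    have e : evalH (f 0 :: List.map (f ∘ Nat.succ) (List.range B)) q =
        f 0 + q * evalH (List.map (f ∘ Nat.succ) (List.range B)) q := rfl
    rw [e, ih (f ∘ Nat.succ), Finset.mul_sum]
    simp only [Function.comp, pow_zero, mul_one, Nat.succ_eq_add_one]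
    rw [add_comm]
    congr 1
    apply Finset.sum_congr rfl
    intro k _
    ring

theorem polyOf_eq (n B : ℕ) (tab : List (ℕ × ℕ × ℕ)) (hB : ∀ x < n, dpOf tab x ≤ B) (q : ℕ) :
    polyOf n tab q = evalH ((List.range B).map (cnt n tab)) q := by
  rw [evalH_eq]
  unfold polyOf cnt
  have e1 : ∀ k ∈ Finset.range B,
      ((List.range n).filter fun x => decide (dpOf tab x = k + 1)).length * q ^ k =
        ∑ x ∈ Finset.range n, if dpOf tab x = k + 1 then q ^ k else 0 := by
    intro k _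
    rw [filter_length_eq, Finset.sum_mul]
    apply Finset.sum_congr rfl
    intro x _
    by_cases h : dpOf tab x = k + 1
    · simp [h]
    · simp [h]
  rw [Finset.sum_congr rfl e1, Finset.sum_comm]
  apply Finset.sum_congr rfl
  intro x hx
  rw [Finset.mem_range] at hx
  have hb := hB x hx
  by_cases h0 : dpOf tab x = 0
  · rw [if_neg (by simpa using h0)]
    symm
    apply Finset.sum_eq_zero
    intro k _
    rw [if_neg (by omega)]
  · rw [if_pos h0]
    symm
    rw [Finset.sum_eq_single (dpOf tab x - 1)]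
    · rw [if_pos (by omega)]
    · intro k _ hk
      rw [if_neg (by omega)]
    · intro hk
      exfalso
      apply hk
      rw [Finset.mem_range]
      omega

end Cfsg.Agent.Lib.Helper7.ChevChain
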