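import Mathlib

set_option autoImplicit false

namespace Cfsg.Agent.Lib.Helper7.TitsWord

section basic
variable {B : Type*} {G : Type*} [Group G]

def pr (f : B → G) (ω : List B) : G := (ω.map f).prod

theorem pr_nil (f : B → G) : pr f [] = 1 := rfl

theorem pr_cons (f : B → G) (i : B) (ω : List B) : pr f (i :: ω) = f i * pr f ω := by
  unfold pr
  rw [List.map_cons, List.prod_cons]

theorem pr_append (f : B → G) (a b : List B) : pr f (a ++ b) = pr f a * pr f b := by
  unfold pr
  rw [List.map_append, List.prod_append]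

theorem pr_single (f : B → G) (i : B) : pr f [i] = f i := by
  rw [pr_cons, pr_nil, mul_one]

def Red (f : B → G) (ω : List B) : Prop := ∀ ω' : List B, pr f ω' = pr f ω → ω.length ≤ ω'.length

theorem red_prefix (f : B → G) (a b : List B) (h : Red f (a ++ b)) : Red f a := by
  intro a' ha
  have h1 := h (a' ++ b) (by rw [pr_append, pr_append, ha])
  simp only [List.length_append] at h1
  omega

theorem red_suffix (f : B → G) (a b : List B) (h : Red f (a ++ b)) : Red f b := by
  intro b' hb
  have h1 := h (a ++ b') (by rw [pr_append, pr_append, hb])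
  simp only [List.length_append] at h1
  omega

theorem red_of_eq (f : B → G) (ω ω' : List B) (h : Red f ω) (hp : pr f ω' = pr f ω)
    (hl : ω'.length = ω.length) : Red f ω' := by
  intro ω'' h''
  rw [hl]
  exact h ω'' (h''.trans hp)

theorem red_len (f : B → G) (ω ω' : List B) (h : Red f ω) (h' : Red f ω') (hp : pr f ω = pr f ω') :
    ω.length = ω'.length :=
  le_antisymm (h ω' hp.symm) (h' ω hp)

def alt (s t : B) : ℕ → List B
  | 0 => []
  | n + 1 => s :: alt t s n

theorem alt_succ (s t : B) (n : ℕ) : alt s t (n + 1) = s :: alt t s n := rfl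

theorem alt_length (s t : B) (n : ℕ) : (alt s t n).length = n := by
  induction n generalizing s t with
  | zero => rfl
  | succ n ih => rw [alt_succ, List.length_cons, ih]

theorem alt_snoc (s t : B) (n : ℕ) : alt s t (n + 1) = alt s t n ++ [if n % 2 = 0 then s else t] := by
  induction n generalizing s t with
  | zero => rfl
  | succ n ih =>
    rw [alt_succ, ih t s, alt_succ, List.cons_append]
    congr 2
    by_cases h : n % 2 = 0
    · have h' : ¬ (n + 1) % 2 = 0 := by omega
      rw [if_pos h, if_neg h']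
    · have h' : (n + 1) % 2 = 0 := by omega
      rw [if_neg h, if_pos h']

theorem mul_pow_mul (a b : G) (q : ℕ) : a * (b * a) ^ q * b = (a * b) ^ (q + 1) := by
  induction q with
  | zero => simp
  | succ q ih =>
    calc a * (b * a) ^ (q + 1) * b = (a * (b * a) ^ q * b) * (a * b) := by
          rw [pow_succ]
          simp only [mul_assoc]
      _ = (a * b) ^ (q + 1 + 1) := by rw [ih, ← pow_succ]

theorem alt_prod (k : B → G) (hk : ∀ i, k i * k i = 1) (s t : B) (q : ℕ) :
    pr k (alt s t q) * (pr k (alt t s q))⁻¹ = (k s * k t) ^ q := by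
  induction q generalizing s t with
  | zero => simp [alt, pr_nil]
  | succ q ih =>
    have hinv : (k t)⁻¹ = k t := inv_eq_of_mul_eq_one_left (hk t)
    rw [alt_succ, alt_succ, pr_cons, pr_cons, mul_inv_rev, hinv, ← mul_pow_mul, ← ih t s]
    simp only [mul_assoc]

theorem alt_eq_iff (k : B → G) (hk : ∀ i, k i * k i = 1) (s t : B) (q : ℕ) :
    pr k (alt s t q) = pr k (alt t s q) ↔ (k s * k t) ^ q = 1 := by
  rw [← alt_prod k hk s t q, mul_inv_eq_one]

end basic

section main
variable {B : Type*} {G H : Type*} [Group G] [Group H]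

theorem braid_use (f : B → G) (h : B → H) (hf : ∀ i, f i * f i = 1) (hh : ∀ i, h i * h i = 1)
    (hbr : ∀ (s t : B) (q : ℕ), (f s * f t) ^ q = 1 → (h s * h t) ^ q = 1) (s t : B) (q : ℕ)
    (e : pr f (alt s t q) = pr f (alt t s q)) : pr h (alt s t q) = pr h (alt t s q) := by
  rw [alt_eq_iff f hf] at e
  rw [alt_eq_iff h hh]
  exact hbr s t q e

theorem stepA (f : B → G) (h : B → H) (hf : ∀ i, f i * f i = 1)
    (hE : ∀ (ω : List B) (i : B), Red f ω → ¬ Red f (ω ++ [i]) →
      ∃ ω1 j ω2, ω = ω1 ++ j :: ω2 ∧ pr f (ω2 ++ [i]) = pr f (j :: ω2))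
    (q : ℕ)
    (IH : ∀ ω ω' : List B, ω.length < q → Red f ω → Red f ω' → pr f ω = pr f ω' → pr h ω = pr h ω')
    (a c : List B) (x y : B) (h1 : Red f (a ++ [x])) (h2 : Red f (y :: c))
    (hl : (a ++ [x]).length = q) (hp : pr f (a ++ [x]) = pr f (y :: c)) :
    pr h (a ++ [x]) = pr h (y :: c) ∨
      (Red f (c ++ [x]) ∧ pr f (c ++ [x]) = pr f (a ++ [x]) ∧ pr h (c ++ [x]) = pr h (a ++ [x])) := by
  have hlen := red_len f _ _ h1 h2 hp
  simp only [List.length_append, List.length_cons, List.length_nil] at hlen hl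
  have hcancel : ∀ u v : List B, pr f (u ++ [x]) = pr f (v ++ [x]) → pr f u = pr f v := by
    intro u v e
    rw [pr_append, pr_append] at e
    exact mul_right_cancel e
  have nr : ¬ Red f ((y :: c) ++ [x]) := by
    intro hr
    have e : pr f a = pr f ((y :: c) ++ [x]) := by
      rw [pr_append, ← hp, pr_append, pr_single, mul_assoc, hf, mul_one]
    have h3 := hr a e
    simp only [List.length_append, List.length_cons, List.length_nil] at h3
    omega
  obtain ⟨ω1, j, ω2, e, he⟩ := hE (y :: c) x h2 nr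
  cases ω1 with
  | nil =>
    have e' : y = j ∧ c = ω2 := by simpa using e
    obtain ⟨rfl, rfl⟩ := e'
    right
    have hpc : pr f (c ++ [x]) = pr f (a ++ [x]) := by rw [he, hp]
    have hrc : Red f (c ++ [x]) := by
      apply red_of_eq f _ _ h1 hpc
      simp only [List.length_append, List.length_cons, List.length_nil]
      omega
    refine ⟨hrc, hpc, ?_⟩
    have h3 : pr h c = pr h a :=
      IH c a (by omega) (red_prefix f _ _ hrc) (red_prefix f _ _ h1) (hcancel _ _ hpc)
    rw [pr_append, pr_append, h3]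
  | cons y' ω1' =>
    have e' : y = y' ∧ c = ω1' ++ j :: ω2 := by simpa using e
    obtain ⟨rfl, rfl⟩ := e'
    left
    simp only [List.length_append, List.length_cons] at hlen
    have hp'' : pr f (((y :: ω1') ++ ω2) ++ [x]) = pr f (a ++ [x]) := by
      rw [List.append_assoc, pr_append, he, ← pr_append, hp]
      rfl
    have hr'' : Red f (((y :: ω1') ++ ω2) ++ [x]) := by
      apply red_of_eq f _ _ h1 hp''
      simp only [List.length_append, List.length_cons, List.length_nil]
      omega
    have h3 : pr h ((y :: ω1') ++ ω2) = pr h a := by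
      apply IH
      · simp only [List.length_append, List.length_cons]
        omega
      · exact red_prefix f _ _ hr''
      · exact red_prefix f _ _ h1
      · exact hcancel _ _ hp''
    have h4 : pr h (ω2 ++ [x]) = pr h (j :: ω2) := by
      apply IH
      · simp only [List.length_append, List.length_cons, List.length_nil]
        omega
      · rw [List.append_assoc] at hr''
        exact red_suffix f _ _ hr''
      · exact red_suffix f (y :: ω1') (j :: ω2) h2
      · exact he
    calc pr h (a ++ [x]) = pr h a * h x := by rw [pr_append, pr_single]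
      _ = pr h ((y :: ω1') ++ ω2) * h x := by rw [h3]
      _ = pr h (y :: ω1') * pr h (ω2 ++ [x]) := by rw [pr_append, pr_append, pr_single, mul_assoc]
      _ = pr h (y :: ω1') * pr h (j :: ω2) := by rw [h4]
      _ = pr h (y :: (ω1' ++ j :: ω2)) := by
          rw [← pr_append]
          rfl

theorem stepL (f : B → G) (h : B → H) (hf : ∀ i, f i * f i = 1) (hh : ∀ i, h i * h i = 1)
    (hE : ∀ (ω : List B) (i : B), Red f ω → ¬ Red f (ω ++ [i]) →
      ∃ ω1 j ω2, ω = ω1 ++ j :: ω2 ∧ pr f (ω2 ++ [i]) = pr f (j :: ω2))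
    (hbr : ∀ (s t : B) (q : ℕ), (f s * f t) ^ q = 1 → (h s * h t) ^ q = 1)
    (q : ℕ)
    (IH : ∀ ω ω' : List B, ω.length < q → Red f ω → Red f ω' → pr f ω = pr f ω' → pr h ω = pr h ω')
    (s t : B) : ∀ (β : List B) (n : ℕ) (y : B),
      Red f (y :: (β ++ alt t s (n + 1))) → Red f (β ++ alt t s (n + 2)) →
      (y :: (β ++ alt t s (n + 1))).length = q →
      pr f (y :: (β ++ alt t s (n + 1))) = pr f (β ++ alt t s (n + 2)) →
      pr h (y :: (β ++ alt t s (n + 1))) = pr h (β ++ alt t s (n + 2)) := by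
  intro β
  induction β with
  | nil =>
    intro n y hU hV hl hp
    have eU : y :: ([] ++ alt t s (n + 1)) = (y :: alt t s n) ++ [if n % 2 = 0 then t else s] := by
      rw [List.nil_append, alt_snoc, List.cons_append]
    have eV : [] ++ alt t s (n + 2) = t :: alt s t (n + 1) := rfl
    rw [eU] at hU hl hp ⊢
    rw [eV] at hV hp ⊢
    rcases stepA f h hf hE q IH (y :: alt t s n) (alt s t (n + 1)) _ t hU hV hl hp with hdone | ⟨hr, hpp, hhp⟩
    · exact hdone
    · have e2 : alt s t (n + 1) ++ [if n % 2 = 0 then t else s] = alt s t (n + 2) := by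
        rw [alt_snoc s t (n + 1)]
        congr 2
        by_cases h0 : n % 2 = 0
        · have h' : ¬ (n + 1) % 2 = 0 := by omega
          rw [if_pos h0, if_neg h']
        · have h' : (n + 1) % 2 = 0 := by omega
          rw [if_neg h0, if_pos h']
      rw [e2] at hr hpp hhp
      have e3 : pr f (alt s t (n + 2)) = pr f (alt t s (n + 2)) := hpp.trans hp
      have hb := braid_use f h hf hh hbr s t (n + 2) e3
      exact hhp.symm.trans hb
  | cons y' β' ih =>
    intro n y hU hV hl hp
    have eU : y :: ((y' :: β') ++ alt t s (n + 1)) =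
        (y :: y' :: (β' ++ alt t s n)) ++ [if n % 2 = 0 then t else s] := by
      rw [alt_snoc]
      simp only [List.cons_append, List.append_assoc]
    have eV : (y' :: β') ++ alt t s (n + 2) = y' :: (β' ++ alt t s (n + 2)) := rfl
    have hlenUV := red_len f _ _ hU hV hp
    rw [eU] at hU hl hp ⊢
    rw [eV] at hV hp ⊢
    rcases stepA f h hf hE q IH (y :: y' :: (β' ++ alt t s n)) (β' ++ alt t s (n + 2)) _ y' hU hV hl hp
      with hdone | ⟨hr, hpp, hhp⟩
    · exact hdone
    · have e2 : (β' ++ alt t s (n + 2)) ++ [if n % 2 = 0 then t else s] = β' ++ alt t s (n + 1 + 2) := by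
        rw [alt_snoc t s (n + 2), List.append_assoc]
        congr 3
        by_cases h0 : n % 2 = 0
        · have h' : (n + 2) % 2 = 0 := by omega
          rw [if_pos h0, if_pos h']
        · have h' : ¬ (n + 2) % 2 = 0 := by omega
          rw [if_neg h0, if_neg h']
      rw [e2] at hr hpp hhp
      have hlV : (y' :: (β' ++ alt t s (n + 1 + 1))).length = q := by
        rw [← hl, ← eU, hlenUV, eV]
      have h5 := ih (n + 1) y' hV hr hlV (hpp.trans hp).symm
      exact hhp.symm.trans h5.symm

theorem tits (f : B → G) (h : B → H) (hf : ∀ i, f i * f i = 1) (hh : ∀ i, h i * h i = 1)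
    (hE : ∀ (ω : List B) (i : B), Red f ω → ¬ Red f (ω ++ [i]) →
      ∃ ω1 j ω2, ω = ω1 ++ j :: ω2 ∧ pr f (ω2 ++ [i]) = pr f (j :: ω2))
    (hbr : ∀ (s t : B) (q : ℕ), (f s * f t) ^ q = 1 → (h s * h t) ^ q = 1) :
    ∀ (q : ℕ) (ω ω' : List B), ω.length = q → Red f ω → Red f ω' → pr f ω = pr f ω' → pr h ω = pr h ω' := by
  intro q
  induction q using Nat.strong_induction_on with
  | _ q ih =>
    intro ω ω' hl h1 h2 hp
    have IH : ∀ ω ω' : List B, ω.length < q → Red f ω → Red f ω' → pr f ω = pr f ω' → pr h ω = pr h ω' :=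
      fun ω ω' hlt => ih ω.length hlt ω ω' rfl
    have hlen := red_len f _ _ h1 h2 hp
    rcases List.eq_nil_or_concat ω with rfl | ⟨a, s, rfl⟩
    · have e : ω' = [] := List.length_eq_zero_iff.mp (by simpa using hlen.symm)
      rw [e]
    · rw [List.concat_eq_append] at hl h1 hp hlen ⊢
      cases ω' with
      | nil => simp at hlen
      | cons y c =>
        rcases stepA f h hf hE q IH a c s y h1 h2 hl hp with hdone | ⟨hr, hpp, hhp⟩
        · exact hdone
        · rw [← hhp]
          symm
          rcases List.eq_nil_or_concat c with rfl | ⟨β, t, rfl⟩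
          · have e1 : pr f (alt y s 1) = pr f (alt s y 1) := hp.symm.trans hpp.symm
            exact braid_use f h hf hh hbr y s 1 e1
          · rw [List.concat_eq_append] at h2 hr hp hpp hlen ⊢
            have eV : (β ++ [t]) ++ [s] = β ++ alt t s (0 + 2) := by
              rw [List.append_assoc]
              rfl
            rw [eV] at hr hpp ⊢
            have hlU : (y :: (β ++ alt t s (0 + 1))).length = q := by
              rw [← hl, hlen]
              rfl
            exact stepL f h hf hh hE hbr q IH s t β 0 y h2 hr hlU (hp.symm.trans hpp.symm)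

theorem normalize (f : B → G) (h : B → H) (hf : ∀ i, f i * f i = 1) (hh : ∀ i, h i * h i = 1)
    (hE : ∀ (ω : List B) (i : B), Red f ω → ¬ Red f (ω ++ [i]) →
      ∃ ω1 j ω2, ω = ω1 ++ j :: ω2 ∧ pr f (ω2 ++ [i]) = pr f (j :: ω2))
    (hbr : ∀ (s t : B) (q : ℕ), (f s * f t) ^ q = 1 → (h s * h t) ^ q = 1) :
    ∀ ω : List B, ∃ ω' : List B, Red f ω' ∧ pr f ω' = pr f ω ∧ pr h ω' = pr h ω := by
  intro ω
  induction ω using List.reverseRecOn with
  | nil => exact ⟨[], fun ω' _ => Nat.zero_le _, rfl, rfl⟩
  | append_singleton a x ih =>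
    obtain ⟨a', hr, hp, hh'⟩ := ih
    by_cases hrx : Red f (a' ++ [x])
    · exact ⟨a' ++ [x], hrx, by rw [pr_append, pr_append, hp], by rw [pr_append, pr_append, hh']⟩
    · obtain ⟨ω1, j, ω2, e, he⟩ := hE a' x hr hrx
      subst e
      have e1 : (ω1 ++ j :: ω2) ++ [x] = ω1 ++ (j :: (ω2 ++ [x])) := by simp
      have hpf : pr f ((ω1 ++ j :: ω2) ++ [x]) = pr f (ω1 ++ ω2) := by
        rw [e1, pr_append, pr_cons, he, pr_cons, ← mul_assoc (f j), hf, one_mul, ← pr_append]
      have hred2 : Red f (j :: ω2) := red_suffix f ω1 _ hr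
      have hred3 : Red f (ω2 ++ [x]) := red_of_eq f _ _ hred2 he (by simp)
      have ht : pr h (ω2 ++ [x]) = pr h (j :: ω2) := tits f h hf hh hE hbr _ _ _ rfl hred3 hred2 he
      have hph : pr h ((ω1 ++ j :: ω2) ++ [x]) = pr h (ω1 ++ ω2) := by
        rw [e1, pr_append, pr_cons, ht, pr_cons, ← mul_assoc (h j), hh, one_mul, ← pr_append]
      refine ⟨ω1 ++ ω2, ?_, ?_, ?_⟩
      · intro ω3 h3
        have e3 : pr f (ω3 ++ [x]) = pr f (ω1 ++ j :: ω2) := by
          rw [pr_append, h3, ← hpf, pr_append f (ω1 ++ j :: ω2) [x], pr_single, mul_assoc, hf, mul_one]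
        have h4 := hr (ω3 ++ [x]) e3
        simp only [List.length_append, List.length_cons, List.length_nil] at h4 ⊢
        omega
      · rw [← hpf, pr_append f (ω1 ++ j :: ω2) [x], hp, ← pr_append]
      · rw [← hph, pr_append h (ω1 ++ j :: ω2) [x], hh', ← pr_append]

theorem injective_of_exchange (f : B → G) (h : B → H) (φ : H →* G) (hφ : ∀ i, φ (h i) = f i)
    (hgen : ∀ x : H, ∃ ω : List B, x = pr h ω) (hh : ∀ i, h i * h i = 1)
    (hE : ∀ (ω : List B) (i : B), Red f ω → ¬ Red f (ω ++ [i]) →
      ∃ ω1 j ω2, ω = ω1 ++ j :: ω2 ∧ pr f (ω2 ++ [i]) = pr f (j :: ω2))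
    (hbr : ∀ (s t : B) (q : ℕ), (f s * f t) ^ q = 1 → (h s * h t) ^ q = 1) :
    Function.Injective φ := by
  have hf : ∀ i, f i * f i = 1 := fun i => by rw [← hφ, ← map_mul, hh, map_one]
  have hpr : ∀ ω, φ (pr h ω) = pr f ω := by
    intro ω
    induction ω with
    | nil => exact map_one φ
    | cons i ω ih => rw [pr_cons, pr_cons, map_mul, hφ, ih]
  rw [injective_iff_map_eq_one]
  intro x hx
  obtain ⟨ω, rfl⟩ := hgen x
  obtain ⟨ω', hr, hp, hh'⟩ := normalize f h hf hh hE hbr ω
  have h0 : pr f [] = pr f ω' := by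
    rw [hp, ← hpr ω, hx]
    rfl
  have h1 := hr [] h0
  have hnil : ω' = [] := List.length_eq_zero_iff.mp (Nat.le_zero.mp h1)
  rw [← hh', hnil]
  rfl

end main

end Cfsg.Agent.Lib.Helper7.TitsWord
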