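import Cfsg.Agent.Lib.Helper7.ChevWGrp
import Cfsg.Agent.Lib.Helper7.TitsWord

set_option autoImplicit false
set_option maxHeartbeats 400000
set_option maxRecDepth 1000000

namespace Cfsg.Agent.Lib.Helper7.ChevCox
open Cfsg.Lie Cfsg.Agent.Lib.Helper7.ChevEngine Cfsg.Agent.Lib.Helper7.ChevN
  Cfsg.Agent.Lib.Helper7.ChevConj
  Cfsg.Agent.Lib.Helper7.ChevConjT Cfsg.Agent.Lib.Helper7.ChevConjU Cfsg.Agent.Lib.Helper7.ChevAdd
  Cfsg.Agent.Lib.Helper7.ChevHAll Cfsg.Agent.Lib.Helper7.HBaseAll Cfsg.Agent.Lib.Helper7.ChevTorus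
  Cfsg.Agent.Lib.Helper7.ChevBN Cfsg.Agent.Lib.Helper7.ChevGen Cfsg.Agent.Lib.Helper7.ChevOrb
  Cfsg.Agent.Lib.Helper7.ChevW0 Cfsg.Agent.Lib.Helper7.ChevComm Cfsg.Agent.Lib.Helper7.ChevPerf
  Cfsg.Agent.Lib.Helper7.ChevRel Cfsg.Agent.Lib.Helper7.Shift Cfsg.Agent.Lib.Helper7.Tri2
  Cfsg.Agent.Lib.Helper7.ChevTri Cfsg.Agent.Lib.Helper7.ChevTriNeg Cfsg.Agent.Lib.Helper7.ChevNW
  Cfsg.Agent.Lib.Helper7.W0All Cfsg.Agent.Lib.Helper7.ChevExch Cfsg.Agent.Lib.Helper7.RelAll
  Cfsg.Agent.Lib.Helper7.ChevBN3 Cfsg.Agent.Lib.Helper7.ChevBNP Cfsg.Agent.Lib.Helper7.ChevBruhat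
  Cfsg.Agent.Lib.Helper7.ChevCell Cfsg.Agent.Lib.Helper7.PoinAbs Cfsg.Agent.Lib.Helper7.ChevWPerm
  Cfsg.Agent.Lib.Helper7.WPermAll Cfsg.Agent.Lib.Helper7.ChevWGrp Cfsg.Agent.Lib.Helper7.TitsWord Equiv

def fS (D : ChevalleyDatum) (hD : D ∈ [chevG2, chevB2, chevD4, chevF4, chevE6, chevE7, chevE8]) :
    Fin D.rank → Perm (Fin D.nroots) := fun i => sPerm D hD i.val

theorem pr_fS (D : ChevalleyDatum) (hD : D ∈ [chevG2, chevB2, chevD4, chevF4, chevE6, chevE7, chevE8])
    (ω : List (Fin D.rank)) : pr (fS D hD) ω = permOf D hD (ω.map Fin.val) := by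
  unfold pr permOf fS
  rw [List.map_map]
  rfl

theorem valid_map (D : ChevalleyDatum) (ω : List (Fin D.rank)) : ∀ i ∈ ω.map Fin.val, i < D.rank := by
  intro i hi
  rw [List.mem_map] at hi
  obtain ⟨j, -, rfl⟩ := hi
  exact j.isLt

def toFin (l : ℕ) (is : List ℕ) (h : ∀ i ∈ is, i < l) : List (Fin l) := is.pmap (fun i hi => ⟨i, hi⟩) h

theorem toFin_map (l : ℕ) (is : List ℕ) (h : ∀ i ∈ is, i < l) : (toFin l is h).map Fin.val = is := by
  unfold toFin
  rw [List.map_pmap]
  simp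

theorem toFin_length (l : ℕ) (is : List ℕ) (h : ∀ i ∈ is, i < l) : (toFin l is h).length = is.length := by
  unfold toFin
  rw [List.length_pmap]

theorem sPerm_sq (D : ChevalleyDatum) (hD : D ∈ [chevG2, chevB2, chevD4, chevF4, chevE6, chevE7, chevE8])
    (i : ℕ) (hi : i < D.rank) : sPerm D hD i * sPerm D hD i = 1 := by
  ext r
  rw [Perm.mul_apply, sPerm_invol D hD i hi]
  rfl

theorem Nv_mul_sPerm (D : ChevalleyDatum) (hD : D ∈ [chevG2, chevB2, chevD4, chevF4, chevE6, chevE7, chevE8])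
    (σ : Perm (Fin D.nroots)) (hσ : σ ∈ Wg D hD) (i : ℕ) (hi : i < D.rank) :
    (D.IsPosRoot (σ (simpF D hD i hi)) → Nv (sgn D hD) (σ * sPerm D hD i) = Nv (sgn D hD) σ + 1) ∧
    (¬ D.IsPosRoot (σ (simpF D hD i hi)) → Nv (sgn D hD) (σ * sPerm D hD i) + 1 = Nv (sgn D hD) σ) := by
  have hr := sPerm_refl D hD i hi
  constructor
  · intro hpos
    exact Nv_mul_refl (sgn D hD) σ (sPerm D hD i) (simpF D hD i hi) (Wg_comm D hD σ hσ) hr hpos
  · intro hneg
    have hτ : σ * sPerm D hD i ∈ Wg D hD := mul_mem hσ (sPerm_mem D hD i hi)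
    have hpos : (sgn D hD).pos ((σ * sPerm D hD i) (simpF D hD i hi)) := by
      rw [Perm.mul_apply, hr.map_α, Wg_comm D hD σ hσ, (sgn D hD).pos_ng]
      exact hneg
    have h1 := Nv_mul_refl (sgn D hD) (σ * sPerm D hD i) (sPerm D hD i) (simpF D hD i hi)
      (Wg_comm D hD _ hτ) hr hpos
    rw [mul_assoc, sPerm_sq D hD i hi, mul_one] at h1
    exact h1.symm

theorem Nv_le_length (D : ChevalleyDatum) (hD : D ∈ [chevG2, chevB2, chevD4, chevF4, chevE6, chevE7, chevE8]) :
    ∀ v : List ℕ, (∀ i ∈ v, i < D.rank) → Nv (sgn D hD) (permOf D hD v) ≤ v.length := by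
  intro v
  induction v using List.reverseRecOn with
  | nil =>
    intro _
    rw [permOf_nil, Nv_one]
    exact Nat.zero_le _
  | append_singleton L i ih =>
    intro hv
    have hL : ∀ j ∈ L, j < D.rank := fun j hj => hv j (List.mem_append_left _ hj)
    have hi : i < D.rank := hv i (by simp)
    have h1 := ih hL
    rw [permOf_append, permOf_cons, permOf_nil, mul_one, List.length_append, List.length_singleton]
    obtain ⟨hp, hn⟩ := Nv_mul_sPerm D hD (permOf D hD L) (permOf_mem D hD L hL) i hi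
    by_cases hpos : D.IsPosRoot (permOf D hD L (simpF D hD i hi))
    · rw [hp hpos]
      omega
    · have h2 := hn hpos
      omega

theorem red_Nv (D : ChevalleyDatum) (hD : D ∈ [chevG2, chevB2, chevD4, chevF4, chevE6, chevE7, chevE8])
    (ω : List (Fin D.rank)) (h : Red (fS D hD) ω) : Nv (sgn D hD) (pr (fS D hD) ω) = ω.length := by
  apply le_antisymm
  · rw [pr_fS]
    have h1 := Nv_le_length D hD (ω.map Fin.val) (valid_map D ω)
    rwa [List.length_map] at h1
  · obtain ⟨is, hgood, e⟩ := exists_good D hD (pr (fS D hD) ω)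
      (by rw [pr_fS]; exact permOf_mem D hD _ (valid_map D ω))
    have hv := goodW_valid D is hgood
    have h1 := h (toFin D.rank is hv) (by rw [pr_fS, toFin_map, ← e])
    rw [toFin_length] at h1
    rw [e, Nv_good D hD is hgood]
    exact h1

theorem exchange_fS (D : ChevalleyDatum) (hD : D ∈ [chevG2, chevB2, chevD4, chevF4, chevE6, chevE7, chevE8])
    (ω : List (Fin D.rank)) (i : Fin D.rank) (h1 : Red (fS D hD) ω) (h2 : ¬ Red (fS D hD) (ω ++ [i])) :
    ∃ ω1 j ω2, ω = ω1 ++ j :: ω2 ∧ pr (fS D hD) (ω2 ++ [i]) = pr (fS D hD) (j :: ω2) := by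
  obtain ⟨hC, -, -⟩ := all_of_mem D hD
  have hv := valid_map D ω
  have hσ : permOf D hD (ω.map Fin.val) ∈ Wg D hD := permOf_mem D hD _ hv
  have hN := red_Nv D hD ω h1
  have hsl := simple_lt D hC i.val i.isLt
  have hneg : D.IsNegRoot (wAct D (ω.map Fin.val) (D.simple i)) := by
    rw [isNeg_iff D hD _ (wAct_lt D hD _ hv _ hsl)]
    intro hpos
    apply h2
    have hN2 : Nv (sgn D hD) (pr (fS D hD) (ω ++ [i])) = ω.length + 1 := by
      rw [pr_append, pr_single, ← hN]
      apply (Nv_mul_sPerm D hD (pr (fS D hD) ω) (by rw [pr_fS]; exact hσ) i.val i.isLt).1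
      rw [pr_fS, permOf_apply D hD _ hv]
      exact hpos
    intro ω' h'
    have h3 := Nv_le_length D hD (ω'.map Fin.val) (valid_map D ω')
    rw [← pr_fS, h', hN2, List.length_map] at h3
    rw [List.length_append, List.length_singleton]
    exact h3
  obtain ⟨v1, j, v2, e, hw⟩ := exchange D hD (ω.map Fin.val) hv i.val i.isLt hneg
  obtain ⟨ω1, ω', rfl, e1, e2⟩ := List.map_eq_append_iff.mp e
  obtain ⟨j', ω2, rfl, e3, e4⟩ := List.map_eq_cons_iff.mp e2
  refine ⟨ω1, j', ω2, rfl, ?_⟩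
  have hv2 : ∀ k ∈ v2, k < D.rank := by
    intro k hk
    rw [← e4] at hk
    exact valid_map D ω2 k hk
  have hj : j < D.rank := by
    rw [← e3]
    exact j'.isLt
  obtain ⟨hh, hhH, eh⟩ := nW_conj_nI (F := ℚ) D hD v2 hv2 i.val j i.isLt hj hw
  have e5 : nWordGL (F := ℚ) D hD (j :: (v2 ++ [i.val])) = hh * nWordGL D hD v2 := by
    rw [nWordGL_cons, nWordGL_append, nWordGL_cons, nWordGL_nil, mul_one, ← mul_assoc, eh]
  have hv3 : ∀ k ∈ j :: (v2 ++ [i.val]), k < D.rank := by
    intro k hk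
    rcases List.mem_cons.mp hk with rfl | hk
    · exact hj
    · rcases List.mem_append.mp hk with hk | hk
      · exact hv2 k hk
      · rw [List.mem_singleton] at hk
        rw [hk]
        exact i.isLt
  have e6 : permOf D hD (j :: (v2 ++ [i.val])) = permOf D hD v2 := by
    apply permOf_ext D hD _ _ hv3 hv2
    intro r hr
    exact same_perm (F := ℚ) D hD _ _ hv3 hv2 hh hhH e5 r hr
  rw [pr_fS, pr_fS, List.map_append, List.map_cons, List.map_cons, List.map_nil, e4, e3]
  rw [permOf_cons] at e6 ⊢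
  rw [← e6, ← mul_assoc, sPerm_sq D hD j hj, one_mul]

def rep (i j : ℕ) : ℕ → List ℕ
  | 0 => []
  | k + 1 => i :: j :: rep i j k

def ordCheck (D : ChevalleyDatum) (Wtab : List ℕ) (i j m : ℕ) : Bool :=
  decide (0 < m) &&
  ((List.range D.nroots).all fun r => decide (wActP Wtab (rep i j m) r = r)) &&
  ((List.range m).all fun k => k == 0 || (List.range D.nroots).any fun r => !decide (wActP Wtab (rep i j k) r = r))

theorem permOf_rep (D : ChevalleyDatum) (hD : D ∈ [chevG2, chevB2, chevD4, chevF4, chevE6, chevE7, chevE8])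
    (i j k : ℕ) : permOf D hD (rep i j k) = (sPerm D hD i * sPerm D hD j) ^ k := by
  induction k with
  | zero => rfl
  | succ k ih =>
    show permOf D hD (i :: j :: rep i j k) = _
    rw [permOf_cons, permOf_cons, ih, pow_succ', mul_assoc]

theorem rep_valid (l i j : ℕ) (hi : i < l) (hj : j < l) (k : ℕ) : ∀ x ∈ rep i j k, x < l := by
  induction k with
  | zero => intro x hx; simp [rep] at hx
  | succ k ih =>
    intro x hx
    simp only [rep, List.mem_cons] at hx
    rcases hx with rfl | rfl | hx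
    · exact hi
    · exact hj
    · exact ih x hx

theorem ord_of_check (D : ChevalleyDatum) (hD : D ∈ [chevG2, chevB2, chevD4, chevF4, chevE6, chevE7, chevE8])
    (Wtab : List ℕ) (hW : WtabOk D Wtab) (i j : Fin D.rank) (m : ℕ)
    (h : ordCheck D Wtab i j m = true) : orderOf (fS D hD i * fS D hD j) = m := by
  unfold ordCheck at h
  simp only [Bool.and_eq_true, decide_eq_true_eq, List.all_eq_true, List.mem_range, Bool.or_eq_true,
    beq_iff_eq, List.any_eq_true, Bool.not_eq_eq_eq_not, Bool.not_true, decide_eq_false_iff_not] at h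
  obtain ⟨⟨hm, ha⟩, hb⟩ := h
  have key : ∀ k : ℕ, ∀ r : Fin D.nroots,
      ((((fS D hD i * fS D hD j) ^ k) r : Fin D.nroots) : ℕ) = wActP Wtab (rep i j k) r := by
    intro k r
    show ((((sPerm D hD i * sPerm D hD j) ^ k) r : Fin D.nroots) : ℕ) = _
    rw [← permOf_rep, permOf_apply D hD _ (rep_valid D.rank i j i.isLt j.isLt k)]
    exact (wAct_eq D hD Wtab hW _ (rep_valid D.rank i j i.isLt j.isLt k) r r.isLt).1
  rw [orderOf_eq_iff hm]
  constructor
  · ext r
    rw [key, ha r r.isLt]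
    rfl
  · intro k hk hk0 hone
    rcases hb k hk with h0 | ⟨r, hr, hne⟩
    · omega
    · apply hne
      have h3 := key k ⟨r, hr⟩
      rw [hone] at h3
      exact h3.symm

section cox
variable (D : ChevalleyDatum) (hD : D ∈ [chevG2, chevB2, chevD4, chevF4, chevE6, chevE7, chevE8])
  (M : CoxeterMatrix (Fin D.rank)) (hM : ∀ i j : Fin D.rank, orderOf (fS D hD i * fS D hD j) = M i j)

noncomputable def coxHom : M.Group →* Perm (Fin D.nroots) :=
  M.toCoxeterSystem.lift ⟨fS D hD, fun i j => by rw [← hM]; exact pow_orderOf_eq_one _⟩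

theorem coxHom_simple (i : Fin D.rank) : coxHom D hD M hM (M.simple i) = fS D hD i :=
  M.toCoxeterSystem.lift_apply_simple _ i

theorem coxHom_pr (ω : List (Fin D.rank)) : coxHom D hD M hM (pr M.simple ω) = pr (fS D hD) ω := by
  induction ω with
  | nil => exact map_one _
  | cons i ω ih => rw [pr_cons, pr_cons, map_mul, coxHom_simple, ih]

theorem cox_gen (x : M.Group) : ∃ ω : List (Fin D.rank), x = pr M.simple ω := by
  obtain ⟨ω, rfl⟩ := M.toCoxeterSystem.wordProd_surjective x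
  exact ⟨ω, rfl⟩

theorem coxHom_injective : Function.Injective (coxHom D hD M hM) := by
  apply injective_of_exchange (fS D hD) M.simple (coxHom D hD M hM) (coxHom_simple D hD M hM) (cox_gen D M)
  · intro i
    exact M.toCoxeterSystem.simple_mul_simple_self i
  · exact exchange_fS D hD
  · intro s t q hq
    have hd : M s t ∣ q := by
      rw [← hM]
      exact orderOf_dvd_of_pow_eq_one hq
    obtain ⟨c, rfl⟩ := hd
    rw [pow_mul]
    have h1 := M.toCoxeterSystem.simple_mul_simple_pow s t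
    rw [CoxeterMatrix.toCoxeterSystem_simple] at h1
    rw [h1, one_pow]

theorem coxHom_range : (coxHom D hD M hM).range = Wg D hD := by
  apply le_antisymm
  · rintro _ ⟨x, rfl⟩
    obtain ⟨ω, rfl⟩ := cox_gen D M x
    rw [coxHom_pr, pr_fS]
    exact permOf_mem D hD _ (valid_map D ω)
  · rintro σ ⟨is, his, rfl⟩
    refine ⟨pr M.simple (toFin D.rank is his), ?_⟩
    rw [coxHom_pr, pr_fS, toFin_map]

end cox

theorem card_cox (D : ChevalleyDatum) (hD : D ∈ [chevG2, chevB2, chevD4, chevF4, chevE6, chevE7, chevE8])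
    (M : CoxeterMatrix (Fin D.rank)) (hM : ∀ i j : Fin D.rank, orderOf (fS D hD i * fS D hD j) = M i j) :
    Nat.card M.Group = Nat.card (Wg D hD) := by
  rw [← coxHom_range D hD M hM]
  exact Nat.card_congr (MonoidHom.ofInjective (coxHom_injective D hD M hM)).toEquiv

end Cfsg.Agent.Lib.Helper7.ChevCox
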