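import Cfsg.Agent.Lib.Helper7.CoxAll

set_option autoImplicit false
set_option maxRecDepth 1000000
set_option maxHeartbeats 4000000

namespace Cfsg.Agent.Lib.Helper7.ChevCoxElt
open Cfsg.Lie Cfsg.Agent.Lib.Helper7.ChevW0 Cfsg.Agent.Lib.Helper7.W0All Cfsg.Agent.Lib.Helper7.ChevWPerm
  Cfsg.Agent.Lib.Helper7.WPermAll Cfsg.Agent.Lib.Helper7.ChevWGrp Cfsg.Agent.Lib.Helper7.ChevChain
  Cfsg.Agent.Lib.Helper7.PoinAbs Cfsg.Agent.Lib.Helper7.ChevCox Cfsg.Agent.Lib.Helper7.CoxAll
  Cfsg.Agent.Lib.Helper7.TitsWord Equiv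

def repW (w : List ℕ) : ℕ → List ℕ
  | 0 => []
  | k + 1 => w ++ repW w k

def ordCheckW (D : ChevalleyDatum) (Wtab : List ℕ) (w : List ℕ) (m : ℕ) : Bool :=
  decide (0 < m) && w.all (fun i => decide (i < D.rank)) &&
  ((List.range D.nroots).all fun r => decide (wActP Wtab (repW w m) r = r)) &&
  ((List.range m).all fun k => k == 0 || (List.range D.nroots).any fun r => !decide (wActP Wtab (repW w k) r = r))

theorem permOf_repW (D : ChevalleyDatum) (hD : D ∈ [chevG2, chevB2, chevD4, chevF4, chevE6, chevE7, chevE8])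
    (w : List ℕ) (k : ℕ) : permOf D hD (repW w k) = (permOf D hD w) ^ k := by
  induction k with
  | zero => rfl
  | succ k ih =>
    show permOf D hD (w ++ repW w k) = _
    rw [permOf_append, ih, pow_succ']

theorem repW_valid (l : ℕ) (w : List ℕ) (hw : ∀ x ∈ w, x < l) (k : ℕ) : ∀ x ∈ repW w k, x < l := by
  induction k with
  | zero => intro x hx; simp [repW] at hx
  | succ k ih =>
    intro x hx
    simp only [repW, List.mem_append] at hx
    rcases hx with hx | hx
    · exact hw x hx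
    · exact ih x hx

theorem ordW_of_check (D : ChevalleyDatum) (hD : D ∈ [chevG2, chevB2, chevD4, chevF4, chevE6, chevE7, chevE8])
    (Wtab : List ℕ) (hW : WtabOk D Wtab) (w : List ℕ) (m : ℕ)
    (h : ordCheckW D Wtab w m = true) : orderOf (permOf D hD w) = m := by
  unfold ordCheckW at h
  simp only [Bool.and_eq_true, decide_eq_true_eq, List.all_eq_true, List.mem_range, Bool.or_eq_true,
    beq_iff_eq, List.any_eq_true, Bool.not_eq_eq_eq_not, Bool.not_true, decide_eq_false_iff_not] at h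
  obtain ⟨⟨⟨hm, hw⟩, ha⟩, hb⟩ := h
  have key : ∀ k : ℕ, ∀ r : Fin D.nroots,
      ((((permOf D hD w) ^ k) r : Fin D.nroots) : ℕ) = wActP Wtab (repW w k) r := by
    intro k r
    rw [← permOf_repW, permOf_apply D hD _ (repW_valid D.rank w hw k)]
    exact (wAct_eq D hD Wtab hW _ (repW_valid D.rank w hw k) r r.isLt).1
  rw [orderOf_eq_iff hm]
  constructor
  · ext r
    rw [key, ha r r.isLt]
    rfl
  · intro k hk hk0 hone
    rcases hb k hk with h0 | ⟨r, hr, hne⟩
    · omega
    · apply hne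
      have h3 := key k ⟨r, hr⟩
      rw [hone] at h3
      exact h3.symm

theorem cox_elt (D : ChevalleyDatum) (hD : D ∈ [chevG2, chevB2, chevD4, chevF4, chevE6, chevE7, chevE8])
    (M : CoxeterMatrix (Fin D.rank)) (hM : ∀ i j : Fin D.rank, orderOf (fS D hD i * fS D hD j) = M i j)
    (Wtab : List ℕ) (hW : WtabOk D Wtab) (m : ℕ) (h : ordCheckW D Wtab (List.range D.rank) m = true) :
    orderOf ((List.finRange D.rank).map M.simple).prod = m := by
  have hinj := coxHom_injective D hD M hM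
  rw [← orderOf_injective (coxHom D hD M hM) hinj]
  have e : coxHom D hD M hM ((List.finRange D.rank).map M.simple).prod = permOf D hD (List.range D.rank) := by
    have h1 := coxHom_pr D hD M hM (List.finRange D.rank)
    rw [pr_fS] at h1
    have h2 : (List.finRange D.rank).map Fin.val = List.range D.rank := List.map_coe_finRange_eq_range
    rw [h2] at h1
    exact h1
  rw [e]
  exact ordW_of_check D hD Wtab hW _ m h

theorem ceG2 : orderOf ((List.finRange 2).map (CoxeterMatrix.G₂).simple).prod = 6 :=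
  cox_elt chevG2 Cfsg.Agent.Lib.Helper7.ChainG2.hm (CoxeterMatrix.G₂) omG2 wtG2 woG2 6 (by decide +kernel)

theorem ceB2 : orderOf ((List.finRange 2).map (CoxeterMatrix.B 2).simple).prod = 4 :=
  cox_elt chevB2 Cfsg.Agent.Lib.Helper7.ChainB2.hm (CoxeterMatrix.B 2) omB2 wtB2 woB2 4 (by decide +kernel)

theorem ceD4 : orderOf ((List.finRange 4).map (Cfsg.Lie.coxeterD4).simple).prod = 6 :=
  cox_elt chevD4 Cfsg.Agent.Lib.Helper7.ChainD4.hm (Cfsg.Lie.coxeterD4) omD4 wtD4 woD4 6 (by decide +kernel)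

theorem ceF4 : orderOf ((List.finRange 4).map (CoxeterMatrix.F₄).simple).prod = 12 :=
  cox_elt chevF4 Cfsg.Agent.Lib.Helper7.ChainF4.hm (CoxeterMatrix.F₄) omF4 wtF4 woF4 12 (by decide +kernel)

theorem ceE6 : orderOf ((List.finRange 6).map (CoxeterMatrix.E₆).simple).prod = 12 :=
  cox_elt chevE6 Cfsg.Agent.Lib.Helper7.ChainE6.hm (CoxeterMatrix.E₆) omE6 wtE6 woE6 12 (by decide +kernel)

theorem ceE7 : orderOf ((List.finRange 7).map (CoxeterMatrix.E₇).simple).prod = 18 :=
  cox_elt chevE7 Cfsg.Agent.Lib.Helper7.ChainE7.hm (CoxeterMatrix.E₇) omE7 wtE7 woE7 18 (by decide +kernel)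

theorem ceE8 : orderOf ((List.finRange 8).map (CoxeterMatrix.E₈).simple).prod = 30 :=
  cox_elt chevE8 Cfsg.Agent.Lib.Helper7.ChainE8.hm (CoxeterMatrix.E₈) omE8 wtE8 woE8 30 (by decide +kernel)

end Cfsg.Agent.Lib.Helper7.ChevCoxElt
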