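import Cfsg.Agent.Lib.Helper7.ChevWGrp
import Cfsg.Agent.S1036

set_option autoImplicit false
set_option maxHeartbeats 400000
set_option maxRecDepth 1000000

namespace Cfsg.Agent.Lib.Helper7.ChevOrder
open Cfsg.Lie Cfsg.Agent.Lib.Helper7.ChevEngine Cfsg.Agent.Lib.Helper7.ChevN
  Cfsg.Agent.Lib.Helper7.ChevConj
  Cfsg.Agent.Lib.Helper7.ChevConjT Cfsg.Agent.Lib.Helper7.ChevConjU Cfsg.Agent.Lib.Helper7.ChevAdd
  Cfsg.Agent.Lib.Helper7.ChevHAll Cfsg.Agent.Lib.Helper7.HBaseAll Cfsg.Agent.Lib.Helper7.ChevTorus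
  Cfsg.Agent.Lib.Helper7.ChevBN Cfsg.Agent.Lib.Helper7.ChevGen Cfsg.Agent.Lib.Helper7.ChevOrb
  Cfsg.Agent.Lib.Helper7.ChevW0 Cfsg.Agent.Lib.Helper7.ChevComm Cfsg.Agent.Lib.Helper7.ChevPerf
  Cfsg.Agent.Lib.Helper7.ChevRel Cfsg.Agent.Lib.Helper7.Shift Cfsg.Agent.Lib.Helper7.Tri2
  Cfsg.Agent.Lib.Helper7.ChevTri Cfsg.Agent.Lib.Helper7.ChevTriNeg Cfsg.Agent.Lib.Helper7.ChevNW
  Cfsg.Agent.Lib.Helper7.W0All Cfsg.Agent.Lib.Helper7.ChevExch Cfsg.Agent.Lib.Helper7.RelAll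
  Cfsg.Agent.Lib.Helper7.ChevBN3 Cfsg.Agent.Lib.Helper7.ChevBNP Cfsg.Agent.Lib.Helper7.ChevBruhat
  Cfsg.Agent.Lib.Helper7.ChevCell Cfsg.Agent.Lib.Helper7.PoinAbs Cfsg.Agent.Lib.Helper7.ChevWPerm
  Cfsg.Agent.Lib.Helper7.WPermAll Cfsg.Agent.Lib.Helper7.ChevWGrp Equiv

section
variable {F : Type*} [Field F]

theorem same_perm_H (D : ChevalleyDatum) (hD : D ∈ [chevG2, chevB2, chevD4, chevF4, chevE6, chevE7, chevE8])
    (is is' : List ℕ) (his : ∀ i ∈ is, i < D.rank) (his' : ∀ i ∈ is', i < D.rank)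
    (h : ∀ r < D.nroots, wAct D is r = wAct D is' r) :
    (nWordGL (F := F) D hD is)⁻¹ * nWordGL D hD is' ∈ D.diagonalSubgroup F := by
  obtain ⟨h0, hh0, js, hjs, e⟩ := form_nW_inv (F := F) D hD is his
  have e0 : h0 * nWordGL D hD js * nWordGL D hD is = 1 := by rw [← e, inv_mul_cancel]
  have e1 : nWordGL (F := F) D hD (js ++ is) = h0⁻¹ := by
    rw [nWordGL_append]
    calc nWordGL D hD js * nWordGL D hD is = h0⁻¹ * (h0 * nWordGL D hD js * nWordGL D hD is) := by group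
      _ = h0⁻¹ := by rw [e0, mul_one]
  have hv1 : ∀ i ∈ js ++ is, i < D.rank := by
    intro i hi
    rcases List.mem_append.mp hi with h | h
    · exact hjs i h
    · exact his i h
  have hv2 : ∀ i ∈ js ++ is', i < D.rank := by
    intro i hi
    rcases List.mem_append.mp hi with h | h
    · exact hjs i h
    · exact his' i h
  have hTG : nWordGL (F := F) D hD (js ++ is) ∈ TG (R := F) (bfun D.rank D.nroots) := by
    rw [e1]
    exact Cfsg.Agent.S1037.borel_le_TG D hD (H_le_B D (inv_mem hh0))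
  have hfix := perm_of_TG D hD (js ++ is) hv1 hTG
  have hfix' : ∀ r < D.nroots, wAct D (js ++ is') r = r := by
    intro r hr
    rw [wAct_append, ← h r hr, ← wAct_append]
    exact hfix r hr
  have h3 := reduce (F := F) D hD _ (js ++ is') rfl hv2 hfix'
  rw [e, mul_assoc, ← nWordGL_append]
  exact mul_mem hh0 h3

theorem cell_le (D : ChevalleyDatum) (n n' : GL D.Idx F) (h : n'⁻¹ * n ∈ D.borelSubgroup F) :
    Cell D n ⊆ Cell D n' := by
  rintro g ⟨b, hb, b', hb', rfl⟩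
  refine ⟨b, hb, n'⁻¹ * n * b', mul_mem h hb', ?_⟩
  group

theorem cell_eq (D : ChevalleyDatum) (n n' : GL D.Idx F) (h : n⁻¹ * n' ∈ D.borelSubgroup F) :
    Cell D n = Cell D n' := by
  apply Set.Subset.antisymm
  · apply cell_le
    have e : n'⁻¹ * n = (n⁻¹ * n')⁻¹ := by group
    rw [e]
    exact inv_mem h
  · exact cell_le D n' n h

theorem cell_H_mul (D : ChevalleyDatum) (h n : GL D.Idx F) (hh : h ∈ D.borelSubgroup F) :
    Cell D (h * n) = Cell D n := by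
  ext g
  constructor
  · rintro ⟨b, hb, b', hb', rfl⟩
    exact ⟨b * h, mul_mem hb hh, b', hb', by group⟩
  · rintro ⟨b, hb, b', hb', rfl⟩
    exact ⟨b * h⁻¹, mul_mem hb (inv_mem hh), b', hb', by group⟩

def CellP (D : ChevalleyDatum) (hD : D ∈ [chevG2, chevB2, chevD4, chevF4, chevE6, chevE7, chevE8])
    (σ : Perm (Fin D.nroots)) : Set (GL D.Idx F) :=
  {g | ∃ is : List ℕ, (∀ i ∈ is, i < D.rank) ∧ permOf D hD is = σ ∧ g ∈ Cell D (nWordGL D hD is)}

theorem wAct_of_permOf (D : ChevalleyDatum) (hD : D ∈ [chevG2, chevB2, chevD4, chevF4, chevE6, chevE7, chevE8])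
    (is is' : List ℕ) (his : ∀ i ∈ is, i < D.rank) (his' : ∀ i ∈ is', i < D.rank)
    (h : permOf D hD is = permOf D hD is') : ∀ r < D.nroots, wAct D is r = wAct D is' r := by
  intro r hr
  rw [← permOf_apply D hD is his ⟨r, hr⟩, ← permOf_apply D hD is' his' ⟨r, hr⟩, h]

theorem cellP_eq (D : ChevalleyDatum) (hD : D ∈ [chevG2, chevB2, chevD4, chevF4, chevE6, chevE7, chevE8])
    (is : List ℕ) (his : ∀ i ∈ is, i < D.rank) :
    CellP (F := F) D hD (permOf D hD is) = Cell D (nWordGL D hD is) := by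
  ext g
  constructor
  · rintro ⟨is', his', e, hg⟩
    have h1 := same_perm_H (F := F) D hD is' is his' his (wAct_of_permOf D hD is' is his' his e)
    rw [← cell_eq D _ _ (H_le_B D h1)]
    exact hg
  · intro hg
    exact ⟨is, his, rfl, hg⟩

theorem cellP_card [Fintype F] (D : ChevalleyDatum)
    (hD : D ∈ [chevG2, chevB2, chevD4, chevF4, chevE6, chevE7, chevE8])
    (σ : Perm (Fin D.nroots)) (hσ : σ ∈ Wg D hD) :
    (CellP (F := F) D hD σ).ncard = Fintype.card F ^ Nv (sgn D hD) σ * Nat.card (D.borelSubgroup F) := by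
  obtain ⟨is, hgood, rfl⟩ := exists_good D hD σ hσ
  rw [cellP_eq D hD is (goodW_valid D is hgood), cell_card_good D hD is hgood, Nv_good D hD is hgood]

theorem cellP_cover (D : ChevalleyDatum) (hD : D ∈ [chevG2, chevB2, chevD4, chevF4, chevE6, chevE7, chevE8])
    (g : GL D.Idx F) (hg : g ∈ D.group F) : ∃ σ ∈ Wg D hD, g ∈ CellP (F := F) D hD σ := by
  obtain ⟨b, hb, n, hn, u, hu, rfl⟩ := bruhat_exists D hD g hg
  obtain ⟨h, hh, is, his, rfl⟩ := mono_form D hD n hn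
  refine ⟨permOf D hD is, permOf_mem D hD is his, is, his, rfl, ?_⟩
  exact ⟨b * h, mul_mem hb (H_le_B D hh), u, U_le_B D (Un_le_U D _ hu), by group⟩

theorem cellP_disjoint (D : ChevalleyDatum) (hD : D ∈ [chevG2, chevB2, chevD4, chevF4, chevE6, chevE7, chevE8])
    (σ σ' : Perm (Fin D.nroots)) (g : GL D.Idx F) (h1 : g ∈ CellP (F := F) D hD σ)
    (h2 : g ∈ CellP (F := F) D hD σ') : σ = σ' := by
  obtain ⟨is, his, rfl, b, hb, b', hb', rfl⟩ := h1
  obtain ⟨is', his', rfl, c, hc, c', hc', e⟩ := h2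
  have h3 := cell_inj D hD b c (nWordGL D hD is) (nWordGL D hD is') b' c' hb hc (nWordGL_mem D hD is his)
    (nWordGL_mem D hD is' his') hb' hc' e
  have e2 : nWordGL (F := F) D hD is' =
      (nWordGL D hD is * ((nWordGL D hD is)⁻¹ * nWordGL D hD is') * (nWordGL D hD is)⁻¹) * nWordGL D hD is := by
    group
  apply permOf_ext D hD is is' his his'
  intro r hr
  exact (same_perm D hD is' is his' his _ (nW_conj_H D hD is his _ h3) e2 r hr).symm

theorem cellP_sub (D : ChevalleyDatum) (hD : D ∈ [chevG2, chevB2, chevD4, chevF4, chevE6, chevE7, chevE8])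
    (σ : Perm (Fin D.nroots)) (g : GL D.Idx F) (h1 : g ∈ CellP (F := F) D hD σ) : g ∈ D.group F := by
  obtain ⟨hBG, hNG, -⟩ := Cfsg.Agent.S1043.result (F := F) D hD
  obtain ⟨is, his, -, b, hb, b', hb', rfl⟩ := h1
  exact mul_mem (mul_mem (hBG hb) (hNG (nWordGL_mem D hD is his))) (hBG hb')

theorem card_borel [Fintype F] (D : ChevalleyDatum)
    (hD : D ∈ [chevG2, chevB2, chevD4, chevF4, chevE6, chevE7, chevE8]) :
    Nat.card (D.borelSubgroup F) = Nat.card (D.posUnipotent F) * Nat.card (D.diagonalSubgroup F) := by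
  classical
  have hUH := (Cfsg.Agent.S1036.result (F := F) D hD).2
  have himg : (D.borelSubgroup F : Set (GL D.Idx F)) =
      (fun p : GL D.Idx F × GL D.Idx F => p.1 * p.2) ''
        ((D.posUnipotent F : Set (GL D.Idx F)) ×ˢ (D.diagonalSubgroup F : Set (GL D.Idx F))) := by
    ext g
    constructor
    · intro hg
      obtain ⟨u, hu, h, hh, rfl⟩ := B_decomp D hD g hg
      exact ⟨(u, h), ⟨hu, hh⟩, rfl⟩
    · rintro ⟨⟨u, h⟩, ⟨hu, hh⟩, rfl⟩
      exact mul_mem (U_le_B D hu) (H_le_B D hh)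
  have hinj : Set.InjOn (fun p : GL D.Idx F × GL D.Idx F => p.1 * p.2)
      ((D.posUnipotent F : Set (GL D.Idx F)) ×ˢ (D.diagonalSubgroup F : Set (GL D.Idx F))) := by
    rintro ⟨u, h⟩ ⟨hu, hh⟩ ⟨u', h'⟩ ⟨hu', hh'⟩ e
    have e' : u * h = u' * h' := e
    have e1 : u'⁻¹ * u = h' * h⁻¹ := by
      have : u = u' * h' * h⁻¹ := eq_mul_inv_of_mul_eq e'
      rw [this]
      group
    have h1 : u'⁻¹ * u ∈ D.posUnipotent F ⊓ D.diagonalSubgroup F :=
      Subgroup.mem_inf.mpr ⟨mul_mem (inv_mem hu') hu, e1 ▸ mul_mem hh' (inv_mem hh)⟩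
    rw [hUH, Subgroup.mem_bot] at h1
    have huu : u' = u := inv_mul_eq_one.mp h1
    subst huu
    have hhh : h = h' := mul_left_cancel e'
    rw [hhh]
  have h0 : Nat.card (D.borelSubgroup F) = (D.borelSubgroup F : Set (GL D.Idx F)).ncard := rfl
  rw [h0, himg, Set.InjOn.ncard_image hinj, Set.ncard_prod]
  rfl

theorem card_group [Fintype F] (D : ChevalleyDatum)
    (hD : D ∈ [chevG2, chevB2, chevD4, chevF4, chevE6, chevE7, chevE8]) [Fintype ↥(Wg D hD)] :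
    Nat.card (D.group F) = Nat.card (D.borelSubgroup F) *
      ∑ σ : ↥(Wg D hD), Fintype.card F ^ Nv (sgn D hD) (σ : Perm (Fin D.nroots)) := by
  classical
  let f : (Σ σ : ↥(Wg D hD), ↥(CellP (F := F) D hD (σ : Perm (Fin D.nroots)))) → ↥(D.group F) :=
    fun p => ⟨p.2.1, cellP_sub D hD _ _ p.2.2⟩
  have hf : Function.Bijective f := by
    constructor
    · rintro ⟨σ, g, hg⟩ ⟨σ', g', hg'⟩ e
      have e1 : g = g' := congrArg Subtype.val e
      subst e1
      have e2 : (σ : Perm (Fin D.nroots)) = σ' := cellP_disjoint D hD _ _ g hg hg'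
      have e3 : σ = σ' := Subtype.ext e2
      subst e3
      rfl
    · rintro ⟨g, hg⟩
      obtain ⟨σ, hσ, hgσ⟩ := cellP_cover D hD g hg
      exact ⟨⟨⟨σ, hσ⟩, ⟨g, hgσ⟩⟩, rfl⟩
  rw [← Nat.card_congr (Equiv.ofBijective f hf), Nat.card_sigma, Finset.mul_sum]
  apply Finset.sum_congr rfl
  intro σ _
  rw [Nat.card_coe_set_eq, cellP_card D hD _ σ.2, mul_comm]

end

end Cfsg.Agent.Lib.Helper7.ChevOrder
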