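import Cfsg.Agent.Lib.Helper7.ChevCox
import Cfsg.Agent.Lib.Helper7.ChevOrder

set_option autoImplicit false
set_option maxHeartbeats 400000
set_option maxRecDepth 1000000

namespace Cfsg.Agent.Lib.Helper7.ChevNQuot
open Cfsg.Lie Cfsg.Agent.Lib.Helper7.ChevEngine Cfsg.Agent.Lib.Helper7.ChevN
  Cfsg.Agent.Lib.Helper7.ChevConj
  Cfsg.Agent.Lib.Helper7.ChevConjT Cfsg.Agent.Lib.Helper7.ChevConjU Cfsg.Agent.Lib.Helper7.ChevAdd
  Cfsg.Agent.Lib.Helper7.ChevHAll Cfsg.Agent.Lib.Helper7.HBaseAll Cfsg.Agent.Lib.Helper7.ChevTorus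
  Cfsg.Agent.Lib.Helper7.ChevBN Cfsg.Agent.Lib.Helper7.ChevGen Cfsg.Agent.Lib.Helper7.ChevOrb
  Cfsg.Agent.Lib.Helper7.ChevW0 Cfsg.Agent.Lib.Helper7.ChevComm Cfsg.Agent.Lib.Helper7.ChevPerf
  Cfsg.Agent.Lib.Helper7.ChevRel Cfsg.Agent.Lib.Helper7.Shift Cfsg.Agent.Lib.Helper7.Tri2
  Cfsg.Agent.Lib.Helper7.ChevTri Cfsg.Agent.Lib.Helper7.ChevTriNeg Cfsg.Agent.Lib.Helper7.ChevNW
  Cfsg.Agent.Lib.Helper7.W0All Cfsg.Agent.Lib.Helper7.ChevExch Cfsg.Agent.Lib.Helper7.RelAll
  Cfsg.Agent.Lib.Helper7.ChevBN3 Cfsg.Agent.Lib.Helper7.ChevBNP Cfsg.Agent.Lib.Helper7.ChevBruhat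
  Cfsg.Agent.Lib.Helper7.ChevCell Cfsg.Agent.Lib.Helper7.PoinAbs Cfsg.Agent.Lib.Helper7.ChevWPerm
  Cfsg.Agent.Lib.Helper7.WPermAll Cfsg.Agent.Lib.Helper7.ChevWGrp Cfsg.Agent.Lib.Helper7.TitsWord
  Cfsg.Agent.Lib.Helper7.ChevCox Cfsg.Agent.Lib.Helper7.ChevOrder Equiv

section
variable {F : Type*} [Field F]
variable (D : ChevalleyDatum) (hD : D ∈ [chevG2, chevB2, chevD4, chevF4, chevE6, chevE7, chevE8])

theorem exists_word (g : GL D.Idx F) (hg : g ∈ D.monomialSubgroup F) :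
    ∃ is : List ℕ, (∀ i ∈ is, i < D.rank) ∧ ∃ h ∈ D.diagonalSubgroup F, g = h * nWordGL D hD is := by
  obtain ⟨h, hh, is, his, e⟩ := mono_form D hD g hg
  exact ⟨is, his, h, hh, e⟩

noncomputable def wd (g : ↥(D.monomialSubgroup F)) : List ℕ := Classical.choose (exists_word D hD g.1 g.2)

theorem wd_valid (g : ↥(D.monomialSubgroup F)) : ∀ i ∈ wd D hD g, i < D.rank :=
  (Classical.choose_spec (exists_word D hD g.1 g.2)).1

theorem wd_spec (g : ↥(D.monomialSubgroup F)) :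
    ∃ h ∈ D.diagonalSubgroup F, (g : GL D.Idx F) = h * nWordGL D hD (wd D hD g) :=
  (Classical.choose_spec (exists_word D hD g.1 g.2)).2

noncomputable def psiFun (g : ↥(D.monomialSubgroup F)) : Perm (Fin D.nroots) := permOf D hD (wd D hD g)

theorem psi_eq (g : ↥(D.monomialSubgroup F)) (is : List ℕ) (his : ∀ i ∈ is, i < D.rank)
    (h : GL D.Idx F) (hh : h ∈ D.diagonalSubgroup F) (e : (g : GL D.Idx F) = h * nWordGL D hD is) :
    psiFun D hD g = permOf D hD is := by
  obtain ⟨h0, hh0, e0⟩ := wd_spec D hD g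
  unfold psiFun
  apply permOf_ext D hD _ _ (wd_valid D hD g) his
  intro r hr
  apply same_perm (F := F) D hD _ _ (wd_valid D hD g) his (h0⁻¹ * h) (mul_mem (inv_mem hh0) hh) _ r hr
  rw [mul_assoc, ← e, e0, inv_mul_cancel_left]

noncomputable def psi : ↥(D.monomialSubgroup F) →* Perm (Fin D.nroots) where
  toFun := psiFun D hD
  map_one' := by
    have h := psi_eq D hD (1 : ↥(D.monomialSubgroup F)) [] (by simp) 1 (one_mem _)
      (by rw [nWordGL_nil, mul_one]; rfl)
    rw [h, permOf_nil]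
  map_mul' := by
    intro g1 g2
    obtain ⟨a, ha, e1⟩ := wd_spec D hD g1
    obtain ⟨b, hb, e2⟩ := wd_spec D hD g2
    have hv : ∀ i ∈ wd D hD g1 ++ wd D hD g2, i < D.rank := by
      intro i hi
      rcases List.mem_append.mp hi with h | h
      · exact wd_valid D hD g1 i h
      · exact wd_valid D hD g2 i h
    have h := psi_eq D hD (g1 * g2) (wd D hD g1 ++ wd D hD g2) hv
      (a * (nWordGL D hD (wd D hD g1) * b * (nWordGL D hD (wd D hD g1))⁻¹))
      (mul_mem ha (nW_conj_H D hD _ (wd_valid D hD g1) b hb))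
      (by
        rw [Subgroup.coe_mul, e1, e2, nWordGL_append]
        group)
    rw [h, permOf_append]
    rfl

theorem psi_apply (g : ↥(D.monomialSubgroup F)) (is : List ℕ) (his : ∀ i ∈ is, i < D.rank)
    (h : GL D.Idx F) (hh : h ∈ D.diagonalSubgroup F) (e : (g : GL D.Idx F) = h * nWordGL D hD is) :
    psi D hD g = permOf D hD is := psi_eq D hD g is his h hh e

theorem psi_mem (g : ↥(D.monomialSubgroup F)) : psi D hD g ∈ Wg D hD :=
  permOf_mem D hD _ (wd_valid D hD g)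

theorem psi_eq_one_iff (g : ↥(D.monomialSubgroup F)) :
    psi D hD g = 1 ↔ (g : GL D.Idx F) ∈ D.diagonalSubgroup F := by
  constructor
  · intro h1
    obtain ⟨a, ha, e⟩ := wd_spec D hD g
    rw [e]
    apply mul_mem ha
    apply reduce (F := F) D hD _ (wd D hD g) rfl (wd_valid D hD g)
    intro r hr
    have h2 : permOf D hD (wd D hD g) = 1 := h1
    have h3 := permOf_apply D hD (wd D hD g) (wd_valid D hD g) ⟨r, hr⟩
    rw [h2] at h3
    exact h3.symm
  · intro hg
    have h := psi_apply D hD g [] (by simp) (g : GL D.Idx F) hg (by rw [nWordGL_nil, mul_one])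
    rw [h, permOf_nil]

theorem psi_nW (is : List ℕ) (his : ∀ i ∈ is, i < D.rank) :
    psi D hD ⟨nWordGL (F := F) D hD is, nWordGL_mem D hD is his⟩ = permOf D hD is :=
  psi_apply D hD _ is his 1 (one_mem _) (by rw [one_mul])

theorem psi_simple (i : Fin D.rank) (g : ↥(D.monomialSubgroup F))
    (hg : ((g : GL D.Idx F) : Matrix D.Idx D.Idx F) = D.nMat F (D.simple i) 1) :
    psi D hD g = fS D hD i := by
  have e : (g : GL D.Idx F) = 1 * nWordGL D hD [i.val] := by
    rw [one_mul, nWordGL_cons, nWordGL_nil, mul_one]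
    apply Units.ext
    rw [hg, nI_val]
  have h := psi_apply D hD g [i.val] (by intro j hj; rw [List.mem_singleton] at hj; rw [hj]; exact i.isLt)
    1 (one_mem _) e
  rw [h, permOf_cons, permOf_nil, mul_one]
  rfl

theorem nquot (M : CoxeterMatrix (Fin D.rank)) (hM : ∀ i j : Fin D.rank, orderOf (fS D hD i * fS D hD j) = M i j) :
    ∃ φ : ↥(D.monomialSubgroup F) →* M.Group, Function.Surjective φ ∧
      φ.ker = (D.diagonalSubgroup F).subgroupOf (D.monomialSubgroup F) ∧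
      ∀ (i : Fin D.rank) (g : ↥(D.monomialSubgroup F)),
        ((g : GL D.Idx F) : Matrix D.Idx D.Idx F) = D.nMat F (D.simple i) 1 → φ g = M.simple i := by
  have hinj := coxHom_injective D hD M hM
  have hrange := coxHom_range D hD M hM
  have hmem : ∀ g : ↥(D.monomialSubgroup F), psi D hD g ∈ (coxHom D hD M hM).range := by
    intro g
    rw [hrange]
    exact psi_mem D hD g
  let e := MonoidHom.ofInjective hinj
  let φ : ↥(D.monomialSubgroup F) →* M.Group :=
    e.symm.toMonoidHom.comp ((psi D hD).codRestrict (coxHom D hD M hM).range hmem)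
  have hφ : ∀ g : ↥(D.monomialSubgroup F), coxHom D hD M hM (φ g) = psi D hD g := by
    intro g
    have h1 : e (φ g) = (psi D hD).codRestrict (coxHom D hD M hM).range hmem g := e.apply_symm_apply _
    have h2 := congrArg Subtype.val h1
    exact h2
  refine ⟨φ, ?_, ?_, ?_⟩
  · intro x
    have hx : coxHom D hD M hM x ∈ Wg D hD := by
      rw [← hrange]
      exact ⟨x, rfl⟩
    obtain ⟨is, his, e1⟩ := hx
    refine ⟨⟨nWordGL (F := F) D hD is, nWordGL_mem D hD is his⟩, ?_⟩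
    apply hinj
    rw [hφ, psi_nW D hD is his, e1]
  · ext g
    rw [MonoidHom.mem_ker, Subgroup.mem_subgroupOf, ← psi_eq_one_iff D hD g]
    constructor
    · intro h1
      rw [← hφ, h1, map_one]
    · intro h1
      apply hinj
      rw [hφ, h1, map_one]
  · intro i g hg
    apply hinj
    rw [hφ, psi_simple D hD i g hg, coxHom_simple]

end

end Cfsg.Agent.Lib.Helper7.ChevNQuot
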