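import Cfsg.Agent.Lib.Helper7.CommAll
import Cfsg.Agent.Lib.Helper7.ChevBN3

set_option autoImplicit false

namespace Cfsg.Agent.Lib.Helper7.ChevPar
open Cfsg.Lie Cfsg.Agent.Lib.Helper7.ChevEngine Cfsg.Agent.Lib.Helper7.ChevN
  Cfsg.Agent.Lib.Helper7.ChevConjT Cfsg.Agent.Lib.Helper7.ChevConjU Cfsg.Agent.Lib.Helper7.ChevTorus
  Cfsg.Agent.Lib.Helper7.ChevNW Cfsg.Agent.Lib.Helper7.ChevBN Cfsg.Agent.Lib.Helper7.ChevBN3
  Cfsg.Agent.Lib.Helper7.ChevExch Cfsg.Agent.Lib.Helper7.HBaseAll Cfsg.Agent.Lib.Helper7.CommAll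
  Cfsg.Agent.Lib.Helper7.Shift

def jdescCheck (D : ChevalleyDatum) (LV PI : ℕ) : Bool :=
  (List.range D.nroots).all fun r =>
    (List.range D.rank).any (fun j => decide (D.simple j = r) || decide (D.neg (D.simple j) = r)) ||
    (decide (wdig PI r < D.rank) && decide ((fnsOf D).cor r (wdig PI r) ≠ 0) &&
      decide (D.reflectRoot (wdig PI r) r < D.nroots) &&
      decide (wdig LV (D.reflectRoot (wdig PI r) r) < wdig LV r))

theorem j_induction (D : ChevalleyDatum) (LV PI : ℕ) (h : jdescCheck D LV PI = true) (P : ℕ → Prop)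
    (base : ∀ j < D.rank, P (D.simple j) ∧ P (D.neg (D.simple j)))
    (step : ∀ i < D.rank, ∀ r < D.nroots, (fnsOf D).cor r i ≠ 0 → D.reflectRoot i r < D.nroots →
      P (D.reflectRoot i r) → P r) :
    ∀ r < D.nroots, P r := by
  have key : ∀ k, ∀ r < D.nroots, wdig LV r = k → P r := by
    intro k
    induction k using Nat.strong_induction_on with
    | _ k ih =>
      intro r hr hk
      unfold jdescCheck at h
      rw [List.all_eq_true] at h
      have h1 := h r (List.mem_range.mpr hr)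
      rw [Bool.or_eq_true] at h1
      rcases h1 with h1 | h1
      · rw [List.any_eq_true] at h1
        obtain ⟨j, hj, hjr⟩ := h1
        rw [Bool.or_eq_true, decide_eq_true_eq, decide_eq_true_eq] at hjr
        rcases hjr with hjr | hjr
        · rw [← hjr]
          exact (base j (List.mem_range.mp hj)).1
        · rw [← hjr]
          exact (base j (List.mem_range.mp hj)).2
      · simp only [Bool.and_eq_true, decide_eq_true_eq] at h1
        obtain ⟨⟨⟨h2, h2'⟩, h3⟩, h4⟩ := h1
        exact step _ h2 r hr h2' h3 (ih _ (hk ▸ h4) _ h3 rfl)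
  intro r hr
  exact key _ r hr rfl

def simpCheck (D : ChevalleyDatum) : Bool :=
  (List.range D.rank).all fun j =>
    decide (D.neg (D.simple j) < D.nroots) &&
    (List.range D.rank).all fun i =>
      decide ((fnsOf D).cor (D.neg (D.simple j)) i = if i = j then -1 else 0) &&
      decide ((fnsOf D).cor (D.simple j) i = if i = j then 1 else 0)

theorem simp_spec (D : ChevalleyDatum) (h : simpCheck D = true) (j : ℕ) (hj : j < D.rank) :
    D.neg (D.simple j) < D.nroots ∧ ∀ i < D.rank,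
      (fnsOf D).cor (D.neg (D.simple j)) i = (if i = j then -1 else 0) ∧
      (fnsOf D).cor (D.simple j) i = (if i = j then 1 else 0) := by
  unfold simpCheck at h
  simp only [List.all_eq_true, List.mem_range, Bool.and_eq_true, decide_eq_true_eq] at h
  exact h j hj

def pm3 (a b c : ℤ) : Bool :=
  (!(decide (0 < a) && decide (0 ≤ b)) || decide (0 < c)) &&
  (!(decide (0 < b) && decide (0 ≤ a)) || decide (0 < c))

theorem pm3_spec (a b c : ℤ) (h : pm3 a b c = true) :
    (0 < a → 0 ≤ b → 0 < c) ∧ (0 < b → 0 ≤ a → 0 < c) := by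
  unfold pm3 at h
  simp only [Bool.and_eq_true, Bool.or_eq_true, Bool.not_eq_true', decide_eq_true_eq,
    Bool.and_eq_false_iff, decide_eq_false_iff_not] at h
  constructor
  · intro h1 h2
    omega
  · intro h1 h2
    omega

theorem cor_toList (D : ChevalleyDatum) (r k : ℕ) :
    (fnsOf D).cor r k = (D.coroot.getD r #[]).toList.getD k 0 := by
  simp [fnsOf, List.getD_eq_getElem?_getD, Array.getD_eq_getD_getElem?]

def cdig (T l r k : ℕ) : ℤ := (((T >>> (4 * (l * r + k))) % 16 : ℕ) : ℤ) - 8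

def corCheck (D : ChevalleyDatum) (COR : ℕ) : Bool :=
  (List.range D.nroots).all fun r => (List.range D.rank).all fun k =>
    decide (cdig COR D.rank r k = (fnsOf D).cor r k)

theorem cor_of_check (D : ChevalleyDatum) (COR : ℕ) (h : corCheck D COR = true) (r k : ℕ)
    (hr : r < D.nroots) (hk : k < D.rank) : cdig COR D.rank r k = (fnsOf D).cor r k := by
  unfold corCheck at h
  simp only [List.all_eq_true, List.mem_range, decide_eq_true_eq] at h
  exact h r hr k hk

def pmRow (D : ChevalleyDatum) (COR : ℕ) (r : ℕ) : Bool :=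
  (D.chain.getD r #[]).toList.all fun e => e.2.toList.all fun c =>
    decide (c.1 < D.nroots) && (List.range D.rank).all fun k =>
      pm3 (cdig COR D.rank r k) (cdig COR D.rank e.1 k) (cdig COR D.rank c.1 k)

def chunkOk (f : ℕ → Bool) (lo len : ℕ) : Bool := (List.range' lo len).all f

theorem chunk_spec (f : ℕ → Bool) (lo len : ℕ) (h : chunkOk f lo len = true) (r : ℕ) (h1 : lo ≤ r)
    (h2 : r < lo + len) : f r = true := by
  unfold chunkOk at h
  rw [List.all_eq_true] at h
  exact h r (by rw [List.mem_range'_1]; exact ⟨h1, h2⟩)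

def Q (D : ChevalleyDatum) (r s u : ℕ) : Prop :=
  u < D.nroots ∧ ∀ k < D.rank,
    (0 < (fnsOf D).cor r k → 0 ≤ (fnsOf D).cor s k → 0 < (fnsOf D).cor u k) ∧
    (0 < (fnsOf D).cor s k → 0 ≤ (fnsOf D).cor r k → 0 < (fnsOf D).cor u k)

theorem Q_symm {D : ChevalleyDatum} {r s u : ℕ} (h : Q D r s u) : Q D s r u :=
  ⟨h.1, fun k hk => ⟨(h.2 k hk).2, (h.2 k hk).1⟩⟩

theorem Q_trans {D : ChevalleyDatum} {r s k' u : ℕ} (h1 : Q D r s k') (h2 : Q D k' s u) : Q D r s u := by
  refine ⟨h2.1, fun k hk => ⟨?_, ?_⟩⟩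
  · intro ha hb
    exact (h2.2 k hk).1 ((h1.2 k hk).1 ha hb) hb
  · intro ha hb
    exact (h2.2 k hk).2 ha (le_of_lt ((h1.2 k hk).2 ha hb))

theorem pm_of_check (D : ChevalleyDatum) (COR : ℕ) (hcor : corCheck D COR = true)
    (h : ∀ r < D.nroots, pmRow D COR r = true) (r s : ℕ) (hr : r < D.nroots)
    (hs : s < D.nroots) : ∀ c ∈ D.chainEntry r s, Q D r s c.1 := by
  intro c hc
  have h2 := h r hr
  unfold pmRow at h2
  rw [List.all_eq_true] at h2
  unfold ChevalleyDatum.chainEntry at hc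
  split at hc
  · simp at hc
  · rename_i e he
    have hes : e.1 = s := by simpa using List.find?_some he
    have hmem := List.mem_of_find?_eq_some he
    have h3 := h2 e hmem
    rw [List.all_eq_true] at h3
    have h4 := h3 c hc
    rw [Bool.and_eq_true, decide_eq_true_eq, List.all_eq_true] at h4
    refine ⟨h4.1, fun k hk => ?_⟩
    have h5 := h4.2 k (List.mem_range.mpr hk)
    rw [hes, cor_of_check D COR hcor r k hr hk, cor_of_check D COR hcor s k hs hk,
      cor_of_check D COR hcor c.1 k h4.1 hk] at h5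
    exact pm3_spec _ _ _ h5

theorem chainRoot_mem (D : ChevalleyDatum) (r s i k : ℕ) (h : D.chainRoot r s i = some k) :
    ∃ c ∈ D.chainEntry r s, c.1 = k := by
  unfold ChevalleyDatum.chainRoot at h
  rw [Option.map_eq_some_iff] at h
  obtain ⟨c, hc, hk⟩ := h
  exact ⟨c, List.mem_of_getElem? hc, hk⟩

theorem commTerms_Q (D : ChevalleyDatum) (COR : ℕ) (hcor : corCheck D COR = true)
    (h : ∀ r < D.nroots, pmRow D COR r = true) (r s : ℕ) (hr : r < D.nroots)
    (hs : s < D.nroots) : ∀ c ∈ D.commTerms r s, Q D r s c.1 := by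
  intro c hc
  have A : ∀ i k, D.chainRoot r s i = some k → Q D r s k := by
    intro i k hk
    obtain ⟨c', hc', rfl⟩ := chainRoot_mem D r s i k hk
    exact pm_of_check D COR hcor h r s hr hs c' hc'
  have B : ∀ i k, D.chainRoot s r i = some k → Q D r s k := by
    intro i k hk
    obtain ⟨c', hc', rfl⟩ := chainRoot_mem D s r i k hk
    exact Q_symm (pm_of_check D COR hcor h s r hs hr c' hc')
  unfold ChevalleyDatum.commTerms at hc
  simp only [List.mem_filterMap, List.mem_cons, List.not_mem_nil, or_false] at hc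
  obtain ⟨cand, hcand, hmap⟩ := hc
  rw [Option.map_eq_some_iff] at hmap
  obtain ⟨k, hk, rfl⟩ := hmap
  rcases hcand with rfl | rfl | rfl | rfl | rfl | rfl | rfl
  · exact A 1 k hk
  · exact A 2 k hk
  · exact B 2 k hk
  · exact A 3 k hk
  · exact B 3 k hk
  · simp only [Option.bind_eq_some_iff] at hk
    obtain ⟨k', hk', hk2⟩ := hk
    have q1 := A 3 k' hk'
    obtain ⟨c', hc', rfl⟩ := chainRoot_mem D k' s 1 _ hk2
    exact Q_trans q1 (pm_of_check D COR hcor h k' s q1.1 hs c' hc')
  · simp only [Option.bind_eq_some_iff] at hk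
    obtain ⟨k', hk', hk2⟩ := hk
    have q1 := B 3 k' hk'
    obtain ⟨c', hc', rfl⟩ := chainRoot_mem D k' r 1 _ hk2
    exact Q_symm (Q_trans (Q_symm q1) (pm_of_check D COR hcor h k' r q1.1 hr c' hc'))

def rc (D : ChevalleyDatum) (RC : ℕ) (r k : ℕ) : ℤ := cdig RC D.rank r k

def rcRow (D : ChevalleyDatum) (COR RC : ℕ) (r : ℕ) : Bool :=
  (List.range D.rank).all (fun k =>
    (decide (0 < cdig RC D.rank r k) == decide (0 < cdig COR D.rank r k)) &&
    (decide (cdig RC D.rank r k = 0) == decide (cdig COR D.rank r k = 0)) &&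
    decide (cdig RC D.rank (D.neg r) k = - cdig RC D.rank r k)) &&
  (D.chain.getD r #[]).toList.all fun e => e.2.toList.zipIdx.all fun q =>
    (List.range D.rank).all fun k =>
      decide (cdig RC D.rank q.1.1 k = cdig RC D.rank e.1 k + ((q.2 + 1 : ℕ) : ℤ) * cdig RC D.rank r k)

def rcCheck (D : ChevalleyDatum) (COR RC : ℕ) : Prop := ∀ r < D.nroots, rcRow D COR RC r = true

theorem rc_sg (D : ChevalleyDatum) (COR RC : ℕ) (hcor : corCheck D COR = true)
    (h : rcCheck D COR RC) (r : ℕ) (hr : r < D.nroots) (k : ℕ) (hk : k < D.rank) :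
    (0 < rc D RC r k ↔ 0 < (fnsOf D).cor r k) ∧ (rc D RC r k = 0 ↔ (fnsOf D).cor r k = 0) := by
  have h1 := h r hr
  unfold rcRow at h1
  rw [Bool.and_eq_true, List.all_eq_true] at h1
  have h2 := h1.1 k (List.mem_range.mpr hk)
  rw [Bool.and_eq_true, Bool.and_eq_true, beq_iff_eq, beq_iff_eq, decide_eq_decide, decide_eq_decide,
    cor_of_check D COR hcor r k hr hk] at h2
  exact h2.1

theorem rc_neg (D : ChevalleyDatum) (COR RC : ℕ) (h : rcCheck D COR RC) (r : ℕ) (hr : r < D.nroots)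
    (k : ℕ) (hk : k < D.rank) : rc D RC (D.neg r) k = - rc D RC r k := by
  have h1 := h r hr
  unfold rcRow at h1
  rw [Bool.and_eq_true, List.all_eq_true] at h1
  have h2 := h1.1 k (List.mem_range.mpr hk)
  rw [Bool.and_eq_true, decide_eq_true_eq] at h2
  exact h2.2

theorem ch_pos (D : ChevalleyDatum) (r s : ℕ) (x : ℕ × ℤ × ℕ) (hx : x ∈ (fnsOf D).ch r s) : 1 ≤ x.2.2 := by
  simp only [fnsOf, List.mem_flatMap, List.mem_filter, decide_eq_true_eq, List.mem_map] at hx
  obtain ⟨e, -, q, -, rfl⟩ := hx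
  exact Nat.le_add_left 1 q.2

theorem rc_add (D : ChevalleyDatum) (COR RC : ℕ) (h : rcCheck D COR RC) (r : ℕ) (hr : r < D.nroots)
    (s : ℕ) (x : ℕ × ℤ × ℕ) (hx : x ∈ (fnsOf D).ch r s) (k : ℕ) (hk : k < D.rank) :
    rc D RC x.1 k = rc D RC s k + (x.2.2 : ℤ) * rc D RC r k := by
  have h1 := h r hr
  unfold rcRow at h1
  rw [Bool.and_eq_true] at h1
  have h2 := h1.2
  rw [List.all_eq_true] at h2
  simp only [fnsOf, List.mem_flatMap, List.mem_filter, decide_eq_true_eq, List.mem_map] at hx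
  obtain ⟨e, ⟨he, hes⟩, q, hq, rfl⟩ := hx
  have h3 := h2 e he
  rw [List.all_eq_true] at h3
  have h4 := h3 q hq
  rw [List.all_eq_true] at h4
  have h5 := h4 k (List.mem_range.mpr hk)
  rw [decide_eq_true_eq, hes] at h5
  exact h5

structure ParData (D : ChevalleyDatum) : Prop where
  jd : ∃ LV PI, jdescCheck D LV PI = true
  sp : simpCheck D = true
  tab : ∃ COR RC, corCheck D COR = true ∧ (∀ r < D.nroots, pmRow D COR r = true) ∧ rcCheck D COR RC

end Cfsg.Agent.Lib.Helper7.ChevPar
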