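import Cfsg.Agent.Lib.Helper7.ChevPar

set_option autoImplicit false

namespace Cfsg.Agent.Lib.Helper7.ChevPar2
open Cfsg.Lie Cfsg.Agent.Lib.Helper7.ChevEngine Cfsg.Agent.Lib.Helper7.ChevN
  Cfsg.Agent.Lib.Helper7.ChevConjT Cfsg.Agent.Lib.Helper7.ChevConjU Cfsg.Agent.Lib.Helper7.ChevTorus
  Cfsg.Agent.Lib.Helper7.ChevNW Cfsg.Agent.Lib.Helper7.ChevBN Cfsg.Agent.Lib.Helper7.ChevBN3
  Cfsg.Agent.Lib.Helper7.ChevExch Cfsg.Agent.Lib.Helper7.HBaseAll Cfsg.Agent.Lib.Helper7.CommAll
  Cfsg.Agent.Lib.Helper7.Shift Cfsg.Agent.Lib.Helper7.ChevPar Cfsg.Agent.Lib.Helper7.ChevGen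
  Cfsg.Agent.Lib.Helper7.ChevPerf

theorem cor_nonneg (D : ChevalleyDatum) (r : ℕ) (hr : D.IsPosRoot r) (k : ℕ) : 0 ≤ (fnsOf D).cor r k := by
  rw [cor_toList]
  by_cases hk : k < (D.coroot.getD r #[]).toList.length
  · rw [List.getD_eq_getElem _ _ hk]
    exact hr.2 _ (List.getElem_mem hk)
  · rw [List.getD_eq_default _ _ (by omega)]

theorem cor_nonpos (D : ChevalleyDatum) (r : ℕ) (hr : D.IsNegRoot r) (k : ℕ) : (fnsOf D).cor r k ≤ 0 := by
  rw [cor_toList]
  by_cases hk : k < (D.coroot.getD r #[]).toList.length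
  · rw [List.getD_eq_getElem _ _ hk]
    exact hr.2 _ (List.getElem_mem hk)
  · rw [List.getD_eq_default _ _ (by omega)]

theorem mem_normalizer_closure {G : Type*} [Group G] (S : Set G) (g : G)
    (h1 : ∀ x ∈ S, g * x * g⁻¹ ∈ Subgroup.closure S)
    (h2 : ∀ x ∈ S, g⁻¹ * x * g⁻¹⁻¹ ∈ Subgroup.closure S) :
    g ∈ Subgroup.normalizer (Subgroup.closure S : Set G) := by
  have key : ∀ a : G, (∀ x ∈ S, a * x * a⁻¹ ∈ Subgroup.closure S) →
      ∀ n ∈ Subgroup.closure S, a * n * a⁻¹ ∈ Subgroup.closure S := by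
    intro a ha n hn
    have hle : Subgroup.closure S ≤ (Subgroup.closure S).comap (MulAut.conj a).toMonoidHom := by
      rw [Subgroup.closure_le]
      intro x hx
      exact ha x hx
    exact hle hn
  rw [Subgroup.mem_normalizer_iff]
  intro n
  constructor
  · intro hn
    exact key g h1 n hn
  · intro hn
    have := key g⁻¹ h2 _ hn
    have e : g⁻¹ * (g * n * g⁻¹) * g⁻¹⁻¹ = n := by group
    rw [e] at this
    exact this

section
variable {F : Type*} [Field F]

theorem nI_mem_par (D : ChevalleyDatum) (hD : D ∈ [chevG2, chevB2, chevD4, chevF4, chevE6, chevE7, chevE8])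
    (J : Set ℕ) (j : ℕ) (hj : j ∈ J) (hjr : j < D.rank) : nI (F := F) D hD j ∈ D.parabolicSubgroup F J := by
  unfold ChevalleyDatum.parabolicSubgroup
  apply Subgroup.mem_sup_right
  apply Subgroup.subset_closure
  exact ⟨j, hj, hjr, nI_val D hD j⟩

theorem xpos_mem_par (D : ChevalleyDatum) (hD : D ∈ [chevG2, chevB2, chevD4, chevF4, chevE6, chevE7, chevE8])
    (J : Set ℕ) (r : ℕ) (hr : D.IsPosRoot r) (t : F) : xGL D hD r t ∈ D.parabolicSubgroup F J := by
  unfold ChevalleyDatum.parabolicSubgroup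
  exact Subgroup.mem_sup_left (U_le_B D (xGL_mem_U D hD r hr t))

theorem x_mem_par (D : ChevalleyDatum) (hD : D ∈ [chevG2, chevB2, chevD4, chevF4, chevE6, chevE7, chevE8])
    (pd : ParData D) (J : Set ℕ) :
    ∀ r < D.nroots, D.InRootSub J r → ∀ t : F, xGL D hD r t ∈ D.parabolicSubgroup F J := by
  obtain ⟨LV, PI, hjd⟩ := pd.jd
  apply j_induction D LV PI hjd
    (fun r => D.InRootSub J r → ∀ t : F, xGL D hD r t ∈ D.parabolicSubgroup F J)
  · intro j hj
    constructor
    · intro _ t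
      exact xpos_mem_par D hD J _ (posSimple D hD j hj) t
    · intro hin t
      have hsp := simp_spec D pd.sp j hj
      have hjJ : j ∈ J := by
        by_contra hnj
        have h3 : (fnsOf D).cor (D.neg (D.simple j)) j = 0 := hin.2 j hj hnj
        have h2 := (hsp.2 j hj).1
        rw [if_pos rfl] at h2
        omega
      obtain ⟨η, hη, hc⟩ := nI_conj_xp (F := F) D hD j hj
      have e : xGL D hD (D.neg (D.simple j)) t =
          nI D hD j * xGL D hD (D.simple j) (η⁻¹ * t) * (nI D hD j)⁻¹ := by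
        rw [hc, mul_inv_cancel_right, ← mul_assoc, mul_inv_cancel₀ hη, one_mul]
      rw [e]
      exact mul_mem (mul_mem (nI_mem_par D hD J j hjJ hj) (xpos_mem_par D hD J _ (posSimple D hD j hj) _))
        (inv_mem (nI_mem_par D hD J j hjJ hj))
  · intro i hi r hr hci hrl ih hin t
    have hiJ : i ∈ J := by
      by_contra hnj
      exact hci (hin.2 i hi hnj)
    have hin' : D.InRootSub J (D.reflectRoot i r) := by
      refine ⟨hrl, ?_⟩
      intro k hk hkJ
      obtain ⟨hC, -, -⟩ := all_of_mem D hD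
      obtain ⟨m, W, -, -, hcj⟩ := hC.1 i hi
      have h3 := T3_of_check D i m W hcj r hr k hk
      have hki : k ≠ i := fun h => hkJ (h ▸ hiJ)
      rw [if_neg hki, sub_zero] at h3
      exact h3.trans (hin.2 k hk hkJ)
    obtain ⟨c, hc⟩ := nI_inv_conj (F := F) D hD i hi r hr
    have e : xGL D hD r t = nI D hD i * xGL D hD (D.reflectRoot i r) (c * t) * (nI D hD i)⁻¹ := by
      rw [← hc t]
      group
    rw [e]
    exact mul_mem (mul_mem (nI_mem_par D hD J i hiJ hi) (ih hin' _)) (inv_mem (nI_mem_par D hD J i hiJ hi))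

theorem parabolic_eq (D : ChevalleyDatum) (hD : D ∈ [chevG2, chevB2, chevD4, chevF4, chevE6, chevE7, chevE8])
    (pd : ParData D) (J : Set ℕ) :
    D.parabolicSubgroup F J = D.diagonalSubgroup F ⊔
      Subgroup.closure {g : GL D.Idx F | ∃ (r : ℕ) (t : F), (D.IsPosRoot r ∨ D.InRootSub J r) ∧
        (g : Matrix D.Idx D.Idx F) = D.x F r t} := by
  apply le_antisymm
  · unfold ChevalleyDatum.parabolicSubgroup ChevalleyDatum.borelSubgroup
    apply sup_le (sup_le ?_ le_sup_left) ?_
    · apply le_sup_of_le_right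
      unfold ChevalleyDatum.posUnipotent
      apply Subgroup.closure_mono
      rintro g ⟨r, t, hr, hg⟩
      exact ⟨r, t, Or.inl hr, hg⟩
    · rw [Subgroup.closure_le]
      rintro g ⟨j, hjJ, hj, hg⟩
      apply Subgroup.mem_sup_right
      have hg' : g = nI D hD j := Units.ext (by rw [hg, nI_val])
      rw [hg']
      unfold nI
      apply wordGL_mem_of D hD
      intro p hp
      unfold ChevalleyDatum.nWord at hp
      simp only [List.mem_cons, List.not_mem_nil, or_false] at hp
      apply Subgroup.subset_closure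
      rcases hp with rfl | rfl | rfl
      · exact ⟨_, _, Or.inl (posSimple D hD j hj), xGL_val D hD _ _⟩
      · refine ⟨_, _, Or.inr ?_, xGL_val D hD _ _⟩
        have hsp := simp_spec D pd.sp j hj
        refine ⟨hsp.1, ?_⟩
        intro i hi hiJ
        have hij : ¬ i = j := fun h => hiJ (by rw [h]; exact hjJ)
        have := (hsp.2 i hi).1
        rw [if_neg hij] at this
        exact this
      · exact ⟨_, _, Or.inl (posSimple D hD j hj), xGL_val D hD _ _⟩
  · apply sup_le
    · unfold ChevalleyDatum.parabolicSubgroup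
      exact le_trans (H_le_B D) le_sup_left
    · rw [Subgroup.closure_le]
      rintro g ⟨r, t, hr, hg⟩
      have hg' : g = xGL D hD r t := Units.ext (by rw [hg, xGL_val])
      rw [hg']
      rcases hr with hr | hr
      · exact xpos_mem_par D hD J r hr t
      · exact x_mem_par D hD pd J r hr.1 hr t

theorem x_mem_UJ (D : ChevalleyDatum) (hD : D ∈ [chevG2, chevB2, chevD4, chevF4, chevE6, chevE7, chevE8])
    (J : Set ℕ) (r : ℕ) (hr : D.IsPosRoot r) (hrJ : ¬ D.InRootSub J r) (t : F) :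
    xGL D hD r t ∈ D.unipotentRadical F J :=
  Subgroup.subset_closure ⟨r, t, hr, hrJ, xGL_val D hD r t⟩

theorem Q_out (D : ChevalleyDatum) (hD : D ∈ [chevG2, chevB2, chevD4, chevF4, chevE6, chevE7, chevE8])
    (J : Set ℕ) (r s k : ℕ) (hr : D.IsPosRoot r) (hrJ : ¬ D.InRootSub J r)
    (hs : D.IsPosRoot s ∨ D.InRootSub J s) (hq : Q D r s k) : D.IsPosRoot k ∧ ¬ D.InRootSub J k := by
  have hex : ∃ kk < D.rank, kk ∉ J ∧ (fnsOf D).cor r kk ≠ 0 := by
    by_contra hno
    apply hrJ
    refine ⟨hr.1, ?_⟩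
    intro kk hk hkJ
    by_contra hne
    exact hno ⟨kk, hk, hkJ, hne⟩
  obtain ⟨kk, hkk, hkJ, hne⟩ := hex
  have h1 : 0 < (fnsOf D).cor r kk := lt_of_le_of_ne (cor_nonneg D r hr kk) (Ne.symm hne)
  have h2 : 0 ≤ (fnsOf D).cor s kk := by
    rcases hs with hs | hs
    · exact cor_nonneg D s hs kk
    · exact le_of_eq (hs.2 kk hkk hkJ).symm
  have h3 := (hq.2 kk hkk).1 h1 h2
  constructor
  · rcases (signData_of_mem D hD).pos_or_neg k hq.1 with hp | hn
    · exact hp
    · have := cor_nonpos D k hn kk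
      omega
  · intro hin
    have : (fnsOf D).cor k kk = 0 := hin.2 kk hkk hkJ
    omega

theorem inRootSub_neg (D : ChevalleyDatum) (hD : D ∈ [chevG2, chevB2, chevD4, chevF4, chevE6, chevE7, chevE8])
    (pd : ParData D) (J : Set ℕ) (r : ℕ) (hr : r < D.nroots) (h : D.InRootSub J (D.neg r)) :
    D.InRootSub J r := by
  obtain ⟨COR, RC, hcor, -, hrc⟩ := pd.tab
  refine ⟨hr, ?_⟩
  intro k hk hkJ
  have h1 : (fnsOf D).cor (D.neg r) k = 0 := h.2 k hk hkJ
  have h2 := (rc_sg D COR RC hcor hrc (D.neg r) h.1 k hk).2.mpr h1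
  rw [rc_neg D COR RC hrc r hr k hk] at h2
  exact (rc_sg D COR RC hcor hrc r hr k hk).2.mp (by omega)

theorem conj_gen_mem (D : ChevalleyDatum) (hD : D ∈ [chevG2, chevB2, chevD4, chevF4, chevE6, chevE7, chevE8])
    (pd : ParData D) (J : Set ℕ) (s : ℕ) (hs : D.IsPosRoot s ∨ D.InRootSub J s) (u : F)
    (r : ℕ) (hr : D.IsPosRoot r) (hrJ : ¬ D.InRootSub J r) (t : F) :
    xGL D hD s u * xGL D hD r t * (xGL D hD s u)⁻¹ ∈ D.unipotentRadical F J := by
  have hs' : s < D.nroots := by
    rcases hs with hs | hs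
    · exact hs.1
    · exact hs.1
  by_cases hsr : s = r
  · rw [hsr, xGL_add, ← xGL_neg, xGL_add]
    have : u + t + -u = t := by ring
    rw [this]
    exact x_mem_UJ D hD J r hr hrJ t
  · have hneg : s ≠ D.neg r := by
      intro hsn
      have sd := signData_of_mem D hD
      rcases hs with hs | hs
      · have h1 := (sd.neg_iff r hr.1).mp hr
        rw [← hsn] at h1
        exact sd.not_both s hs h1
      · rw [hsn] at hs
        exact hrJ (inRootSub_neg D hD pd J r hr.1 hs)
    have hf := comm_formula D hD r s hr.1 hs' hsr hneg (-t) (-u)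
    rw [xGL_neg, xGL_neg] at hf
    have hW : wordGL D hD (D.commWord F r s (-t) (-u)) =
        xGL D hD s u * xGL D hD r t * (xGL D hD s u)⁻¹ * (xGL D hD r t)⁻¹ := by
      rw [eq_inv_mul_of_mul_eq hf.symm]
      group
    have e : xGL D hD s u * xGL D hD r t * (xGL D hD s u)⁻¹ =
        wordGL D hD (D.commWord F r s (-t) (-u)) * xGL D hD r t := by
      rw [hW]
      group
    rw [e]
    apply mul_mem _ (x_mem_UJ D hD J r hr hrJ t)
    apply wordGL_mem_of D hD
    intro p hp
    unfold ChevalleyDatum.commWord at hp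
    rw [List.mem_map] at hp
    obtain ⟨c, hc, rfl⟩ := hp
    obtain ⟨COR, RC, hcor, hpm, -⟩ := pd.tab
    have hq := commTerms_Q D COR hcor hpm r s hr.1 hs' c hc
    obtain ⟨hp1, hp2⟩ := Q_out D hD J r s c.1 hr hrJ hs hq
    exact x_mem_UJ D hD J c.1 hp1 hp2 _

theorem x_normalizes_UJ (D : ChevalleyDatum)
    (hD : D ∈ [chevG2, chevB2, chevD4, chevF4, chevE6, chevE7, chevE8])
    (pd : ParData D) (J : Set ℕ) (s : ℕ) (hs : D.IsPosRoot s ∨ D.InRootSub J s) (u : F) :
    xGL D hD s u ∈ Subgroup.normalizer (D.unipotentRadical F J : Set (GL D.Idx F)) := by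
  unfold ChevalleyDatum.unipotentRadical
  apply mem_normalizer_closure
  · rintro x ⟨r, t, hr, hrJ, hx⟩
    have hx' : x = xGL D hD r t := Units.ext (by rw [hx, xGL_val])
    rw [hx']
    exact conj_gen_mem D hD pd J s hs u r hr hrJ t
  · rintro x ⟨r, t, hr, hrJ, hx⟩
    have hx' : x = xGL D hD r t := Units.ext (by rw [hx, xGL_val])
    rw [hx', ← xGL_neg]
    exact conj_gen_mem D hD pd J s hs (-u) r hr hrJ t

theorem H_normalizes_UJ (D : ChevalleyDatum)
    (hD : D ∈ [chevG2, chevB2, chevD4, chevF4, chevE6, chevE7, chevE8])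
    (J : Set ℕ) (h : GL D.Idx F) (hh : h ∈ D.diagonalSubgroup F) :
    h ∈ Subgroup.normalizer (D.unipotentRadical F J : Set (GL D.Idx F)) := by
  unfold ChevalleyDatum.unipotentRadical
  apply mem_normalizer_closure
  · rintro x ⟨r, t, hr, hrJ, hx⟩
    have hx' : x = xGL D hD r t := Units.ext (by rw [hx, xGL_val])
    obtain ⟨χ, hχ⟩ := H_conj_x D hD h hh
    rw [hx', hχ r hr.1 t]
    exact x_mem_UJ D hD J r hr hrJ _
  · rintro x ⟨r, t, hr, hrJ, hx⟩
    have hx' : x = xGL D hD r t := Units.ext (by rw [hx, xGL_val])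
    obtain ⟨χ, hχ⟩ := H_conj_x D hD h⁻¹ (inv_mem hh)
    rw [hx', hχ r hr.1 t]
    exact x_mem_UJ D hD J r hr hrJ _

theorem par_le_normalizer (D : ChevalleyDatum)
    (hD : D ∈ [chevG2, chevB2, chevD4, chevF4, chevE6, chevE7, chevE8])
    (pd : ParData D) (J : Set ℕ) :
    D.parabolicSubgroup F J ≤ Subgroup.normalizer (D.unipotentRadical F J : Set (GL D.Idx F)) := by
  rw [parabolic_eq D hD pd J]
  apply sup_le
  · intro h hh
    exact H_normalizes_UJ D hD J h hh
  · rw [Subgroup.closure_le]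
    rintro g ⟨s, u, hs, hg⟩
    have hg' : g = xGL D hD s u := Units.ext (by rw [hg, xGL_val])
    rw [hg']
    exact x_normalizes_UJ D hD pd J s hs u

theorem UJ_sup_LJ (D : ChevalleyDatum)
    (hD : D ∈ [chevG2, chevB2, chevD4, chevF4, chevE6, chevE7, chevE8])
    (pd : ParData D) (J : Set ℕ) :
    D.unipotentRadical F J ⊔ D.leviSubgroup F J = D.parabolicSubgroup F J := by
  apply le_antisymm
  · apply sup_le
    · unfold ChevalleyDatum.unipotentRadical
      rw [Subgroup.closure_le]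
      rintro g ⟨r, t, hr, -, hg⟩
      have hg' : g = xGL D hD r t := Units.ext (by rw [hg, xGL_val])
      rw [hg']
      exact xpos_mem_par D hD J r hr t
    · unfold ChevalleyDatum.leviSubgroup
      apply sup_le
      · unfold ChevalleyDatum.parabolicSubgroup
        exact le_trans (H_le_B D) le_sup_left
      · rw [Subgroup.closure_le]
        rintro g ⟨r, t, hr, hg⟩
        have hg' : g = xGL D hD r t := Units.ext (by rw [hg, xGL_val])
        rw [hg']
        exact x_mem_par D hD pd J r hr.1 hr t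
  · rw [parabolic_eq D hD pd J]
    apply sup_le
    · apply le_sup_of_le_right
      unfold ChevalleyDatum.leviSubgroup
      exact le_sup_left
    · rw [Subgroup.closure_le]
      rintro g ⟨r, t, hr, hg⟩
      by_cases hin : D.InRootSub J r
      · apply Subgroup.mem_sup_right
        unfold ChevalleyDatum.leviSubgroup
        apply Subgroup.mem_sup_right
        exact Subgroup.subset_closure ⟨r, t, hin, hg⟩
      · apply Subgroup.mem_sup_left
        rcases hr with hr | hr
        · exact Subgroup.subset_closure ⟨r, t, hr, hin, hg⟩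
        · exact absurd hr hin

end

end Cfsg.Agent.Lib.Helper7.ChevPar2
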