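import Cfsg.Agent.Lib.Helper7.ChevPar2

set_option autoImplicit false

namespace Cfsg.Agent.Lib.Helper7.ChevPar3
open Cfsg.Lie Cfsg.Agent.Lib.Helper7.ChevEngine Cfsg.Agent.Lib.Helper7.ChevN
  Cfsg.Agent.Lib.Helper7.ChevConjT Cfsg.Agent.Lib.Helper7.ChevConjU Cfsg.Agent.Lib.Helper7.ChevTorus
  Cfsg.Agent.Lib.Helper7.ChevNW Cfsg.Agent.Lib.Helper7.ChevBN Cfsg.Agent.Lib.Helper7.ChevBN3
  Cfsg.Agent.Lib.Helper7.ChevExch Cfsg.Agent.Lib.Helper7.HBaseAll Cfsg.Agent.Lib.Helper7.CommAll
  Cfsg.Agent.Lib.Helper7.Shift Cfsg.Agent.Lib.Helper7.ChevPar Cfsg.Agent.Lib.Helper7.ChevGen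
  Cfsg.Agent.Lib.Helper7.ChevPerf Cfsg.Agent.Lib.Helper7.ChevPar2

section Gr
variable {ι R : Type*} [Fintype ι] [DecidableEq ι] [Field R]

def Gr (g : ι → ℤ) (M : Matrix ι ι R) : Prop := ∀ i j, M i j ≠ 0 → g i = g j

theorem gr_one (g : ι → ℤ) : Gr g (1 : Matrix ι ι R) := by
  intro i j h
  by_cases hij : i = j
  · rw [hij]
  · exact absurd (Matrix.one_apply_ne hij) h

theorem gr_diag (g : ι → ℤ) (d : ι → R) : Gr g (Matrix.diagonal d) := by
  intro i j h
  by_cases hij : i = j
  · rw [hij]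
  · exact absurd (Matrix.diagonal_apply_ne d hij) h

theorem gr_mul (g : ι → ℤ) {M N : Matrix ι ι R} (hM : Gr g M) (hN : Gr g N) : Gr g (M * N) := by
  intro i j h
  rw [Matrix.mul_apply] at h
  obtain ⟨k, -, hk⟩ := Finset.exists_ne_zero_of_sum_ne_zero h
  exact (hM i k (left_ne_zero_of_mul hk)).trans (hN k j (right_ne_zero_of_mul hk))

def GrG (g : ι → ℤ) : Subgroup (Matrix ι ι R)ˣ where
  carrier := {x | Gr g (x : Matrix ι ι R) ∧ Gr g ((x⁻¹ : (Matrix ι ι R)ˣ) : Matrix ι ι R)}
  mul_mem' := by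
    rintro a b ⟨ha, ha'⟩ ⟨hb, hb'⟩
    refine ⟨?_, ?_⟩
    · rw [Units.val_mul]
      exact gr_mul g ha hb
    · rw [mul_inv_rev, Units.val_mul]
      exact gr_mul g hb' ha'
  one_mem' := by
    refine ⟨?_, ?_⟩
    · rw [Units.val_one]
      exact gr_one g
    · rw [inv_one, Units.val_one]
      exact gr_one g
  inv_mem' := by
    rintro a ⟨ha, ha'⟩
    exact ⟨ha', by rw [inv_inv]; exact ha⟩

end Gr

section
variable {F : Type*} [Field F]

theorem xM_entry (l n : ℕ) (A : Fns) (r : ℕ) (t : F) (row col : Ix l n)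
    (hne : (xM l n A F r t - 1) row col ≠ 0) :
    (∃ (i : Fin l) (u : Fin n), col = Sum.inl i ∧ row = Sum.inr u ∧ u.val = r) ∨
    (∃ (s : Fin n) (i : Fin l), col = Sum.inr s ∧ s.val = A.neg r ∧ row = Sum.inl i) ∨
    (∃ (s u : Fin n), col = Sum.inr s ∧ s.val = A.neg r ∧ row = Sum.inr u ∧ u.val = r) ∨
    (∃ (s u : Fin n) (x : ℕ × ℤ × ℕ), col = Sum.inr s ∧ row = Sum.inr u ∧ x ∈ A.ch r s.val ∧ x.1 = u.val) := by
  rw [Matrix.sub_apply] at hne
  rcases col with i | s
  · rcases row with i' | u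
    · exfalso
      apply hne
      rw [xM_inl_inl, Matrix.one_apply]
      by_cases hi : i' = i
      · have : (Sum.inl i' : Ix l n) = Sum.inl i := by rw [hi]
        rw [if_pos hi, if_pos this, sub_self]
      · have : ¬ (Sum.inl i' : Ix l n) = Sum.inl i := fun hh => hi (Sum.inl.inj hh)
        rw [if_neg hi, if_neg this, sub_self]
    · rw [xM_inr_inl, Matrix.one_apply_ne (by simp), sub_zero] at hne
      have hu : u.val = r := by
        by_contra hu
        rw [if_neg hu] at hne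
        exact hne rfl
      exact Or.inl ⟨i, u, rfl, rfl, hu⟩
  · by_cases h1 : s.val = r
    · exfalso
      apply hne
      rcases row with i' | u
      · rw [xM_inl_inr_r _ _ _ _ _ _ _ h1, Matrix.one_apply_ne (by simp), sub_self]
      · rw [xM_inr_inr_r _ _ _ _ _ _ _ h1, Matrix.one_apply]
        by_cases hu : u.val = r
        · have : (Sum.inr u : Ix l n) = Sum.inr s := by
            rw [Fin.ext (hu.trans h1.symm)]
          rw [if_pos hu, if_pos this, sub_self]
        · have : ¬ (Sum.inr u : Ix l n) = Sum.inr s := by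
            intro hh
            have := Sum.inr.inj hh
            exact hu (by rw [this]; exact h1)
          rw [if_neg hu, if_neg this, sub_self]
    · by_cases h2 : s.val = A.neg r
      · rcases row with i' | u
        · exact Or.inr (Or.inl ⟨s, i', rfl, h2, rfl⟩)
        · rw [xM_inr_inr_neg _ _ _ _ _ _ _ h1 h2, Matrix.one_apply] at hne
          by_cases hu : u = s
          · exfalso
            apply hne
            have : (Sum.inr u : Ix l n) = Sum.inr s := by rw [hu]
            rw [if_pos hu, if_pos this, sub_self]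
          · have : ¬ (Sum.inr u : Ix l n) = Sum.inr s := fun hh => hu (Sum.inr.inj hh)
            rw [if_neg hu, if_neg this, sub_zero] at hne
            have hur : u.val = r := by
              by_contra hur
              rw [if_neg hur] at hne
              exact hne rfl
            exact Or.inr (Or.inr (Or.inl ⟨s, u, rfl, h2, rfl, hur⟩))
      · rcases row with i' | u
        · exfalso
          apply hne
          rw [xM_inl_inr_gen _ _ _ _ _ _ _ h1 h2, Matrix.one_apply_ne (by simp), sub_self]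
        · rw [xM_inr_inr_gen _ _ _ _ _ _ _ h1 h2, Matrix.one_apply] at hne
          have e1 : (if u = s then (1 : F) else 0) = if (Sum.inr u : Ix l n) = Sum.inr s then 1 else 0 := by
            by_cases hu : u = s
            · have : (Sum.inr u : Ix l n) = Sum.inr s := by rw [hu]
              rw [if_pos hu, if_pos this]
            · have : ¬ (Sum.inr u : Ix l n) = Sum.inr s := fun hh => hu (Sum.inr.inj hh)
              rw [if_neg hu, if_neg this]
          rw [e1, add_sub_cancel_left] at hne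
          have hex : ∃ x ∈ A.ch r s.val, x.1 = u.val := by
            by_contra hno
            apply hne
            have : (A.ch r s.val).filter (fun x => decide (x.1 = u.val)) = [] := by
              rw [List.filter_eq_nil_iff]
              intro x hx hxu
              exact hno ⟨x, hx, by simpa using hxu⟩
            rw [this]
            rfl
          obtain ⟨x, hx, hxu⟩ := hex
          exact Or.inr (Or.inr (Or.inr ⟨s, u, x, rfl, rfl, hx, hxu⟩))

noncomputable def lev (D : ChevalleyDatum) (RC : ℕ) (J : Set ℕ) (r : ℕ) : ℤ :=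
  ∑ k ∈ Finset.range D.rank, Set.indicator Jᶜ (rc D RC r) k

theorem lev_neg (D : ChevalleyDatum) (COR RC : ℕ) (hrc : rcCheck D COR RC) (J : Set ℕ)
    (r : ℕ) (hr : r < D.nroots) : lev D RC J (D.neg r) = - lev D RC J r := by
  unfold lev
  rw [← Finset.sum_neg_distrib]
  apply Finset.sum_congr rfl
  intro k hk0
  by_cases hk : k ∈ J
  · simp [Set.indicator, hk]
  · simp only [Set.indicator, Set.mem_compl_iff, hk, not_false_eq_true, if_true]
    exact rc_neg D COR RC hrc r hr k (Finset.mem_range.mp hk0)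

theorem lev_add (D : ChevalleyDatum) (COR RC : ℕ) (hrc : rcCheck D COR RC) (J : Set ℕ)
    (r : ℕ) (hr : r < D.nroots) (s : ℕ) (x : ℕ × ℤ × ℕ) (hx : x ∈ (fnsOf D).ch r s) :
    1 ≤ x.2.2 ∧ lev D RC J x.1 = lev D RC J s + (x.2.2 : ℤ) * lev D RC J r := by
  refine ⟨ch_pos D r s x hx, ?_⟩
  unfold lev
  rw [Finset.mul_sum, ← Finset.sum_add_distrib]
  apply Finset.sum_congr rfl
  intro k hk0
  by_cases hk : k ∈ J
  · simp [Set.indicator, hk]
  · simp only [Set.indicator, Set.mem_compl_iff, hk, not_false_eq_true, if_true]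
    exact rc_add D COR RC hrc r hr s x hx k (Finset.mem_range.mp hk0)

theorem lev_zero (D : ChevalleyDatum) (COR RC : ℕ) (hcor : corCheck D COR = true)
    (hrc : rcCheck D COR RC) (J : Set ℕ)
    (r : ℕ) (hr : D.InRootSub J r) : lev D RC J r = 0 := by
  unfold lev
  apply Finset.sum_eq_zero
  intro k hk
  by_cases hkJ : k ∈ J
  · simp [Set.indicator, hkJ]
  · simp only [Set.indicator, Set.mem_compl_iff, hkJ, not_false_eq_true, if_true]
    exact (rc_sg D COR RC hcor hrc r hr.1 k (Finset.mem_range.mp hk)).2.mpr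
      (hr.2 k (Finset.mem_range.mp hk) hkJ)

theorem lev_pos (D : ChevalleyDatum) (COR RC : ℕ) (hcor : corCheck D COR = true)
    (hrc : rcCheck D COR RC) (J : Set ℕ)
    (r : ℕ) (hr : D.IsPosRoot r) (hrJ : ¬ D.InRootSub J r) : 0 < lev D RC J r := by
  unfold lev
  have hex : ∃ k < D.rank, k ∉ J ∧ (fnsOf D).cor r k ≠ 0 := by
    by_contra hno
    apply hrJ
    refine ⟨hr.1, ?_⟩
    intro k hk hkJ
    by_contra hne
    exact hno ⟨k, hk, hkJ, hne⟩
  obtain ⟨k0, hk0, hk0J, hne⟩ := hex
  apply Finset.sum_pos'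
  · intro k hk
    by_cases hkJ : k ∈ J
    · simp [Set.indicator, hkJ]
    · simp only [Set.indicator, Set.mem_compl_iff, hkJ, not_false_eq_true, if_true]
      have h1 := cor_nonneg D r hr k
      have h2 := rc_sg D COR RC hcor hrc r hr.1 k (Finset.mem_range.mp hk)
      rcases lt_or_eq_of_le h1 with h3 | h3
      · exact le_of_lt (h2.1.mpr h3)
      · exact le_of_eq (h2.2.mpr h3.symm).symm
  · refine ⟨k0, Finset.mem_range.mpr hk0, ?_⟩
    simp only [Set.indicator, Set.mem_compl_iff, hk0J, not_false_eq_true, if_true]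
    have h1 := cor_nonneg D r hr k0
    exact (rc_sg D COR RC hcor hrc r hr.1 k0 hk0).1.mpr (lt_of_le_of_ne h1 (Ne.symm hne))

noncomputable def glev (D : ChevalleyDatum) (RC : ℕ) (J : Set ℕ) : D.Idx → ℤ :=
  Sum.elim (fun _ => 0) (fun s => lev D RC J s.val)

noncomputable def bd (D : ChevalleyDatum) (RC : ℕ) (J : Set ℕ) : ℤ :=
  ∑ idx : D.Idx, |glev D RC J idx|

noncomputable def bJ (D : ChevalleyDatum) (RC : ℕ) (J : Set ℕ) : D.Idx → ℕ :=
  fun idx => (glev D RC J idx + bd D RC J).toNat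

theorem abs_le_bd (D : ChevalleyDatum) (RC : ℕ) (J : Set ℕ) (idx : D.Idx) :
    |glev D RC J idx| ≤ bd D RC J :=
  Finset.single_le_sum (f := fun i => |glev D RC J i|) (fun i _ => abs_nonneg _) (Finset.mem_univ idx)

theorem bJ_lt (D : ChevalleyDatum) (RC : ℕ) (J : Set ℕ) (idx : D.Idx) :
    bJ D RC J idx < (2 * bd D RC J + 1).toNat := by
  unfold bJ
  have h2 := abs_le.mp (abs_le_bd D RC J idx)
  omega

theorem bJ_lt_of (D : ChevalleyDatum) (RC : ℕ) (J : Set ℕ) (i j : D.Idx)
    (h : glev D RC J j < glev D RC J i) : bJ D RC J j + 1 ≤ bJ D RC J i := by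
  unfold bJ
  have h1 := abs_le.mp (abs_le_bd D RC J i)
  have h2 := abs_le.mp (abs_le_bd D RC J j)
  omega

theorem bJ_eq_of (D : ChevalleyDatum) (RC : ℕ) (J : Set ℕ) (i j : D.Idx)
    (h : glev D RC J i = glev D RC J j) : bJ D RC J i = bJ D RC J j := by
  unfold bJ
  rw [h]

theorem UJ_le_UL (D : ChevalleyDatum) (COR RC : ℕ) (hcor : corCheck D COR = true)
    (hrc : rcCheck D COR RC) (J : Set ℕ) :
    D.unipotentRadical F J ≤
      UL (R := F) (bJ D RC J) ((2 * bd D RC J + 1).toNat) (bJ_lt D RC J) 1 le_rfl := by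
  unfold ChevalleyDatum.unipotentRadical
  rw [Subgroup.closure_le]
  rintro g ⟨r, t, hr, hrJ, hg⟩
  change Sh (bJ D RC J) 1 ((g : Matrix D.Idx D.Idx F) - 1)
  rw [hg, x_eq]
  unfold xx
  rw [if_pos hr.1]
  intro row col hne
  have hl := lev_pos D COR RC hcor hrc J r hr hrJ
  apply bJ_lt_of
  rcases xM_entry D.rank D.nroots (fnsOf D) r t row col hne with
    ⟨i, u, rfl, rfl, hu⟩ | ⟨s, i, rfl, hs, rfl⟩ | ⟨s, u, rfl, hs, rfl, hu⟩ | ⟨s, u, x, rfl, rfl, hx, hxu⟩
  · show (0 : ℤ) < lev D RC J u.val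
    rw [hu]
    exact hl
  · show lev D RC J s.val < 0
    rw [hs, show (fnsOf D).neg r = D.neg r from rfl, lev_neg D COR RC hrc J r hr.1]
    omega
  · show lev D RC J s.val < lev D RC J u.val
    rw [hs, hu, show (fnsOf D).neg r = D.neg r from rfl, lev_neg D COR RC hrc J r hr.1]
    omega
  · show lev D RC J s.val < lev D RC J u.val
    have h1 := lev_add D COR RC hrc J r hr.1 s.val x hx
    rw [← hxu, h1.2]
    have h2 : 0 < (x.2.2 : ℤ) * lev D RC J r := mul_pos (by exact_mod_cast h1.1) hl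
    omega

theorem gr_x (D : ChevalleyDatum) (COR RC : ℕ) (hcor : corCheck D COR = true)
    (hrc : rcCheck D COR RC) (J : Set ℕ)
    (r : ℕ) (hr : D.InRootSub J r) (t : F) : Gr (glev D RC J) (D.x F r t) := by
  rw [x_eq]
  unfold xx
  rw [if_pos hr.1]
  intro row col hne
  by_cases hrc' : row = col
  · rw [hrc']
  · have hne' : (xM D.rank D.nroots (fnsOf D) F r t - 1) row col ≠ 0 := by
      rw [Matrix.sub_apply, Matrix.one_apply_ne hrc', sub_zero]
      exact hne
    have hl := lev_zero D COR RC hcor hrc J r hr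
    rcases xM_entry D.rank D.nroots (fnsOf D) r t row col hne' with
      ⟨i, u, rfl, rfl, hu⟩ | ⟨s, i, rfl, hs, rfl⟩ | ⟨s, u, rfl, hs, rfl, hu⟩ | ⟨s, u, x, rfl, rfl, hx, hxu⟩
    · show lev D RC J u.val = 0
      rw [hu]
      exact hl
    · show (0 : ℤ) = lev D RC J s.val
      rw [hs, show (fnsOf D).neg r = D.neg r from rfl, lev_neg D COR RC hrc J r hr.1, hl, neg_zero]
    · show lev D RC J u.val = lev D RC J s.val
      rw [hs, hu, show (fnsOf D).neg r = D.neg r from rfl, lev_neg D COR RC hrc J r hr.1, hl, neg_zero]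
    · show lev D RC J u.val = lev D RC J s.val
      have h1 := lev_add D COR RC hrc J r hr.1 s.val x hx
      rw [← hxu, h1.2, hl, mul_zero, add_zero]

theorem LJ_le_GrG (D : ChevalleyDatum) (hD : D ∈ [chevG2, chevB2, chevD4, chevF4, chevE6, chevE7, chevE8])
    (COR RC : ℕ) (hcor : corCheck D COR = true) (hrc : rcCheck D COR RC) (J : Set ℕ) :
    D.leviSubgroup F J ≤ GrG (R := F) (glev D RC J) := by
  unfold ChevalleyDatum.leviSubgroup
  apply sup_le
  · intro h hh
    obtain ⟨c, hc⟩ := diagonalSubgroup_le_torus D hD hh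
    obtain ⟨c', hc'⟩ := diagonalSubgroup_le_torus D hD (inv_mem hh)
    refine ⟨?_, ?_⟩
    · rw [hc]
      unfold ChevalleyDatum.charDiag
      exact gr_diag _ _
    · rw [hc']
      unfold ChevalleyDatum.charDiag
      exact gr_diag _ _
  · rw [Subgroup.closure_le]
    rintro g ⟨r, t, hr, hg⟩
    have hg' : g = xGL D hD r t := Units.ext (by rw [hg, xGL_val])
    refine ⟨?_, ?_⟩
    · rw [hg]
      exact gr_x D COR RC hcor hrc J r hr t
    · rw [hg', xGL_inv_val]
      exact gr_x D COR RC hcor hrc J r hr (-t)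

theorem UJ_inf_LJ (D : ChevalleyDatum) (hD : D ∈ [chevG2, chevB2, chevD4, chevF4, chevE6, chevE7, chevE8])
    (pd : ParData D) (J : Set ℕ) : D.unipotentRadical F J ⊓ D.leviSubgroup F J = ⊥ := by
  obtain ⟨COR, RC, hcor, -, hrc⟩ := pd.tab
  rw [eq_bot_iff]
  rintro g ⟨hU, hL⟩
  have h1 : Sh (bJ D RC J) 1 ((g : Matrix D.Idx D.Idx F) - 1) := UJ_le_UL D COR RC hcor hrc J hU
  have h2 := (LJ_le_GrG D hD COR RC hcor hrc J hL).1
  rw [Subgroup.mem_bot]
  apply Units.ext
  ext i j
  rw [Units.val_one]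
  by_contra hne
  have h3 : ((g : Matrix D.Idx D.Idx F) - 1) i j ≠ 0 := by
    rw [Matrix.sub_apply]
    exact sub_ne_zero.mpr hne
  have h4 := h1 i j h3
  by_cases hij : i = j
  · subst hij
    omega
  · have h5 : (g : Matrix D.Idx D.Idx F) i j ≠ 0 := by
      rw [Matrix.sub_apply, Matrix.one_apply_ne hij, sub_zero] at h3
      exact h3
    have h6 := bJ_eq_of D RC J i j (h2 i j h5)
    omega

end

end Cfsg.Agent.Lib.Helper7.ChevPar3
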