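import Cfsg.Agent.Lib.Helper7.ChevPar3
import Cfsg.Agent.Lib.Helper7.ChevBNP
import Cfsg.Agent.Lib.Helper2.BNPar
import Cfsg.Agent.S1043
import Cfsg.Agent.S1037

set_option autoImplicit false

namespace Cfsg.Agent.Lib.Helper7.ChevPar4
open Cfsg.Lie Cfsg.Agent.Lib.Helper7.ChevEngine Cfsg.Agent.Lib.Helper7.ChevN
  Cfsg.Agent.Lib.Helper7.ChevConjT Cfsg.Agent.Lib.Helper7.ChevConjU Cfsg.Agent.Lib.Helper7.ChevTorus
  Cfsg.Agent.Lib.Helper7.ChevNW Cfsg.Agent.Lib.Helper7.ChevBN Cfsg.Agent.Lib.Helper7.ChevBN3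
  Cfsg.Agent.Lib.Helper7.ChevExch Cfsg.Agent.Lib.Helper7.HBaseAll Cfsg.Agent.Lib.Helper7.CommAll
  Cfsg.Agent.Lib.Helper7.Shift Cfsg.Agent.Lib.Helper7.ChevPar Cfsg.Agent.Lib.Helper7.ChevGen
  Cfsg.Agent.Lib.Helper7.ChevPerf Cfsg.Agent.Lib.Helper7.ChevPar2 Cfsg.Agent.Lib.Helper7.ChevPar3
  Cfsg.Agent.Lib.Helper7.ChevBNP

section
variable {F : Type*} [Field F]

theorem UJ_le_U (D : ChevalleyDatum) (J : Set ℕ) : D.unipotentRadical F J ≤ D.posUnipotent F := by
  unfold ChevalleyDatum.unipotentRadical ChevalleyDatum.posUnipotent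
  apply Subgroup.closure_mono
  rintro g ⟨r, t, hr, -, hg⟩
  exact ⟨r, t, hr, hg⟩

theorem nI_not_normalizes (D : ChevalleyDatum)
    (hD : D ∈ [chevG2, chevB2, chevD4, chevF4, chevE6, chevE7, chevE8]) (pd : ParData D) (J : Set ℕ)
    (i : ℕ) (hi : i < D.rank) (hiJ : i ∉ J) :
    nI (F := F) D hD i ∉ Subgroup.normalizer (D.unipotentRadical F J : Set (GL D.Idx F)) := by
  intro hn
  have hpos := posSimple D hD i hi
  have hsp := simp_spec D pd.sp i hi
  have hnotin : ¬ D.InRootSub J (D.simple i) := by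
    intro hin
    have h1 : (fnsOf D).cor (D.simple i) i = 0 := hin.2 i hi hiJ
    have h2 := (hsp.2 i hi).2
    rw [if_pos rfl] at h2
    omega
  have hx := x_mem_UJ D hD J _ hpos hnotin (1 : F)
  have h2 := (Subgroup.mem_normalizer_iff.mp hn _).mp hx
  obtain ⟨η, hη, e2⟩ := nI_conj_xp (F := F) D hD i hi
  rw [e2 1, mul_inv_cancel_right] at h2
  have h3 : xGL D hD (D.neg (D.simple i)) (η * 1) ∈ D.borelSubgroup F := U_le_B D (UJ_le_U D J h2)
  have sd := signData_of_mem D hD
  have hneg : D.IsNegRoot (D.neg (D.simple i)) := (sd.neg_iff _ hpos.1).mp hpos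
  have h4 : xGL D hD (D.neg (D.simple i)) (η * 1) ∈ D.negUnipotent F :=
    Subgroup.subset_closure ⟨D.neg (D.simple i), η * 1, hneg, xGL_val D hD _ _⟩
  have h5 := Cfsg.Agent.S1037.inter_bot D hD _ h3 h4
  have hpp := neg_pos D hD _ hneg
  refine xGL_ne_one D hD (D.neg (D.simple i)) hneg.1 hpp.1 ?_ (η * 1) (by rw [mul_one]; exact hη) h5
  intro h
  rw [h] at hpp
  exact sd.not_both _ hpp hneg

theorem B_le_par (D : ChevalleyDatum) (J : Set ℕ) : D.borelSubgroup F ≤ D.parabolicSubgroup F J := by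
  unfold ChevalleyDatum.parabolicSubgroup
  exact le_sup_left

theorem par_le_group (D : ChevalleyDatum)
    (hD : D ∈ [chevG2, chevB2, chevD4, chevF4, chevE6, chevE7, chevE8]) (J : Set ℕ) :
    D.parabolicSubgroup F J ≤ D.group F := by
  unfold ChevalleyDatum.parabolicSubgroup
  apply sup_le (Cfsg.Agent.S1043.result D hD).1
  rw [Subgroup.closure_le]
  rintro g ⟨j, -, -, hg⟩
  have hg' : g = nI D hD j := Units.ext (by rw [hg, nI_val])
  rw [hg']
  exact nI_mem_group D hD j

theorem normalizer_eq (D : ChevalleyDatum)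
    (hD : D ∈ [chevG2, chevB2, chevD4, chevF4, chevE6, chevE7, chevE8]) (pd : ParData D) (J : Set ℕ) :
    Subgroup.normalizer (D.unipotentRadical F J : Set (GL D.Idx F)) ⊓ D.group F =
      D.parabolicSubgroup F J := by
  apply le_antisymm
  · rintro g ⟨hgN, hgG⟩
    have hBM : (bnPair F D hD).B ≤
        (Subgroup.normalizer (D.unipotentRadical F J : Set (GL D.Idx F))).subgroupOf (D.group F) := by
      intro b hb
      exact par_le_normalizer D hD pd J (B_le_par D J hb)
    have hM := Cfsg.Agent.Lib.Helper2.BN.eq_parabolic (bnPair F D hD) _ hBM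
    have hg' : (⟨g, hgG⟩ : ↥(D.group F)) ∈
        (Subgroup.normalizer (D.unipotentRadical F J : Set (GL D.Idx F))).subgroupOf (D.group F) := hgN
    rw [hM] at hg'
    have hle : (bnPair F D hD).parabolic ((bnPair F D hD).S ∩
        ((Subgroup.normalizer (D.unipotentRadical F J : Set (GL D.Idx F))).subgroupOf (D.group F) :
          Set ↥(D.group F))) ≤ (D.parabolicSubgroup F J).subgroupOf (D.group F) := by
      unfold Cfsg.BNPair.parabolic
      apply sup_le
      · intro b hb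
        exact B_le_par D J hb
      · rw [Subgroup.closure_le]
        rintro s ⟨hsS, hsM⟩
        obtain ⟨i, hi, e⟩ := mem_bS D hD s hsS
        have hiJ : i ∈ J := by
          by_contra hiJ
          apply nI_not_normalizes (F := F) D hD pd J i hi hiJ
          rw [← e]
          exact hsM
        show (s : GL D.Idx F) ∈ D.parabolicSubgroup F J
        rw [e]
        exact nI_mem_par D hD J i hiJ hi
    exact hle hg'
  · exact le_inf (par_le_normalizer D hD pd J) (par_le_group D hD J)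

end

end Cfsg.Agent.Lib.Helper7.ChevPar4
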