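import Cfsg.Agent.Lib.Helper7.ChevSimple

set_option autoImplicit false
set_option maxHeartbeats 400000
set_option maxRecDepth 1000000

namespace Cfsg.Agent.Lib.Helper7.ChevSimple2
open Cfsg.Lie Cfsg.Agent.Lib.Helper7.ChevTorus Cfsg.Agent.Lib.Helper7.ChevW0
  Cfsg.Agent.Lib.Helper7.HBaseAll Cfsg.Agent.Lib.Helper7.ChevBN
  Cfsg.Agent.Lib.Helper7.ChevExch Cfsg.Agent.Lib.Helper7.ChevBN3 Cfsg.Agent.Lib.Helper7.ChevBNP
  Cfsg.Agent.Lib.Helper7.ChevSimple

section
variable {F : Type*} [Field F]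

theorem nontrivial_group (D : ChevalleyDatum)
    (hD : D ∈ [chevG2, chevB2, chevD4, chevF4, chevE6, chevE7, chevE8]) : Nontrivial ↥(D.group F) := by
  have sd := signData_of_mem D hD
  obtain ⟨hC, -, -⟩ := all_of_mem D hD
  have h0 := rank_pos D hD
  have hp := simple_lt D hC 0 h0
  have hpos := posSimple D hD 0 h0
  refine ⟨⟨⟨xGL D hD (D.simple 0) 1, xGL_mem_group D hD _ _⟩, 1, ?_⟩⟩
  intro h
  have h' : xGL D hD (D.simple 0) (1 : F) = 1 := congrArg Subtype.val h
  refine xGL_ne_one D hD (D.simple 0) hp (neg_lt D hD _ hp) ?_ 1 one_ne_zero h'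
  intro he
  have hn := (sd.neg_iff _ hp).mp hpos
  rw [he] at hn
  exact sd.not_both _ hpos hn

theorem solvable_bB (D : ChevalleyDatum) (hD : D ∈ [chevG2, chevB2, chevD4, chevF4, chevE6, chevE7, chevE8]) :
    Group.IsSolvable ↥(bB F D) := by
  obtain ⟨hBG, -, -⟩ := Cfsg.Agent.S1043.result (F := F) D hD
  haveI := Cfsg.Agent.S1050.result (F := F) D hD
  exact Group.isSolvable_of_isSolvable_injective
    (f := (Subgroup.subgroupOfEquivOfLe hBG).toMonoidHom) (Subgroup.subgroupOfEquivOfLe hBG).injective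

theorem simple_of (D : ChevalleyDatum) (hD : D ∈ [chevG2, chevB2, chevD4, chevF4, chevE6, chevE7, chevE8])
    (hperf : commutator ↥(D.group F) = ⊤)
    (E : List (ℕ × ℕ)) (hE : edgeCheck D E = true)
    (hconn : ∀ f : ℕ → Prop, (∀ e ∈ E, (f e.1 ↔ f e.2)) → ∀ a < D.rank, ∀ b < D.rank, (f a ↔ f b)) :
    IsSimpleGroup ↥(D.group F) ∧ ¬ IsMulCommutative ↥(D.group F) := by
  haveI := nontrivial_group (F := F) D hD
  constructor
  · exact Cfsg.Agent.S0319.result (bnPair F D hD) (irreducible_of D hD E hE hconn) (solvable_bB D hD) hperf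
      (core_eq_bot D hD)
  · intro hc
    have h1 : commutator ↥(D.group F) = ⊥ := by
      rw [commutator_def, eq_bot_iff, Subgroup.commutator_le]
      intro a _ b _
      rw [Subgroup.mem_bot, commutatorElement_def, hc.is_comm.comm a b]
      group
    rw [hperf] at h1
    exact top_ne_bot h1

end

theorem edgeG2 : edgeCheck chevG2 [(0, 1)] = true := by decide +kernel
theorem edgeB2 : edgeCheck chevB2 [(0, 1)] = true := by decide +kernel
theorem edgeD4 : edgeCheck chevD4 [(0, 1), (1, 2), (1, 3)] = true := by decide +kernel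
theorem edgeF4 : edgeCheck chevF4 [(0, 1), (1, 2), (2, 3)] = true := by decide +kernel
theorem edgeE6 : edgeCheck chevE6 [(0, 2), (1, 3), (2, 3), (3, 4), (4, 5)] = true := by decide +kernel
theorem edgeE7 : edgeCheck chevE7 [(0, 2), (1, 3), (2, 3), (3, 4), (4, 5), (5, 6)] = true := by decide +kernel
theorem edgeE8 : edgeCheck chevE8 [(0, 2), (1, 3), (2, 3), (3, 4), (4, 5), (5, 6), (6, 7)] = true := by
  decide +kernel

theorem conn2 (f : ℕ → Prop) (h : ∀ e ∈ [((0 : ℕ), (1 : ℕ))], (f e.1 ↔ f e.2)) :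
    ∀ a < 2, ∀ b < 2, (f a ↔ f b) := by
  simp only [List.forall_mem_cons, List.not_mem_nil, false_imp_iff, implies_true, and_true] at h
  have key : ∀ a < 2, (f a ↔ f 0) := by
    intro a ha
    interval_cases a <;> tauto
  intro a ha b hb
  rw [key a ha, key b hb]

theorem connD4 (f : ℕ → Prop) (h : ∀ e ∈ [((0 : ℕ), (1 : ℕ)), (1, 2), (1, 3)], (f e.1 ↔ f e.2)) :
    ∀ a < 4, ∀ b < 4, (f a ↔ f b) := by
  simp only [List.forall_mem_cons, List.not_mem_nil, false_imp_iff, implies_true, and_true] at h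
  have key : ∀ a < 4, (f a ↔ f 0) := by
    intro a ha
    interval_cases a <;> tauto
  intro a ha b hb
  rw [key a ha, key b hb]

theorem connF4 (f : ℕ → Prop) (h : ∀ e ∈ [((0 : ℕ), (1 : ℕ)), (1, 2), (2, 3)], (f e.1 ↔ f e.2)) :
    ∀ a < 4, ∀ b < 4, (f a ↔ f b) := by
  simp only [List.forall_mem_cons, List.not_mem_nil, false_imp_iff, implies_true, and_true] at h
  have key : ∀ a < 4, (f a ↔ f 0) := by
    intro a ha
    interval_cases a <;> tauto
  intro a ha b hb
  rw [key a ha, key b hb]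

theorem connE6 (f : ℕ → Prop)
    (h : ∀ e ∈ [((0 : ℕ), (2 : ℕ)), (1, 3), (2, 3), (3, 4), (4, 5)], (f e.1 ↔ f e.2)) :
    ∀ a < 6, ∀ b < 6, (f a ↔ f b) := by
  simp only [List.forall_mem_cons, List.not_mem_nil, false_imp_iff, implies_true, and_true] at h
  have key : ∀ a < 6, (f a ↔ f 0) := by
    intro a ha
    interval_cases a <;> tauto
  intro a ha b hb
  rw [key a ha, key b hb]

theorem connE7 (f : ℕ → Prop)
    (h : ∀ e ∈ [((0 : ℕ), (2 : ℕ)), (1, 3), (2, 3), (3, 4), (4, 5), (5, 6)], (f e.1 ↔ f e.2)) :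
    ∀ a < 7, ∀ b < 7, (f a ↔ f b) := by
  simp only [List.forall_mem_cons, List.not_mem_nil, false_imp_iff, implies_true, and_true] at h
  have key : ∀ a < 7, (f a ↔ f 0) := by
    intro a ha
    interval_cases a <;> tauto
  intro a ha b hb
  rw [key a ha, key b hb]

theorem connE8 (f : ℕ → Prop)
    (h : ∀ e ∈ [((0 : ℕ), (2 : ℕ)), (1, 3), (2, 3), (3, 4), (4, 5), (5, 6), (6, 7)], (f e.1 ↔ f e.2)) :
    ∀ a < 8, ∀ b < 8, (f a ↔ f b) := by
  simp only [List.forall_mem_cons, List.not_mem_nil, false_imp_iff, implies_true, and_true] at h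
  have key : ∀ a < 8, (f a ↔ f 0) := by
    intro a ha
    interval_cases a <;> tauto
  intro a ha b hb
  rw [key a ha, key b hb]

end Cfsg.Agent.Lib.Helper7.ChevSimple2
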