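import Mathlib

set_option autoImplicit false

namespace Cfsg.Agent.Lib.Helper7.PoinAbs

open Equiv Classical

structure SignSys (R : Type*) where
  pos : R → Prop
  ng : R → R
  ng_ng : ∀ r, ng (ng r) = r
  pos_ng : ∀ r, pos (ng r) ↔ ¬ pos r

variable {R : Type*} [Fintype R] (S : SignSys R)

def Comm (σ : Perm R) : Prop := ∀ r, σ (S.ng r) = S.ng (σ r)

theorem p_apply_inv (σ : Perm R) (x : R) : σ (σ⁻¹ x) = x := σ.apply_symm_apply x

theorem p_inv_apply (σ : Perm R) (x : R) : σ⁻¹ (σ x) = x := σ.symm_apply_apply x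

theorem comm_inv (σ : Perm R) (h : Comm S σ) : Comm S σ⁻¹ := by
  intro r
  apply σ.injective
  rw [p_apply_inv, h, p_apply_inv]

theorem comm_mul (σ τ : Perm R) (h1 : Comm S σ) (h2 : Comm S τ) : Comm S (σ * τ) := by
  intro r
  rw [Perm.mul_apply, Perm.mul_apply, h2, h1]

theorem comm_one : Comm S (1 : Perm R) := fun _ => rfl

noncomputable def invs (σ : Perm R) : Finset R := Finset.univ.filter (fun r => S.pos r ∧ ¬ S.pos (σ r))

noncomputable def Nv (σ : Perm R) : ℕ := (invs S σ).card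

theorem mem_invs (σ : Perm R) (r : R) : r ∈ invs S σ ↔ S.pos r ∧ ¬ S.pos (σ r) := by
  unfold invs
  simp

theorem Nv_one : Nv S (1 : Perm R) = 0 := by
  unfold Nv
  rw [Finset.card_eq_zero, Finset.eq_empty_iff_forall_notMem]
  intro r hr
  rw [mem_invs] at hr
  exact hr.2 hr.1

structure IsRefl (s : Perm R) (α : R) : Prop where
  comm : Comm S s
  pos_α : S.pos α
  map_α : s α = S.ng α
  invol : ∀ r, s (s r) = r
  perm : ∀ r, S.pos r → r ≠ α → S.pos (s r)

theorem Nv_mul_refl (σ s : Perm R) (α : R) (hσ : Comm S σ) (hs : IsRefl S s α) (hpos : S.pos (σ α)) :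
    Nv S (σ * s) = Nv S σ + 1 := by
  have hset : invs S (σ * s) = insert α ((invs S σ).image s) := by
    ext r
    rw [mem_invs, Finset.mem_insert, Finset.mem_image, Perm.mul_apply]
    constructor
    · rintro ⟨hr, hn⟩
      by_cases hrα : r = α
      · exact Or.inl hrα
      · right
        refine ⟨s r, ?_, hs.invol r⟩
        rw [mem_invs]
        exact ⟨hs.perm r hr hrα, hn⟩
    · rintro (rfl | ⟨r', hr', rfl⟩)
      · refine ⟨hs.pos_α, ?_⟩
        rw [hs.map_α, hσ, S.pos_ng]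
        exact fun h => h hpos
      · rw [mem_invs] at hr'
        have hne : r' ≠ α := by
          rintro rfl
          exact hr'.2 hpos
        refine ⟨hs.perm r' hr'.1 hne, ?_⟩
        rw [hs.invol]
        exact hr'.2
  have hnot : α ∉ (invs S σ).image s := by
    intro h
    rw [Finset.mem_image] at h
    obtain ⟨r', hr', e⟩ := h
    rw [mem_invs] at hr'
    have e2 : r' = S.ng α := by
      rw [← hs.map_α, ← e, hs.invol]
    rw [e2, S.pos_ng] at hr'
    exact hr'.1 hs.pos_α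
  unfold Nv
  rw [hset, Finset.card_insert_of_notMem hnot, Finset.card_image_of_injective _ s.injective]

theorem refl_mul_Nv (u s : Perm R) (α : R) (hu : Comm S u) (hs : IsRefl S s α) (hpos : S.pos (u⁻¹ α)) :
    Nv S (s * u) = Nv S u + 1 := by
  have hset : invs S (s * u) = insert (u⁻¹ α) (invs S u) := by
    ext r
    rw [mem_invs, Finset.mem_insert, mem_invs, Perm.mul_apply]
    constructor
    · rintro ⟨hr, hn⟩
      by_cases hp : S.pos (u r)
      · left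
        by_cases hα : u r = α
        · rw [← hα, p_inv_apply]
        · exact absurd (hs.perm _ hp hα) hn
      · exact Or.inr ⟨hr, hp⟩
    · rintro (rfl | ⟨hr, hn⟩)
      · refine ⟨hpos, ?_⟩
        rw [p_apply_inv, hs.map_α, S.pos_ng]
        exact fun h => h hs.pos_α
      · refine ⟨hr, ?_⟩
        have h1 : S.pos (S.ng (u r)) := (S.pos_ng _).mpr hn
        have h2 : S.ng (u r) ≠ α := by
          intro e
          have e2 : u r = S.ng α := by rw [← e, S.ng_ng]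
          have e3 : r = S.ng (u⁻¹ α) := by
            rw [← comm_inv S u hu, ← e2, p_inv_apply]
          rw [e3, S.pos_ng] at hr
          exact hr hpos
        have h3 := hs.perm _ h1 h2
        rw [hs.comm, S.pos_ng] at h3
        exact h3
  have hnot : u⁻¹ α ∉ invs S u := by
    rw [mem_invs, p_apply_inv]
    exact fun h => h.2 hs.pos_α
  unfold Nv
  rw [hset, Finset.card_insert_of_notMem hnot]

theorem Nv_mul (u v : Perm R) (Ψ : Set R) (hu : Comm S u)
    (ha : ∀ r, S.pos r → r ∉ Ψ → S.pos (v r) ∧ v r ∉ Ψ)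
    (ha' : ∀ r, S.pos (v r) → v r ∉ Ψ → S.pos r)
    (hb : ∀ r ∈ Ψ, S.pos (v r) → v r ∈ Ψ)
    (hb' : ∀ r ∈ Ψ, ¬ S.pos (v r) → S.ng (v r) ∈ Ψ)
    (hc : ∀ r ∈ Ψ, S.pos (u r)) :
    Nv S (u * v) = Nv S u + Nv S v := by
  have hset : invs S (u * v) = invs S v ∪ (invs S u).image v.symm := by
    ext r
    rw [mem_invs, Finset.mem_union, mem_invs, Finset.mem_image, Perm.mul_apply]
    constructor
    · rintro ⟨hr, hn⟩
      by_cases hΨ : r ∈ Ψ
      · left
        refine ⟨hr, fun hp => hn (hc _ (hb r hΨ hp))⟩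
      · right
        refine ⟨v r, ?_, v.symm_apply_apply r⟩
        rw [mem_invs]
        exact ⟨(ha r hr hΨ).1, hn⟩
    · rintro (⟨hr, hn⟩ | ⟨r', hr', rfl⟩)
      · refine ⟨hr, ?_⟩
        have hΨ : r ∈ Ψ := by
          by_contra h
          exact hn (ha r hr h).1
        have h1 := hc _ (hb' r hΨ hn)
        rw [hu, S.pos_ng] at h1
        exact h1
      · rw [mem_invs] at hr'
        have hnΨ : r' ∉ Ψ := fun h => hr'.2 (hc r' h)
        have e : v (v.symm r') = r' := v.apply_symm_apply r'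
        refine ⟨ha' _ (by rw [e]; exact hr'.1) (by rw [e]; exact hnΨ), ?_⟩
        rw [e]
        exact hr'.2
  have hdisj : Disjoint (invs S v) ((invs S u).image v.symm) := by
    rw [Finset.disjoint_left]
    intro r h1 h2
    rw [mem_invs] at h1
    rw [Finset.mem_image] at h2
    obtain ⟨r', hr', rfl⟩ := h2
    rw [mem_invs] at hr'
    apply h1.2
    rw [v.apply_symm_apply]
    exact hr'.1
  unfold Nv
  rw [hset, Finset.card_union_of_disjoint hdisj, Finset.card_image_of_injective _ v.symm.injective,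
    add_comm]

def Supp (K : Subgroup (Perm R)) (Ψ : Set R) : Prop :=
  ∀ v ∈ K, (∀ r, S.pos r → r ∉ Ψ → S.pos (v r) ∧ v r ∉ Ψ) ∧
    (∀ r ∈ Ψ, (S.pos (v r) → v r ∈ Ψ) ∧ (¬ S.pos (v r) → S.ng (v r) ∈ Ψ))

def stab (K : Subgroup (Perm R)) (x : R) : Subgroup (Perm R) where
  carrier := {σ | σ ∈ K ∧ σ x = x}
  mul_mem' := by
    rintro a b ⟨ha, ha'⟩ ⟨hb, hb'⟩
    exact ⟨K.mul_mem ha hb, by rw [Perm.mul_apply, hb', ha']⟩
  one_mem' := ⟨K.one_mem, rfl⟩
  inv_mem' := by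
    rintro a ⟨ha, ha'⟩
    refine ⟨K.inv_mem ha, ?_⟩
    rw [Perm.inv_eq_iff_eq]
    exact ha'.symm

theorem mem_stab (K : Subgroup (Perm R)) (x : R) (σ : Perm R) : σ ∈ stab K x ↔ σ ∈ K ∧ σ x = x := Iff.rfl

structure Pairing (K : Subgroup (Perm R)) (c : R → R → ℤ) : Prop where
  inv : ∀ σ ∈ K, ∀ r s, c (σ r) (σ s) = c r s
  odd : ∀ r s, c (S.ng r) s = - c r s

theorem supp_stab (K : Subgroup (Perm R)) (Ψ : Set R) (c : R → R → ℤ) (hc : Pairing S K c)
    (hK : Supp S K Ψ) (lam : R) (hdom : ∀ r ∈ Ψ, 0 ≤ c r lam) :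
    Supp S (stab K lam) {r | r ∈ Ψ ∧ c r lam = 0} := by
  rintro v ⟨hvK, hvl⟩
  obtain ⟨hA, hB⟩ := hK v hvK
  have hcv : ∀ r, c (v r) lam = c r lam := by
    intro r
    have := hc.inv v hvK r lam
    rw [hvl] at this
    exact this
  constructor
  · intro r hr hn
    by_cases hΨ : r ∈ Ψ
    · have hne : c r lam ≠ 0 := fun h => hn ⟨hΨ, h⟩
      have hgt : 0 < c r lam := lt_of_le_of_ne (hdom r hΨ) (Ne.symm hne)
      have hp : S.pos (v r) := by
        by_contra hnp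
        have h1 := hdom _ ((hB r hΨ).2 hnp)
        rw [hc.odd, hcv] at h1
        omega
      refine ⟨hp, ?_⟩
      rintro ⟨-, h0⟩
      rw [hcv] at h0
      exact hne h0
    · obtain ⟨h1, h2⟩ := hA r hr hΨ
      exact ⟨h1, fun h => h2 h.1⟩
  · rintro r ⟨hΨ, h0⟩
    constructor
    · intro hp
      exact ⟨(hB r hΨ).1 hp, by rw [hcv]; exact h0⟩
    · intro hnp
      refine ⟨(hB r hΨ).2 hnp, ?_⟩
      rw [hc.odd, hcv, h0, neg_zero]

def Tr (K : Subgroup (Perm R)) (Ψ' : Set R) (lam : R) (u : Perm R) (x : R) (d : ℕ) : Prop :=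
  u ∈ K ∧ u lam = x ∧ (∀ r ∈ Ψ', S.pos (u r)) ∧ Nv S u = d

theorem tr_base (K : Subgroup (Perm R)) (Ψ' : Set R) (hΨ' : ∀ r ∈ Ψ', S.pos r) (lam : R) :
    Tr S K Ψ' lam 1 lam 0 :=
  ⟨K.one_mem, rfl, fun r hr => hΨ' r hr, Nv_one S⟩

theorem tr_step (K : Subgroup (Perm R)) (Ψ : Set R) (c : R → R → ℤ) (hc : Pairing S K c)
    (hK : Supp S K Ψ) (hcomm : ∀ σ ∈ K, Comm S σ) (lam : R) (hdom : ∀ r ∈ Ψ, 0 ≤ c r lam)
    (u : Perm R) (x : R) (d : ℕ) (hT : Tr S K {r | r ∈ Ψ ∧ c r lam = 0} lam u x d)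
    (s : Perm R) (α : R) (hs : IsRefl S s α) (hsK : s ∈ K) (hα : α ∈ Ψ) (hpos : 0 < c α x) :
    Tr S K {r | r ∈ Ψ ∧ c r lam = 0} lam (s * u) (s x) (d + 1) := by
  obtain ⟨huK, hux, hu3, hu4⟩ := hT
  refine ⟨K.mul_mem hsK huK, by rw [Perm.mul_apply, hux], ?_, ?_⟩
  · rintro r ⟨hrΨ, hr0⟩
    rw [Perm.mul_apply]
    apply hs.perm _ (hu3 r ⟨hrΨ, hr0⟩)
    intro e
    have h1 := hc.inv u huK r lam
    rw [hux, e, hr0] at h1
    omega
  · rw [refl_mul_Nv S u s α (hcomm u huK) hs, hu4]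
    by_contra hnp
    have h1 := hdom _ (((hK u⁻¹ (K.inv_mem huK)).2 α hα).2 hnp)
    rw [hc.odd] at h1
    have h2 := hc.inv u huK (u⁻¹ α) lam
    rw [p_apply_inv, hux] at h2
    omega

theorem tr_add (K : Subgroup (Perm R)) (Ψ : Set R) (c : R → R → ℤ) (hc : Pairing S K c)
    (hK : Supp S K Ψ) (hcomm : ∀ σ ∈ K, Comm S σ) (lam : R) (hdom : ∀ r ∈ Ψ, 0 ≤ c r lam)
    (u : Perm R) (x : R) (d : ℕ) (hT : Tr S K {r | r ∈ Ψ ∧ c r lam = 0} lam u x d)
    (v : Perm R) (hv : v ∈ stab K lam) : Nv S (u * v) = d + Nv S v := by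
  obtain ⟨huK, -, hu3, hu4⟩ := hT
  have hS := supp_stab S K Ψ c hc hK lam hdom
  obtain ⟨hA, hB⟩ := hS v hv
  obtain ⟨hA', -⟩ := hS v⁻¹ ((stab K lam).inv_mem hv)
  rw [← hu4]
  apply Nv_mul S u v {r | r ∈ Ψ ∧ c r lam = 0} (hcomm u huK) hA
  · intro r hp hn
    have := (hA' (v r) hp hn).1
    rw [p_inv_apply] at this
    exact this
  · exact fun r hr => (hB r hr).1
  · exact fun r hr => (hB r hr).2
  · exact hu3

theorem sum_orbit (K : Subgroup (Perm R)) (Ψ : Set R) (c : R → R → ℤ) (hc : Pairing S K c)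
    (hK : Supp S K Ψ) (hcomm : ∀ σ ∈ K, Comm S σ) (lam : R) (hdom : ∀ r ∈ Ψ, 0 ≤ c r lam)
    (O : Finset R) (d : R → ℕ) (hO : ∀ σ ∈ K, σ lam ∈ O)
    (hT : ∀ x ∈ O, ∃ u, Tr S K {r | r ∈ Ψ ∧ c r lam = 0} lam u x (d x)) (q : ℕ)
    [Fintype ↥K] [Fintype ↥(stab K lam)] :
    ∑ σ : ↥K, q ^ Nv S (σ : Perm R) =
      (∑ x ∈ O, q ^ d x) * ∑ v : ↥(stab K lam), q ^ Nv S (v : Perm R) := by
  choose! u hu using hT
  have hstab : ∀ σ : ↥K, (u ((σ : Perm R) lam))⁻¹ * (σ : Perm R) ∈ stab K lam := by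
    intro σ
    have h1 := hu _ (hO σ σ.2)
    refine ⟨K.mul_mem (K.inv_mem h1.1) σ.2, ?_⟩
    rw [Perm.mul_apply, Perm.inv_eq_iff_eq]
    exact h1.2.1.symm
  let e : ↥K ≃ (↥O × ↥(stab K lam)) :=
    { toFun := fun σ => (⟨(σ : Perm R) lam, hO σ σ.2⟩, ⟨(u ((σ : Perm R) lam))⁻¹ * (σ : Perm R), hstab σ⟩)
      invFun := fun p => ⟨u p.1 * (p.2 : Perm R), K.mul_mem (hu _ p.1.2).1 p.2.2.1⟩
      left_inv := by
        intro σ
        apply Subtype.ext
        simp
      right_inv := by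
        rintro ⟨⟨x, hx⟩, ⟨v, hv⟩⟩
        have h1 := hu x hx
        have e1 : (u x * v) lam = x := by
          rw [Perm.mul_apply, hv.2, h1.2.1]
        apply Prod.ext
        · apply Subtype.ext
          exact e1
        · apply Subtype.ext
          show (u ((u x * v) lam))⁻¹ * (u x * v) = v
          rw [e1]
          simp }
  rw [← Equiv.sum_comp e.symm, Fintype.sum_prod_type, Finset.sum_mul_sum, ← Finset.sum_coe_sort O]
  apply Finset.sum_congr rfl
  intro x _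
  apply Finset.sum_congr rfl
  intro v _
  have h1 := tr_add S K Ψ c hc hK hcomm lam hdom (u x) x (d x) (hu x x.2) v v.2
  show q ^ Nv S (u x * (v : Perm R)) = q ^ d x * q ^ Nv S (v : Perm R)
  rw [h1, pow_add]

theorem supp_empty (K : Subgroup (Perm R)) (hK : Supp S K ∅) : ∀ v ∈ K, Nv S v = 0 := by
  intro v hv
  unfold Nv
  rw [Finset.card_eq_zero, Finset.eq_empty_iff_forall_notMem]
  intro r hr
  rw [mem_invs] at hr
  exact hr.2 ((hK v hv).1 r hr.1 (Set.notMem_empty r)).1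

theorem sum_trivial (K : Subgroup (Perm R)) (hK : ∀ v ∈ K, v = 1) (q : ℕ) [Fintype ↥K] :
    ∑ σ : ↥K, q ^ Nv S (σ : Perm R) = 1 := by
  rw [Finset.sum_eq_single (⟨1, K.one_mem⟩ : ↥K)]
  · show q ^ Nv S (1 : Perm R) = 1
    rw [Nv_one, pow_zero]
  · intro b _ hb
    exfalso
    apply hb
    apply Subtype.ext
    exact hK b b.2
  · intro h
    exact absurd (Finset.mem_univ _) h

end Cfsg.Agent.Lib.Helper7.PoinAbs
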