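import Cfsg.Agent.Lib.Helper7.WPermAll
import Cfsg.Agent.Lib.Helper7.PoinAbs

set_option autoImplicit false
set_option maxHeartbeats 400000
set_option maxRecDepth 1000000

namespace Cfsg.Agent.Lib.Helper7.ChevWGrp
open Cfsg.Lie Cfsg.Agent.Lib.Helper7.ChevEngine Cfsg.Agent.Lib.Helper7.ChevN
  Cfsg.Agent.Lib.Helper7.ChevConj
  Cfsg.Agent.Lib.Helper7.ChevConjT Cfsg.Agent.Lib.Helper7.ChevConjU Cfsg.Agent.Lib.Helper7.ChevAdd
  Cfsg.Agent.Lib.Helper7.ChevHAll Cfsg.Agent.Lib.Helper7.HBaseAll Cfsg.Agent.Lib.Helper7.ChevTorus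
  Cfsg.Agent.Lib.Helper7.ChevBN Cfsg.Agent.Lib.Helper7.ChevGen Cfsg.Agent.Lib.Helper7.ChevOrb
  Cfsg.Agent.Lib.Helper7.ChevW0 Cfsg.Agent.Lib.Helper7.ChevComm Cfsg.Agent.Lib.Helper7.ChevPerf
  Cfsg.Agent.Lib.Helper7.ChevRel Cfsg.Agent.Lib.Helper7.Shift Cfsg.Agent.Lib.Helper7.Tri2
  Cfsg.Agent.Lib.Helper7.ChevTri Cfsg.Agent.Lib.Helper7.ChevTriNeg Cfsg.Agent.Lib.Helper7.ChevNW
  Cfsg.Agent.Lib.Helper7.W0All Cfsg.Agent.Lib.Helper7.ChevExch Cfsg.Agent.Lib.Helper7.RelAll
  Cfsg.Agent.Lib.Helper7.ChevBN3 Cfsg.Agent.Lib.Helper7.ChevBNP Cfsg.Agent.Lib.Helper7.ChevBruhat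
  Cfsg.Agent.Lib.Helper7.ChevCell Cfsg.Agent.Lib.Helper7.PoinAbs Cfsg.Agent.Lib.Helper7.ChevWPerm
  Cfsg.Agent.Lib.Helper7.WPermAll Equiv

def sPerm (D : ChevalleyDatum) (hD : D ∈ [chevG2, chevB2, chevD4, chevF4, chevE6, chevE7, chevE8])
    (i : ℕ) : Perm (Fin D.nroots) :=
  if hi : i < D.rank then
    { toFun := fun r => ⟨D.reflectRoot i r, refl_lt D hD i hi r r.isLt⟩
      invFun := fun r => ⟨D.reflectRoot i r, refl_lt D hD i hi r r.isLt⟩
      left_inv := fun r => Fin.ext (refl_refl D hD i hi r r.isLt)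
      right_inv := fun r => Fin.ext (refl_refl D hD i hi r r.isLt) }
  else 1

theorem sPerm_apply (D : ChevalleyDatum) (hD : D ∈ [chevG2, chevB2, chevD4, chevF4, chevE6, chevE7, chevE8])
    (i : ℕ) (hi : i < D.rank) (r : Fin D.nroots) : ((sPerm D hD i r : Fin D.nroots) : ℕ) = D.reflectRoot i r := by
  unfold sPerm
  rw [dif_pos hi]
  rfl

theorem sPerm_invol (D : ChevalleyDatum) (hD : D ∈ [chevG2, chevB2, chevD4, chevF4, chevE6, chevE7, chevE8])
    (i : ℕ) (hi : i < D.rank) (r : Fin D.nroots) : sPerm D hD i (sPerm D hD i r) = r := by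
  apply Fin.ext
  rw [sPerm_apply D hD i hi, sPerm_apply D hD i hi]
  exact refl_refl D hD i hi r r.isLt

theorem sPerm_inv (D : ChevalleyDatum) (hD : D ∈ [chevG2, chevB2, chevD4, chevF4, chevE6, chevE7, chevE8])
    (i : ℕ) (hi : i < D.rank) : (sPerm D hD i)⁻¹ = sPerm D hD i := by
  rw [inv_eq_iff_mul_eq_one]
  ext r
  rw [Perm.mul_apply, sPerm_invol D hD i hi]
  rfl

def permOf (D : ChevalleyDatum) (hD : D ∈ [chevG2, chevB2, chevD4, chevF4, chevE6, chevE7, chevE8])
    (is : List ℕ) : Perm (Fin D.nroots) := (is.map (sPerm D hD)).prod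

theorem permOf_nil (D : ChevalleyDatum) (hD : D ∈ [chevG2, chevB2, chevD4, chevF4, chevE6, chevE7, chevE8]) :
    permOf D hD [] = 1 := rfl

theorem permOf_cons (D : ChevalleyDatum) (hD : D ∈ [chevG2, chevB2, chevD4, chevF4, chevE6, chevE7, chevE8])
    (i : ℕ) (is : List ℕ) : permOf D hD (i :: is) = sPerm D hD i * permOf D hD is := by
  unfold permOf
  rw [List.map_cons, List.prod_cons]

theorem permOf_append (D : ChevalleyDatum) (hD : D ∈ [chevG2, chevB2, chevD4, chevF4, chevE6, chevE7, chevE8])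
    (a b : List ℕ) : permOf D hD (a ++ b) = permOf D hD a * permOf D hD b := by
  unfold permOf
  rw [List.map_append, List.prod_append]

theorem permOf_apply (D : ChevalleyDatum) (hD : D ∈ [chevG2, chevB2, chevD4, chevF4, chevE6, chevE7, chevE8])
    (is : List ℕ) (his : ∀ i ∈ is, i < D.rank) (r : Fin D.nroots) :
    ((permOf D hD is r : Fin D.nroots) : ℕ) = wAct D is r := by
  induction is with
  | nil => rfl
  | cons i is ih =>
    rw [permOf_cons, Perm.mul_apply, sPerm_apply D hD i (his i (by simp)), wAct_cons,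
      ih (fun j hj => his j (List.mem_cons_of_mem _ hj))]

theorem permOf_inv (D : ChevalleyDatum) (hD : D ∈ [chevG2, chevB2, chevD4, chevF4, chevE6, chevE7, chevE8])
    (is : List ℕ) (his : ∀ i ∈ is, i < D.rank) : (permOf D hD is)⁻¹ = permOf D hD is.reverse := by
  induction is with
  | nil => simp [permOf]
  | cons i is ih =>
    rw [permOf_cons, mul_inv_rev, ih (fun j hj => his j (List.mem_cons_of_mem _ hj)),
      sPerm_inv D hD i (his i (by simp)), List.reverse_cons, permOf_append, permOf_cons, permOf_nil, mul_one]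

def Wg (D : ChevalleyDatum) (hD : D ∈ [chevG2, chevB2, chevD4, chevF4, chevE6, chevE7, chevE8]) :
    Subgroup (Perm (Fin D.nroots)) where
  carrier := {σ | ∃ is : List ℕ, (∀ i ∈ is, i < D.rank) ∧ σ = permOf D hD is}
  mul_mem' := by
    rintro a b ⟨is, his, rfl⟩ ⟨js, hjs, rfl⟩
    refine ⟨is ++ js, ?_, (permOf_append D hD is js).symm⟩
    intro i hi
    rcases List.mem_append.mp hi with h | h
    · exact his i h
    · exact hjs i h
  one_mem' := ⟨[], by simp, rfl⟩
  inv_mem' := by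
    rintro a ⟨is, his, rfl⟩
    exact ⟨is.reverse, fun i hi => his i (List.mem_reverse.mp hi), permOf_inv D hD is his⟩

theorem permOf_mem (D : ChevalleyDatum) (hD : D ∈ [chevG2, chevB2, chevD4, chevF4, chevE6, chevE7, chevE8])
    (is : List ℕ) (his : ∀ i ∈ is, i < D.rank) : permOf D hD is ∈ Wg D hD := ⟨is, his, rfl⟩

theorem sPerm_mem (D : ChevalleyDatum) (hD : D ∈ [chevG2, chevB2, chevD4, chevF4, chevE6, chevE7, chevE8])
    (i : ℕ) (hi : i < D.rank) : sPerm D hD i ∈ Wg D hD := by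
  refine ⟨[i], by simpa using hi, ?_⟩
  rw [permOf_cons, permOf_nil, mul_one]

theorem isNeg_iff (D : ChevalleyDatum) (hD : D ∈ [chevG2, chevB2, chevD4, chevF4, chevE6, chevE7, chevE8])
    (r : ℕ) (hr : r < D.nroots) : D.IsNegRoot r ↔ ¬ D.IsPosRoot r := by
  have sd := signData_of_mem D hD
  constructor
  · exact fun hn hp => sd.not_both r hp hn
  · intro hnp
    rcases sd.pos_or_neg r hr with h | h
    · exact absurd h hnp
    · exact h

def sgn (D : ChevalleyDatum) (hD : D ∈ [chevG2, chevB2, chevD4, chevF4, chevE6, chevE7, chevE8]) :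
    SignSys (Fin D.nroots) where
  pos := fun r => D.IsPosRoot r
  ng := fun r => ⟨D.neg r, ((lin_of_mem D hD).nn r r.isLt).1⟩
  ng_ng := fun r => Fin.ext ((lin_of_mem D hD).nn r r.isLt).2
  pos_ng := by
    intro r
    have sd := signData_of_mem D hD
    have h1 := ((lin_of_mem D hD).nn r r.isLt)
    have h2 := sd.neg_iff (D.neg r) h1.1
    show D.IsPosRoot (D.neg r) ↔ ¬ D.IsPosRoot r
    rw [h2, h1.2]
    exact isNeg_iff D hD r r.isLt

theorem sgn_pos (D : ChevalleyDatum) (hD : D ∈ [chevG2, chevB2, chevD4, chevF4, chevE6, chevE7, chevE8])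
    (r : Fin D.nroots) : (sgn D hD).pos r ↔ D.IsPosRoot r := Iff.rfl

theorem sgn_ng (D : ChevalleyDatum) (hD : D ∈ [chevG2, chevB2, chevD4, chevF4, chevE6, chevE7, chevE8])
    (r : Fin D.nroots) : (((sgn D hD).ng r : Fin D.nroots) : ℕ) = D.neg r := rfl

def simpF (D : ChevalleyDatum) (hD : D ∈ [chevG2, chevB2, chevD4, chevF4, chevE6, chevE7, chevE8])
    (i : ℕ) (hi : i < D.rank) : Fin D.nroots := ⟨D.simple i, simple_lt D (all_of_mem D hD).1 i hi⟩

theorem sPerm_comm (D : ChevalleyDatum) (hD : D ∈ [chevG2, chevB2, chevD4, chevF4, chevE6, chevE7, chevE8])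
    (i : ℕ) (hi : i < D.rank) : Comm (sgn D hD) (sPerm D hD i) := by
  intro r
  apply Fin.ext
  obtain ⟨hC, -, -⟩ := all_of_mem D hD
  obtain ⟨m, W, -, -, hcj⟩ := hC.1 i hi
  rw [sPerm_apply D hD i hi, sgn_ng, sgn_ng, sPerm_apply D hD i hi]
  exact (neg_props D i m W hcj r r.isLt).2.1

theorem sPerm_refl (D : ChevalleyDatum) (hD : D ∈ [chevG2, chevB2, chevD4, chevF4, chevE6, chevE7, chevE8])
    (i : ℕ) (hi : i < D.rank) : IsRefl (sgn D hD) (sPerm D hD i) (simpF D hD i hi) := by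
  have sd := signData_of_mem D hD
  refine ⟨sPerm_comm D hD i hi, posSimple D hD i hi, ?_, sPerm_invol D hD i hi, ?_⟩
  · apply Fin.ext
    rw [sPerm_apply D hD i hi, sgn_ng]
    exact refl_simple D i
  · intro r hr hne
    show D.IsPosRoot (sPerm D hD i r)
    rw [sPerm_apply D hD i hi]
    apply sd.refl_pos i hi r hr
    intro e
    exact hne (Fin.ext e)

theorem Wg_comm (D : ChevalleyDatum) (hD : D ∈ [chevG2, chevB2, chevD4, chevF4, chevE6, chevE7, chevE8]) :
    ∀ σ ∈ Wg D hD, Comm (sgn D hD) σ := by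
  rintro σ ⟨is, his, rfl⟩
  induction is with
  | nil => exact comm_one _
  | cons i is ih =>
    rw [permOf_cons]
    exact comm_mul _ _ _ (sPerm_comm D hD i (his i (by simp))) (ih (fun j hj => his j (List.mem_cons_of_mem _ hj)))

def cF (D : ChevalleyDatum) (r s : Fin D.nroots) : ℤ := cD D r s

theorem Wg_pairing (D : ChevalleyDatum) (hD : D ∈ [chevG2, chevB2, chevD4, chevF4, chevE6, chevE7, chevE8]) :
    Pairing (sgn D hD) (Wg D hD) (cF D) := by
  have ld := lin_of_mem D hD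
  constructor
  · rintro σ ⟨is, his, rfl⟩
    induction is with
    | nil => intro r s; rfl
    | cons i is ih =>
      intro r s
      have hi : i < D.rank := his i (by simp)
      rw [permOf_cons, Perm.mul_apply, Perm.mul_apply]
      rw [← ih (fun j hj => his j (List.mem_cons_of_mem _ hj)) r s]
      unfold cF
      rw [sPerm_apply D hD i hi, sPerm_apply D hD i hi]
      exact cD_refl D ld i hi _ _ (Fin.isLt _) (Fin.isLt _)
  · intro r s
    exact cD_neg D ld r s r.isLt

theorem Nv_good (D : ChevalleyDatum) (hD : D ∈ [chevG2, chevB2, chevD4, chevF4, chevE6, chevE7, chevE8]) :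
    ∀ is : List ℕ, GoodW D is → Nv (sgn D hD) (permOf D hD is) = is.length := by
  intro is
  induction is using List.reverseRecOn with
  | nil =>
    intro _
    rw [permOf_nil, Nv_one, List.length_nil]
  | append_singleton L i ih =>
    intro hg
    obtain ⟨hi, hpos⟩ := goodW_last D L i hg
    have hgL := goodW_prefix D L [i] hg
    have hL := goodW_valid D L hgL
    rw [permOf_append, permOf_cons, permOf_nil, mul_one,
      Nv_mul_refl (sgn D hD) _ _ (simpF D hD i hi) (Wg_comm D hD _ (permOf_mem D hD L hL)) (sPerm_refl D hD i hi),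
      ih hgL, List.length_append, List.length_singleton]
    show D.IsPosRoot (permOf D hD L (simpF D hD i hi))
    rw [permOf_apply D hD L hL]
    exact hpos

theorem permOf_ext (D : ChevalleyDatum) (hD : D ∈ [chevG2, chevB2, chevD4, chevF4, chevE6, chevE7, chevE8])
    (is is' : List ℕ) (his : ∀ i ∈ is, i < D.rank) (his' : ∀ i ∈ is', i < D.rank)
    (h : ∀ r < D.nroots, wAct D is r = wAct D is' r) : permOf D hD is = permOf D hD is' := by
  ext r
  rw [permOf_apply D hD is his, permOf_apply D hD is' his']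
  exact h r r.isLt

theorem exists_good (D : ChevalleyDatum) (hD : D ∈ [chevG2, chevB2, chevD4, chevF4, chevE6, chevE7, chevE8])
    (σ : Perm (Fin D.nroots)) (hσ : σ ∈ Wg D hD) : ∃ is : List ℕ, GoodW D is ∧ σ = permOf D hD is := by
  obtain ⟨is, his, rfl⟩ := hσ
  obtain ⟨is', hgood, -, h, hh, e⟩ := good_exists (F := ℚ) D hD is.length is rfl his
  refine ⟨is', hgood, ?_⟩
  apply permOf_ext D hD is is' his (goodW_valid D is' hgood)
  intro r hr
  exact same_perm (F := ℚ) D hD is is' his (goodW_valid D is' hgood) h hh e r hr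

theorem Nv_eq_zero (D : ChevalleyDatum) (hD : D ∈ [chevG2, chevB2, chevD4, chevF4, chevE6, chevE7, chevE8])
    (σ : Perm (Fin D.nroots)) (hσ : σ ∈ Wg D hD) (h0 : Nv (sgn D hD) σ = 0) : σ = 1 := by
  obtain ⟨is, hgood, rfl⟩ := exists_good D hD σ hσ
  rw [Nv_good D hD is hgood] at h0
  rw [List.length_eq_zero_iff] at h0
  rw [h0, permOf_nil]

end Cfsg.Agent.Lib.Helper7.ChevWGrp
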