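import Cfsg.Agent.Lib.Helper7.ChevCox
import Cfsg.Agent.Lib.Helper7.ChainG2
import Cfsg.Agent.Lib.Helper7.ChainB2
import Cfsg.Agent.Lib.Helper7.ChainD4
import Cfsg.Agent.Lib.Helper7.ChainF4
import Cfsg.Agent.Lib.Helper7.ChainE6
import Cfsg.Agent.Lib.Helper7.ChainE7
import Cfsg.Agent.Lib.Helper7.ChainE8

set_option autoImplicit false
set_option maxRecDepth 1000000
set_option maxHeartbeats 4000000

namespace Cfsg.Agent.Lib.Helper7.CoxAll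
open Cfsg.Lie Cfsg.Agent.Lib.Helper7.ChevW0 Cfsg.Agent.Lib.Helper7.W0All Cfsg.Agent.Lib.Helper7.ChevWPerm
  Cfsg.Agent.Lib.Helper7.WPermAll Cfsg.Agent.Lib.Helper7.ChevWGrp Cfsg.Agent.Lib.Helper7.ChevChain
  Cfsg.Agent.Lib.Helper7.PoinAbs Cfsg.Agent.Lib.Helper7.ChevCox

theorem ocG2 : ∀ i j : Fin 2, ordCheck chevG2 wtG2 i j ((CoxeterMatrix.G₂) i j) = true := by decide +kernel

theorem omG2 : ∀ i j : Fin chevG2.rank,
    orderOf (fS chevG2 Cfsg.Agent.Lib.Helper7.ChainG2.hm i * fS chevG2 Cfsg.Agent.Lib.Helper7.ChainG2.hm j) = (CoxeterMatrix.G₂) i j :=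
  fun i j => ord_of_check chevG2 Cfsg.Agent.Lib.Helper7.ChainG2.hm wtG2 woG2 i j _ (ocG2 i j)

theorem cwG2 : Nat.card (Wg chevG2 Cfsg.Agent.Lib.Helper7.ChainG2.hm) = 12 := by
  haveI : Fintype ↥(Wg chevG2 Cfsg.Agent.Lib.Helper7.ChainG2.hm) := Fintype.ofFinite _
  have h := poincare chevG2 Cfsg.Agent.Lib.Helper7.ChainG2.hm wtG2 caG2 coG2 Cfsg.Agent.Lib.Helper7.ChainG2.labs woG2 (pack_of_check _ _ _ pkG2)
    (lab_of_check _ _ _ woG2 Cfsg.Agent.Lib.Helper7.ChainG2.lb) Cfsg.Agent.Lib.Helper7.ChainG2.steps Cfsg.Agent.Lib.Helper7.ChainG2.ch 1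
  rw [Cfsg.Agent.Lib.Helper7.ChainG2.chainPoly_eq 1] at h
  simp only [one_pow, Finset.sum_const, Finset.card_univ, smul_eq_mul, mul_one] at h
  rw [Nat.card_eq_fintype_card, h]
  decide +kernel

theorem ccG2 : Nat.card (CoxeterMatrix.G₂).Group = 12 :=
  (card_cox chevG2 Cfsg.Agent.Lib.Helper7.ChainG2.hm (CoxeterMatrix.G₂) omG2).trans cwG2

theorem ocB2 : ∀ i j : Fin 2, ordCheck chevB2 wtB2 i j ((CoxeterMatrix.B 2) i j) = true := by decide +kernel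

theorem omB2 : ∀ i j : Fin chevB2.rank,
    orderOf (fS chevB2 Cfsg.Agent.Lib.Helper7.ChainB2.hm i * fS chevB2 Cfsg.Agent.Lib.Helper7.ChainB2.hm j) = (CoxeterMatrix.B 2) i j :=
  fun i j => ord_of_check chevB2 Cfsg.Agent.Lib.Helper7.ChainB2.hm wtB2 woB2 i j _ (ocB2 i j)

theorem cwB2 : Nat.card (Wg chevB2 Cfsg.Agent.Lib.Helper7.ChainB2.hm) = 8 := by
  haveI : Fintype ↥(Wg chevB2 Cfsg.Agent.Lib.Helper7.ChainB2.hm) := Fintype.ofFinite _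
  have h := poincare chevB2 Cfsg.Agent.Lib.Helper7.ChainB2.hm wtB2 caB2 coB2 Cfsg.Agent.Lib.Helper7.ChainB2.labs woB2 (pack_of_check _ _ _ pkB2)
    (lab_of_check _ _ _ woB2 Cfsg.Agent.Lib.Helper7.ChainB2.lb) Cfsg.Agent.Lib.Helper7.ChainB2.steps Cfsg.Agent.Lib.Helper7.ChainB2.ch 1
  rw [Cfsg.Agent.Lib.Helper7.ChainB2.chainPoly_eq 1] at h
  simp only [one_pow, Finset.sum_const, Finset.card_univ, smul_eq_mul, mul_one] at h
  rw [Nat.card_eq_fintype_card, h]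
  decide +kernel

theorem ccB2 : Nat.card (CoxeterMatrix.B 2).Group = 8 :=
  (card_cox chevB2 Cfsg.Agent.Lib.Helper7.ChainB2.hm (CoxeterMatrix.B 2) omB2).trans cwB2

theorem ocD4 : ∀ i j : Fin 4, ordCheck chevD4 wtD4 i j ((Cfsg.Lie.coxeterD4) i j) = true := by decide +kernel

theorem omD4 : ∀ i j : Fin chevD4.rank,
    orderOf (fS chevD4 Cfsg.Agent.Lib.Helper7.ChainD4.hm i * fS chevD4 Cfsg.Agent.Lib.Helper7.ChainD4.hm j) = (Cfsg.Lie.coxeterD4) i j :=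
  fun i j => ord_of_check chevD4 Cfsg.Agent.Lib.Helper7.ChainD4.hm wtD4 woD4 i j _ (ocD4 i j)

theorem cwD4 : Nat.card (Wg chevD4 Cfsg.Agent.Lib.Helper7.ChainD4.hm) = 192 := by
  haveI : Fintype ↥(Wg chevD4 Cfsg.Agent.Lib.Helper7.ChainD4.hm) := Fintype.ofFinite _
  have h := poincare chevD4 Cfsg.Agent.Lib.Helper7.ChainD4.hm wtD4 caD4 coD4 Cfsg.Agent.Lib.Helper7.ChainD4.labs woD4 (pack_of_check _ _ _ pkD4)
    (lab_of_check _ _ _ woD4 Cfsg.Agent.Lib.Helper7.ChainD4.lb) Cfsg.Agent.Lib.Helper7.ChainD4.steps Cfsg.Agent.Lib.Helper7.ChainD4.ch 1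
  rw [Cfsg.Agent.Lib.Helper7.ChainD4.chainPoly_eq 1] at h
  simp only [one_pow, Finset.sum_const, Finset.card_univ, smul_eq_mul, mul_one] at h
  rw [Nat.card_eq_fintype_card, h]
  decide +kernel

theorem ccD4 : Nat.card (Cfsg.Lie.coxeterD4).Group = 192 :=
  (card_cox chevD4 Cfsg.Agent.Lib.Helper7.ChainD4.hm (Cfsg.Lie.coxeterD4) omD4).trans cwD4

theorem ocF4 : ∀ i j : Fin 4, ordCheck chevF4 wtF4 i j ((CoxeterMatrix.F₄) i j) = true := by decide +kernel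

theorem omF4 : ∀ i j : Fin chevF4.rank,
    orderOf (fS chevF4 Cfsg.Agent.Lib.Helper7.ChainF4.hm i * fS chevF4 Cfsg.Agent.Lib.Helper7.ChainF4.hm j) = (CoxeterMatrix.F₄) i j :=
  fun i j => ord_of_check chevF4 Cfsg.Agent.Lib.Helper7.ChainF4.hm wtF4 woF4 i j _ (ocF4 i j)

theorem cwF4 : Nat.card (Wg chevF4 Cfsg.Agent.Lib.Helper7.ChainF4.hm) = 1152 := by
  haveI : Fintype ↥(Wg chevF4 Cfsg.Agent.Lib.Helper7.ChainF4.hm) := Fintype.ofFinite _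
  have h := poincare chevF4 Cfsg.Agent.Lib.Helper7.ChainF4.hm wtF4 caF4 coF4 Cfsg.Agent.Lib.Helper7.ChainF4.labs woF4 (pack_of_check _ _ _ pkF4)
    (lab_of_check _ _ _ woF4 Cfsg.Agent.Lib.Helper7.ChainF4.lb) Cfsg.Agent.Lib.Helper7.ChainF4.steps Cfsg.Agent.Lib.Helper7.ChainF4.ch 1
  rw [Cfsg.Agent.Lib.Helper7.ChainF4.chainPoly_eq 1] at h
  simp only [one_pow, Finset.sum_const, Finset.card_univ, smul_eq_mul, mul_one] at h
  rw [Nat.card_eq_fintype_card, h]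
  decide +kernel

theorem ccF4 : Nat.card (CoxeterMatrix.F₄).Group = 1152 :=
  (card_cox chevF4 Cfsg.Agent.Lib.Helper7.ChainF4.hm (CoxeterMatrix.F₄) omF4).trans cwF4

theorem ocE6 : ∀ i j : Fin 6, ordCheck chevE6 wtE6 i j ((CoxeterMatrix.E₆) i j) = true := by decide +kernel

theorem omE6 : ∀ i j : Fin chevE6.rank,
    orderOf (fS chevE6 Cfsg.Agent.Lib.Helper7.ChainE6.hm i * fS chevE6 Cfsg.Agent.Lib.Helper7.ChainE6.hm j) = (CoxeterMatrix.E₆) i j :=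
  fun i j => ord_of_check chevE6 Cfsg.Agent.Lib.Helper7.ChainE6.hm wtE6 woE6 i j _ (ocE6 i j)

theorem cwE6 : Nat.card (Wg chevE6 Cfsg.Agent.Lib.Helper7.ChainE6.hm) = 51840 := by
  haveI : Fintype ↥(Wg chevE6 Cfsg.Agent.Lib.Helper7.ChainE6.hm) := Fintype.ofFinite _
  have h := poincare chevE6 Cfsg.Agent.Lib.Helper7.ChainE6.hm wtE6 caE6 coE6 Cfsg.Agent.Lib.Helper7.ChainE6.labs woE6 (pack_of_check _ _ _ pkE6)
    (lab_of_check _ _ _ woE6 Cfsg.Agent.Lib.Helper7.ChainE6.lb) Cfsg.Agent.Lib.Helper7.ChainE6.steps Cfsg.Agent.Lib.Helper7.ChainE6.ch 1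
  rw [Cfsg.Agent.Lib.Helper7.ChainE6.chainPoly_eq 1] at h
  simp only [one_pow, Finset.sum_const, Finset.card_univ, smul_eq_mul, mul_one] at h
  rw [Nat.card_eq_fintype_card, h]
  decide +kernel

theorem ccE6 : Nat.card (CoxeterMatrix.E₆).Group = 51840 :=
  (card_cox chevE6 Cfsg.Agent.Lib.Helper7.ChainE6.hm (CoxeterMatrix.E₆) omE6).trans cwE6

theorem ocE7 : ∀ i j : Fin 7, ordCheck chevE7 wtE7 i j ((CoxeterMatrix.E₇) i j) = true := by decide +kernel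

theorem omE7 : ∀ i j : Fin chevE7.rank,
    orderOf (fS chevE7 Cfsg.Agent.Lib.Helper7.ChainE7.hm i * fS chevE7 Cfsg.Agent.Lib.Helper7.ChainE7.hm j) = (CoxeterMatrix.E₇) i j :=
  fun i j => ord_of_check chevE7 Cfsg.Agent.Lib.Helper7.ChainE7.hm wtE7 woE7 i j _ (ocE7 i j)

theorem cwE7 : Nat.card (Wg chevE7 Cfsg.Agent.Lib.Helper7.ChainE7.hm) = 2903040 := by
  haveI : Fintype ↥(Wg chevE7 Cfsg.Agent.Lib.Helper7.ChainE7.hm) := Fintype.ofFinite _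
  have h := poincare chevE7 Cfsg.Agent.Lib.Helper7.ChainE7.hm wtE7 caE7 coE7 Cfsg.Agent.Lib.Helper7.ChainE7.labs woE7 (pack_of_check _ _ _ pkE7)
    (lab_of_check _ _ _ woE7 Cfsg.Agent.Lib.Helper7.ChainE7.lb) Cfsg.Agent.Lib.Helper7.ChainE7.steps Cfsg.Agent.Lib.Helper7.ChainE7.ch 1
  rw [Cfsg.Agent.Lib.Helper7.ChainE7.chainPoly_eq 1] at h
  simp only [one_pow, Finset.sum_const, Finset.card_univ, smul_eq_mul, mul_one] at h
  rw [Nat.card_eq_fintype_card, h]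
  decide +kernel

theorem ccE7 : Nat.card (CoxeterMatrix.E₇).Group = 2903040 :=
  (card_cox chevE7 Cfsg.Agent.Lib.Helper7.ChainE7.hm (CoxeterMatrix.E₇) omE7).trans cwE7

theorem ocE8 : ∀ i j : Fin 8, ordCheck chevE8 wtE8 i j ((CoxeterMatrix.E₈) i j) = true := by decide +kernel

theorem omE8 : ∀ i j : Fin chevE8.rank,
    orderOf (fS chevE8 Cfsg.Agent.Lib.Helper7.ChainE8.hm i * fS chevE8 Cfsg.Agent.Lib.Helper7.ChainE8.hm j) = (CoxeterMatrix.E₈) i j :=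
  fun i j => ord_of_check chevE8 Cfsg.Agent.Lib.Helper7.ChainE8.hm wtE8 woE8 i j _ (ocE8 i j)

theorem cwE8 : Nat.card (Wg chevE8 Cfsg.Agent.Lib.Helper7.ChainE8.hm) = 696729600 := by
  haveI : Fintype ↥(Wg chevE8 Cfsg.Agent.Lib.Helper7.ChainE8.hm) := Fintype.ofFinite _
  have h := poincare chevE8 Cfsg.Agent.Lib.Helper7.ChainE8.hm wtE8 caE8 coE8 Cfsg.Agent.Lib.Helper7.ChainE8.labs woE8 (pack_of_check _ _ _ pkE8)
    (lab_of_check _ _ _ woE8 Cfsg.Agent.Lib.Helper7.ChainE8.lb) Cfsg.Agent.Lib.Helper7.ChainE8.steps Cfsg.Agent.Lib.Helper7.ChainE8.ch 1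
  rw [Cfsg.Agent.Lib.Helper7.ChainE8.chainPoly_eq 1] at h
  simp only [one_pow, Finset.sum_const, Finset.card_univ, smul_eq_mul, mul_one] at h
  rw [Nat.card_eq_fintype_card, h]
  decide +kernel

theorem ccE8 : Nat.card (CoxeterMatrix.E₈).Group = 696729600 :=
  (card_cox chevE8 Cfsg.Agent.Lib.Helper7.ChainE8.hm (CoxeterMatrix.E₈) omE8).trans cwE8

end Cfsg.Agent.Lib.Helper7.CoxAll
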