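import Mathlib

set_option autoImplicit false
set_option maxHeartbeats 400000

namespace Cfsg.Agent.Lib.Helper7.CoxExch

section
variable {W : Type*} [Group W] {B : Type*}

def pr (σ : B → W) (ω : List B) : W := (ω.map σ).prod

theorem pr_nil (σ : B → W) : pr σ [] = 1 := by simp [pr]

theorem pr_cons (σ : B → W) (i : B) (ω : List B) : pr σ (i :: ω) = σ i * pr σ ω := by simp [pr]

theorem pr_append (σ : B → W) (ω ω' : List B) : pr σ (ω ++ ω') = pr σ ω * pr σ ω' := by simp [pr]

theorem pr_singleton (σ : B → W) (i : B) : pr σ [i] = σ i := by simp [pr]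

theorem pr_concat (σ : B → W) (ω : List B) (i : B) : pr σ (ω.concat i) = pr σ ω * σ i := by
  simp [pr]

structure Exch (σ : B → W) (ℓ : W → ℕ) : Prop where
  sq : ∀ i, σ i * σ i = 1
  le : ∀ ω : List B, ℓ (pr σ ω) ≤ ω.length
  spec : ∀ w : W, ∃ ω : List B, pr σ ω = w ∧ ω.length = ℓ w
  ne : ∀ (w : W) (i : B), ℓ (w * σ i) ≠ ℓ w
  exch : ∀ (ω : List B) (i : B), ℓ (pr σ ω * σ i) < ℓ (pr σ ω) →
    ∃ ω₁ j ω₂, ω = ω₁ ++ j :: ω₂ ∧ pr σ ω₂ * σ i = σ j * pr σ ω₂

variable {σ : B → W} {ℓ : W → ℕ}

theorem len_mul_le (h : Exch σ ℓ) (a b : W) : ℓ (a * b) ≤ ℓ a + ℓ b := by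
  obtain ⟨α, rfl, ha⟩ := h.spec a
  obtain ⟨β, rfl, hb⟩ := h.spec b
  have := h.le (α ++ β)
  rw [pr_append, List.length_append] at this
  omega

theorem len_one (h : Exch σ ℓ) : ℓ 1 = 0 := by
  have := h.le []
  rw [pr_nil] at this
  simpa using this

theorem len_gen_le (h : Exch σ ℓ) (i : B) : ℓ (σ i) ≤ 1 := by
  have := h.le [i]
  rw [pr_singleton] at this
  simpa using this

theorem len_mul_gen (h : Exch σ ℓ) (w : W) (i : B) : ℓ (w * σ i) ≤ ℓ w + 1 := by
  have h1 := len_mul_le h w (σ i)
  have h2 := len_gen_le h i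
  omega

theorem len_le_mul_gen (h : Exch σ ℓ) (w : W) (i : B) : ℓ w ≤ ℓ (w * σ i) + 1 := by
  have h1 := len_mul_gen h (w * σ i) i
  rwa [mul_assoc, h.sq, mul_one] at h1

theorem inv_gen (h : Exch σ ℓ) (i : B) : (σ i)⁻¹ = σ i := inv_eq_of_mul_eq_one_left (h.sq i)

theorem swap_inv (h : Exch σ ℓ) (i j : B) : σ j * σ i = (σ i * σ j)⁻¹ := by
  rw [mul_inv_rev, inv_gen h, inv_gen h]

open CoxeterSystem in
theorem alt_pr (h : Exch σ ℓ) (i j : B) (m : ℕ) :
    pr σ (alternatingWord i j m) = (if Even m then 1 else σ j) * (σ i * σ j) ^ (m / 2) := by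
  induction m with
  | zero => simp [alternatingWord, pr]
  | succ m ih =>
    rw [alternatingWord_succ', pr_cons, ih]
    by_cases hm : Even m
    · have h₁ : ¬ Even (m + 1) := by simp [hm, parity_simps]
      have h₂ : (m + 1) / 2 = m / 2 := Nat.succ_div_of_not_dvd <| by rwa [← even_iff_two_dvd]
      simp [hm, h₁, h₂]
    · have h₁ : Even (m + 1) := by simp [hm, parity_simps]
      have h₂ : (m + 1) / 2 = m / 2 + 1 := Nat.succ_div_of_dvd h₁.two_dvd
      simp [hm, h₁, h₂, ← pow_succ', ← mul_assoc]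

open CoxeterSystem in
theorem alt_eq_iff (h : Exch σ ℓ) (i j : B) (n : ℕ) :
    pr σ (alternatingWord i j n) = pr σ (alternatingWord j i n) ↔ (σ i * σ j) ^ n = 1 := by
  rw [alt_pr h, alt_pr h, swap_inv h i j]
  rcases Nat.even_or_odd' n with ⟨k, rfl | rfl⟩
  · have e1 : Even (2 * k) := even_two_mul k
    have e2 : 2 * k / 2 = k := Nat.mul_div_cancel_left k (by norm_num)
    rw [if_pos e1, if_pos e1, e2, one_mul, one_mul, inv_pow, eq_inv_iff_mul_eq_one, ← pow_add, two_mul]
  · have e1 : ¬ Even (2 * k + 1) := by simp [parity_simps]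
    have e2 : (2 * k + 1) / 2 = k := by omega
    rw [if_neg e1, if_neg e1, e2, inv_pow]
    have e3 : (σ i * σ j) ^ (2 * k + 1) = σ i * (σ j * (σ i * σ j) ^ k) * (σ i * σ j) ^ k := by
      rw [two_mul, pow_succ, pow_add]
      have : (σ i * σ j) ^ k * (σ i * σ j) = (σ i * σ j) * (σ i * σ j) ^ k := (pow_succ _ _).symm.trans (pow_succ' _ _)
      rw [mul_assoc ((σ i * σ j) ^ k), this]
      group
    rw [e3]
    constructor
    · intro e
      rw [e, ← mul_assoc, h.sq, one_mul, inv_mul_cancel]
    · intro e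
      have e4 : σ i * (σ j * (σ i * σ j) ^ k) = ((σ i * σ j) ^ k)⁻¹ := eq_inv_of_mul_eq_one_left e
      rw [← e4, ← mul_assoc, h.sq, one_mul]

open CoxeterSystem in
theorem suffix_alt (i j : B) (k : ℕ) : ∀ (a : List B) (y : B) (ω₂ : List B),
    alternatingWord i j k = a ++ y :: ω₂ →
    ∃ n, n < k ∧ ω₂ = alternatingWord i j n ∧ y :: ω₂ = alternatingWord i j (n + 1) := by
  induction k with
  | zero =>
    intro a y ω₂ e
    simp [alternatingWord] at e
  | succ k ih =>
    intro a y ω₂ e
    rw [alternatingWord_succ'] at e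
    cases a with
    | nil =>
      rw [List.nil_append] at e
      obtain ⟨e1, e2⟩ := List.cons.inj e
      refine ⟨k, Nat.lt_succ_self k, e2.symm, ?_⟩
      rw [alternatingWord_succ', ← e1, ← e2]
    | cons z a' =>
      rw [List.cons_append] at e
      obtain ⟨-, e2⟩ := List.cons.inj e
      obtain ⟨n, hn, h1, h2⟩ := ih a' y ω₂ e2
      exact ⟨n, Nat.lt_succ_of_lt hn, h1, h2⟩

open CoxeterSystem in
theorem dih_step (h : Exch σ ℓ) (w : W) : ∀ (k : ℕ) (i j : B), ℓ (w * σ i) < ℓ w → ℓ (w * σ j) < ℓ w →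
    (∀ n, 0 < n → n < k → (σ i * σ j) ^ n ≠ 1) →
    ∃ v, w = v * pr σ (alternatingWord i j k) ∧ ℓ w = ℓ v + k := by
  intro k
  induction k with
  | zero =>
    intro i j _ _ _
    exact ⟨w, by simp [alternatingWord, pr], rfl⟩
  | succ k ih =>
    intro i j hi hj hk
    have hk' : ∀ n, 0 < n → n < k → (σ j * σ i) ^ n ≠ 1 := by
      intro n hn0 hnk e
      apply hk n hn0 (Nat.lt_succ_of_lt hnk)
      rw [swap_inv h i j, inv_pow, inv_eq_one] at e
      exact e
    obtain ⟨v, hv, hlen⟩ := ih j i hj hi hk'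
    obtain ⟨ν, hν, hνlen⟩ := h.spec v
    have hw : pr σ (ν ++ alternatingWord j i k) = w := by rw [pr_append, hν, ← hv]
    have hdesc : ℓ (pr σ (ν ++ alternatingWord j i k) * σ j) < ℓ (pr σ (ν ++ alternatingWord j i k)) := by
      rw [hw]
      exact hj
    obtain ⟨ω₁, y, ω₂, hsplit, hrel⟩ := h.exch _ j hdesc
    rcases List.append_eq_append_iff.mp hsplit with ⟨a', ha1, ha2⟩ | ⟨c', hc1, hc2⟩
    · exfalso
      obtain ⟨n, hn, h1, h2⟩ := suffix_alt j i k a' y ω₂ ha2
      have e1 : pr σ (alternatingWord i j (n + 1)) = pr σ (alternatingWord j i (n + 1)) := by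
        rw [alternatingWord_succ i j n, pr_concat, ← h1, hrel, ← pr_cons, h2]
      exact hk (n + 1) (Nat.succ_pos n) (Nat.succ_lt_succ hn) ((alt_eq_iff h i j (n + 1)).mp e1)
    · cases c' with
      | nil =>
        exfalso
        rw [List.nil_append] at hc2
        obtain ⟨n, hn, h1, h2⟩ := suffix_alt j i k [] y ω₂ (by rw [List.nil_append]; exact hc2.symm)
        have e1 : pr σ (alternatingWord i j (n + 1)) = pr σ (alternatingWord j i (n + 1)) := by
          rw [alternatingWord_succ i j n, pr_concat, ← h1, hrel, ← pr_cons, h2]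
        exact hk (n + 1) (Nat.succ_pos n) (Nat.succ_lt_succ hn) ((alt_eq_iff h i j (n + 1)).mp e1)
      | cons z c'' =>
        rw [List.cons_append] at hc2
        obtain ⟨e1, e2⟩ := List.cons.inj hc2
        subst e1
        refine ⟨pr σ (ω₁ ++ c''), ?_, ?_⟩
        · rw [alternatingWord_succ i j k, pr_concat, ← hw, hsplit, pr_append, pr_cons, ← hrel, e2,
            pr_append, pr_append]
          group
        · have h1 := h.le (ω₁ ++ c'')
          have h2 : ν.length = ω₁.length + c''.length + 1 := by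
            rw [hc1]
            simp only [List.length_append, List.length_cons]
            omega
          rw [List.length_append] at h1
          have h3 : w = pr σ (ω₁ ++ c'') * pr σ (alternatingWord i j (k + 1)) := by
            rw [alternatingWord_succ i j k, pr_concat, ← hw, hsplit, pr_append, pr_cons, ← hrel, e2,
              pr_append, pr_append]
            group
          have h4 := len_mul_le h (pr σ (ω₁ ++ c'')) (pr σ (alternatingWord i j (k + 1)))
          rw [← h3] at h4
          have h5 := h.le (alternatingWord i j (k + 1))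
          rw [length_alternatingWord] at h5
          omega

open CoxeterSystem in
theorem dih (h : Exch σ ℓ) (w : W) (i j : B) (hi : ℓ (w * σ i) < ℓ w) (hj : ℓ (w * σ j) < ℓ w) :
    0 < orderOf (σ i * σ j) ∧
    ∃ v, w = v * pr σ (alternatingWord i j (orderOf (σ i * σ j))) ∧
      w = v * pr σ (alternatingWord j i (orderOf (σ i * σ j))) ∧
      ℓ w = ℓ v + orderOf (σ i * σ j) := by
  have hpos : 0 < orderOf (σ i * σ j) := by
    by_contra h0
    have h0' : orderOf (σ i * σ j) = 0 := by omega
    rw [orderOf_eq_zero_iff'] at h0'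
    obtain ⟨v, -, hlen⟩ := dih_step h w (ℓ w + 1) i j hi hj (fun n hn _ => h0' n hn)
    omega
  refine ⟨hpos, ?_⟩
  obtain ⟨v, hv, hlen⟩ := dih_step h w (orderOf (σ i * σ j)) i j hi hj
    (fun n hn hlt => pow_ne_one_of_lt_orderOf (by omega) hlt)
  refine ⟨v, hv, ?_, hlen⟩
  rw [hv, (alt_eq_iff h i j _).mpr (pow_orderOf_eq_one _)]

def Red (σ : B → W) (ℓ : W → ℕ) (ω : List B) : Prop := ℓ (pr σ ω) = ω.length

theorem red_prefix (h : Exch σ ℓ) (ω : List B) (i : B) (hr : Red σ ℓ (ω ++ [i])) : Red σ ℓ ω := by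
  unfold Red at hr ⊢
  rw [pr_append, pr_singleton, List.length_append, List.length_singleton] at hr
  have h1 := len_mul_gen h (pr σ ω) i
  have h2 := h.le ω
  omega

theorem red_of_eq (h : Exch σ ℓ) (ω ω' : List B) (hr : Red σ ℓ ω) (e : pr σ ω' = pr σ ω)
    (hlen : ω'.length = ω.length) : Red σ ℓ ω' := by
  unfold Red at hr ⊢
  rw [e, hr, hlen]

end

section mats
variable {W : Type*} [Group W] {B : Type*} {σ : B → W} {ℓ : W → ℕ} {X : Type*} [Monoid X]

open CoxeterSystem in
theorem matsumoto (h : Exch σ ℓ) (f : B → X)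
    (hf : ∀ i j, ((alternatingWord i j (orderOf (σ i * σ j))).map f).prod =
      ((alternatingWord j i (orderOf (σ i * σ j))).map f).prod) :
    ∀ (q : ℕ) (ω ω' : List B), ω.length = q → Red σ ℓ ω → Red σ ℓ ω' → pr σ ω = pr σ ω' →
      (ω.map f).prod = (ω'.map f).prod := by
  intro q
  induction q using Nat.strong_induction_on with
  | _ q ih =>
    intro ω ω' hq hr hr' e
    have hq' : ω'.length = q := by
      unfold Red at hr hr'
      rw [← hr', ← e, hr, hq]
    rcases List.eq_nil_or_concat ω with rfl | ⟨ρ, i, rfl⟩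
    · have : ω' = [] := by
        rw [← List.length_eq_zero_iff, hq', ← hq]
        rfl
      rw [this]
    rcases List.eq_nil_or_concat ω' with rfl | ⟨ρ', j, rfl⟩
    · exfalso
      rw [List.length_nil] at hq'
      rw [← hq'] at hq
      simp at hq
    simp only [List.concat_eq_append] at hq hr e hq' hr' ⊢
    have hρ := red_prefix h ρ i hr
    have hρ' := red_prefix h ρ' j hr'
    have hρlen : ρ.length + 1 = q := by simpa using hq
    have hρ'len : ρ'.length + 1 = q := by simpa using hq'
    have hw : pr σ (ρ ++ [i]) = pr σ ρ * σ i := by rw [pr_append, pr_singleton]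
    have hw' : pr σ (ρ' ++ [j]) = pr σ ρ' * σ j := by rw [pr_append, pr_singleton]
    have hlw : ℓ (pr σ (ρ ++ [i])) = q := by
      unfold Red at hr
      rw [hr, hq]
    have hi : ℓ (pr σ (ρ ++ [i]) * σ i) < ℓ (pr σ (ρ ++ [i])) := by
      rw [hlw, hw, mul_assoc, h.sq, mul_one]
      unfold Red at hρ
      omega
    have hj : ℓ (pr σ (ρ ++ [i]) * σ j) < ℓ (pr σ (ρ ++ [i])) := by
      rw [hlw, e, hw', mul_assoc, h.sq, mul_one]
      unfold Red at hρ'
      omega
    obtain ⟨hpos, v, hv1, hv2, hlen⟩ := dih h (pr σ (ρ ++ [i])) i j hi hj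
    obtain ⟨ν, hν, hνlen⟩ := h.spec v
    obtain ⟨m, hm⟩ : ∃ m, orderOf (σ i * σ j) = m + 1 := ⟨orderOf (σ i * σ j) - 1, by omega⟩
    rw [hm] at hv1 hv2 hlen
    have key1 : (ρ'.map f).prod = ((ν ++ alternatingWord j i m).map f).prod := by
      apply ih (q - 1) (by omega) ρ' (ν ++ alternatingWord j i m) (by omega) hρ'
      · have e1 : pr σ (ν ++ alternatingWord j i m) = pr σ ρ' := by
          have : pr σ (ν ++ alternatingWord j i m) * σ j = pr σ ρ' * σ j := by
            rw [← hw', ← e, hv1, alternatingWord_succ i j m, pr_concat, pr_append, hν, mul_assoc]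
          exact mul_right_cancel this
        apply red_of_eq h ρ' _ hρ' e1
        rw [List.length_append, length_alternatingWord]
        omega
      · have : pr σ ρ' * σ j = pr σ (ν ++ alternatingWord j i m) * σ j := by
          rw [← hw', ← e, hv1, alternatingWord_succ i j m, pr_concat, pr_append, hν, mul_assoc]
        exact mul_right_cancel this
    have key2 : (ρ.map f).prod = ((ν ++ alternatingWord i j m).map f).prod := by
      apply ih (q - 1) (by omega) ρ (ν ++ alternatingWord i j m) (by omega) hρ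
      · have e1 : pr σ (ν ++ alternatingWord i j m) = pr σ ρ := by
          have : pr σ (ν ++ alternatingWord i j m) * σ i = pr σ ρ * σ i := by
            rw [← hw, hv2, alternatingWord_succ j i m, pr_concat, pr_append, hν, mul_assoc]
          exact mul_right_cancel this
        apply red_of_eq h ρ _ hρ e1
        rw [List.length_append, length_alternatingWord]
        omega
      · have : pr σ ρ * σ i = pr σ (ν ++ alternatingWord i j m) * σ i := by
          rw [← hw, hv2, alternatingWord_succ j i m, pr_concat, pr_append, hν, mul_assoc]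
        exact mul_right_cancel this
    have hbraid := hf i j
    rw [hm, alternatingWord_succ i j m, alternatingWord_succ j i m] at hbraid
    simp only [List.concat_eq_append, List.map_append, List.prod_append, List.map_cons, List.map_nil,
      List.prod_cons, List.prod_nil, mul_one] at hbraid key1 key2 ⊢
    rw [key1, key2, mul_assoc, mul_assoc, hbraid]

end mats

section fin
variable {W : Type*} [Group W] {B : Type*} {σ : B → W} {ℓ : W → ℕ}

theorem reduce (h : Exch σ ℓ) (M : CoxeterMatrix B) (hM : ∀ i j, M i j = orderOf (σ i * σ j)) :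
    ∀ ω : List B, ∃ ω' : List B, Red σ ℓ ω' ∧ pr σ ω' = pr σ ω ∧
      M.toCoxeterSystem.wordProd ω' = M.toCoxeterSystem.wordProd ω := by
  have hf : ∀ i j, ((CoxeterSystem.alternatingWord i j (orderOf (σ i * σ j))).map M.toCoxeterSystem.simple).prod =
      ((CoxeterSystem.alternatingWord j i (orderOf (σ i * σ j))).map M.toCoxeterSystem.simple).prod := by
    intro i j
    have h1 := M.toCoxeterSystem.wordProd_braidWord_eq i j
    unfold CoxeterSystem.braidWord at h1
    rw [M.symmetric j i, hM i j] at h1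
    exact h1
  intro ω
  induction ω using List.reverseRecOn with
  | nil =>
    refine ⟨[], ?_, rfl, rfl⟩
    unfold Red
    rw [pr_nil, len_one h]
    rfl
  | append_singleton ρ i ih =>
    obtain ⟨ρ', hred, hpr, hwp⟩ := ih
    by_cases hr : Red σ ℓ (ρ' ++ [i])
    · refine ⟨ρ' ++ [i], hr, ?_, ?_⟩
      · rw [pr_append, pr_append, hpr]
      · rw [CoxeterSystem.wordProd_append, CoxeterSystem.wordProd_append, hwp]
    · have hlt : ℓ (pr σ ρ' * σ i) < ℓ (pr σ ρ') := by
        unfold Red at hr hred
        rw [pr_append, pr_singleton, List.length_append, List.length_singleton] at hr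
        have h1 := len_mul_gen h (pr σ ρ') i
        have h2 := h.ne (pr σ ρ') i
        omega
      obtain ⟨ω₁, y, ω₂, hsplit, hrel⟩ := h.exch ρ' i hlt
      have hred2 : Red σ ℓ (y :: ω₂) := by
        unfold Red at hred ⊢
        rw [hsplit, pr_append, List.length_append] at hred
        have h1 := len_mul_le h (pr σ ω₁) (pr σ (y :: ω₂))
        have h2 := h.le ω₁
        have h3 := h.le (y :: ω₂)
        omega
      have hred3 : Red σ ℓ (ω₂ ++ [i]) := by
        apply red_of_eq h (y :: ω₂) _ hred2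
        · rw [pr_append, pr_singleton, pr_cons, hrel]
        · simp
      have hmat := matsumoto h M.toCoxeterSystem.simple hf (ω₂ ++ [i]).length (ω₂ ++ [i]) (y :: ω₂) rfl
        hred3 hred2 (by rw [pr_append, pr_singleton, pr_cons, hrel])
      have hmat' : M.toCoxeterSystem.wordProd (ω₂ ++ [i]) = M.toCoxeterSystem.wordProd (y :: ω₂) := hmat
      have e1 : pr σ (ω₁ ++ ω₂) = pr σ (ρ ++ [i]) := by
        rw [pr_append σ ρ, pr_singleton, ← hpr, hsplit, pr_append, pr_append, pr_cons, mul_assoc, mul_assoc,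
          hrel, ← mul_assoc (σ y), h.sq, one_mul]
      refine ⟨ω₁ ++ ω₂, ?_, e1, ?_⟩
      · unfold Red
        rw [e1, pr_append, pr_singleton, ← hpr]
        unfold Red at hred
        have h1 := len_le_mul_gen h (pr σ ρ') i
        have h2 := h.le (ω₁ ++ ω₂)
        rw [e1, pr_append, pr_singleton, ← hpr] at h2
        have h3 : ρ'.length = (ω₁ ++ ω₂).length + 1 := by
          rw [hsplit]
          simp only [List.length_append, List.length_cons]
          omega
        omega
      · have e2 : M.toCoxeterSystem.wordProd ω₂ * M.toCoxeterSystem.simple i =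
            M.toCoxeterSystem.simple y * M.toCoxeterSystem.wordProd ω₂ := by
          rw [← M.toCoxeterSystem.wordProd_singleton i, ← M.toCoxeterSystem.wordProd_append, hmat',
            M.toCoxeterSystem.wordProd_cons]
        rw [M.toCoxeterSystem.wordProd_append ρ, ← hwp, hsplit, M.toCoxeterSystem.wordProd_append,
          M.toCoxeterSystem.wordProd_append, M.toCoxeterSystem.wordProd_cons,
          M.toCoxeterSystem.wordProd_singleton, mul_assoc, mul_assoc, e2,
          ← mul_assoc (M.toCoxeterSystem.simple y), M.toCoxeterSystem.simple_mul_simple_self, one_mul]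

theorem coxeter_of_exch (h : Exch σ ℓ) (M : CoxeterMatrix B) (hM : ∀ i j, M i j = orderOf (σ i * σ j)) :
    ∃ cs : CoxeterSystem M W, ∀ i, cs.simple i = σ i := by
  have hlift : M.IsLiftable σ := by
    intro i j
    rw [hM]
    exact pow_orderOf_eq_one _
  let φ : M.Group →* W := M.toCoxeterSystem.lift ⟨σ, hlift⟩
  have hφs : ∀ i, φ (M.toCoxeterSystem.simple i) = σ i := fun i => M.toCoxeterSystem.lift_apply_simple hlift i
  have hφw : ∀ ω : List B, φ (M.toCoxeterSystem.wordProd ω) = pr σ ω := by
    intro ω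
    induction ω with
    | nil => simp [pr]
    | cons i ω ih => rw [CoxeterSystem.wordProd_cons, map_mul, hφs, ih, pr_cons]
  have hsurj : Function.Surjective φ := by
    intro w
    obtain ⟨ω, rfl, -⟩ := h.spec w
    exact ⟨M.toCoxeterSystem.wordProd ω, hφw ω⟩
  have hinj : Function.Injective φ := by
    rw [injective_iff_map_eq_one]
    intro x hx
    obtain ⟨ω, rfl⟩ := M.toCoxeterSystem.wordProd_surjective x
    rw [hφw] at hx
    obtain ⟨ω', hred, hpr, hwp⟩ := reduce h M hM ω
    unfold Red at hred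
    rw [hpr, hx, len_one h] at hred
    have : ω' = [] := List.length_eq_zero_iff.mp hred.symm
    rw [← hwp, this, CoxeterSystem.wordProd_nil]
  refine ⟨⟨(MulEquiv.ofBijective φ ⟨hinj, hsurj⟩).symm⟩, ?_⟩
  intro i
  exact hφs i

end fin

end Cfsg.Agent.Lib.Helper7.CoxExch
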