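import Cfsg.Agent.Lib.Helper2.BN
import Cfsg.Agent.Lib.Helper7.CoxExch

set_option autoImplicit false
set_option maxHeartbeats 400000

namespace Cfsg.Agent.Lib.Helper7.CoxBN

open Cfsg Cfsg.Agent.Lib.Helper2.BN Cfsg.Agent.Lib.Helper2.WordLen Cfsg.Agent.Lib.Helper7.CoxExch

variable {G : Type*} [Group G] (P : Cfsg.BNPair G)

theorem exists_map (l : List (W P)) (hl : ∀ x ∈ l, x ∈ R P) : ∃ ω : List P.S, ω.map (σ P) = l := by
  induction l with
  | nil => exact ⟨[], rfl⟩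
  | cons a l ih =>
    obtain ⟨s, rfl⟩ := hl a (by simp)
    obtain ⟨ω, rfl⟩ := ih (fun x hx => hl x (by simp [hx]))
    exact ⟨s :: ω, rfl⟩

theorem map_mem (ω : List P.S) : ∀ x ∈ ω.map (σ P), x ∈ R P := by
  intro x hx
  obtain ⟨s, -, rfl⟩ := List.mem_map.mp hx
  exact σ_mem P s

theorem ℓ_inv (w : W P) : ℓ P w⁻¹ = ℓ P w := len_inv (R_mul_self P) (R_gen P) w

theorem exch_BN : Exch (σ P) (ℓ P) where
  sq := σ_mul_self P
  le := fun ω => by
    have := ℓ_le P (ω.map (σ P)) (map_mem P ω)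
    rwa [List.length_map] at this
  spec := fun w => by
    obtain ⟨l, hl, hlen, hp⟩ := len_spec (R_mul_self P) (R_gen P) w
    obtain ⟨ω, rfl⟩ := exists_map P l hl
    refine ⟨ω, hp, ?_⟩
    rw [List.length_map] at hlen
    exact hlen
  ne := fun w i => by
    intro e
    apply ℓ_ne P i w⁻¹
    have e1 : σ P i * w⁻¹ = (w * σ P i)⁻¹ := by rw [mul_inv_rev, σ_inv]
    rw [e1, ℓ_inv, ℓ_inv, e]
  exch := fun ω i hlt => by
    have hinv : ∀ x ∈ ω.map (σ P), x * x = 1 := fun x hx => R_mul_self P x (map_mem P ω x hx)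
    have hl : ∀ x ∈ (ω.map (σ P)).reverse, x ∈ R P :=
      fun x hx => map_mem P ω x (List.mem_reverse.mp hx)
    have hprod : ((ω.map (σ P)).reverse).prod = (pr (σ P) ω)⁻¹ := prod_reverse_of_invol _ hinv
    have hnPA : ¬ PA P (σ P i) ((ω.map (σ P)).reverse).prod := by
      rw [not_PA_iff, hprod]
      have e1 : σ P i * (pr (σ P) ω)⁻¹ = (pr (σ P) ω * σ P i)⁻¹ := by rw [mul_inv_rev, σ_inv]
      rw [e1, ℓ_inv, ℓ_inv]
      exact hlt
    obtain ⟨l₁, t, l₂, hl₁, heq⟩ := exchange P i _ hl hnPA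
    have hrev : ω.map (σ P) = l₂.reverse ++ t :: l₁.reverse := by
      have := congrArg List.reverse hl₁
      rw [List.reverse_reverse] at this
      rw [this]
      simp
    obtain ⟨ω₁, ω₂', rfl, h1, h2⟩ := List.map_eq_append_iff.mp hrev
    obtain ⟨j, ω₂, rfl, h3, h4⟩ := List.map_eq_cons_iff.mp h2
    refine ⟨ω₁, j, ω₂, rfl, ?_⟩
    have hinv1 : ∀ x ∈ l₁, x * x = 1 := by
      intro x hx
      apply R_mul_self P x
      apply hl
      rw [hl₁]
      simp [hx]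
    have e2 : pr (σ P) ω₂ = (l₁.prod)⁻¹ := by
      unfold pr
      rw [h4]
      exact prod_reverse_of_invol l₁ hinv1
    rw [e2, h3]
    calc (l₁.prod)⁻¹ * σ P i = (l₁.prod)⁻¹ * (σ P i * l₁.prod) * (l₁.prod)⁻¹ := by group
      _ = (l₁.prod)⁻¹ * (l₁.prod * t) * (l₁.prod)⁻¹ := by rw [heq]
      _ = t * (l₁.prod)⁻¹ := by group

noncomputable def coxM : CoxeterMatrix P.S where
  M := fun s s' => orderOf (σ P s * σ P s')
  isSymm := by
    ext s s'
    show orderOf (σ P s' * σ P s) = orderOf (σ P s * σ P s')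
    have : σ P s' * σ P s = (σ P s * σ P s')⁻¹ := by rw [mul_inv_rev, σ_inv, σ_inv]
    rw [this, orderOf_inv]
  diagonal := fun s => by
    show orderOf (σ P s * σ P s) = 1
    rw [σ_mul_self, orderOf_one]
  off_diagonal := fun s s' hne h1 => by
    have h1' : orderOf (σ P s * σ P s') = 1 := h1
    rw [orderOf_eq_one_iff] at h1'
    have : σ P s = (σ P s')⁻¹ := eq_inv_of_mul_eq_one_left h1'
    rw [σ_inv] at this
    exact hne (σ_inj P s s' this)

theorem weyl_coxeter [hN : ((P.B ⊓ P.N).subgroupOf P.N).Normal] :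
    ∃ (M : CoxeterMatrix P.S) (cs : CoxeterSystem M (P.N ⧸ (P.B ⊓ P.N).subgroupOf P.N)),
      ∀ s : P.S, cs.simple s = QuotientGroup.mk (⟨(s : G), P.subset s.2⟩ : P.N) := by
  obtain ⟨cs, hcs⟩ := coxeter_of_exch (exch_BN P) (coxM P) (fun i j => rfl)
  have heq : T P = (P.B ⊓ P.N).subgroupOf P.N := (Subgroup.inf_subgroupOf_right P.B P.N).symm
  refine ⟨coxM P, cs.map (QuotientGroup.quotientMulEquivOfEq heq), ?_⟩
  intro s
  rw [CoxeterSystem.map_simple, hcs]
  exact QuotientGroup.quotientMulEquivOfEq_mk heq _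

end Cfsg.Agent.Lib.Helper7.CoxBN
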