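import Cfsg.Agent.Lib.Helper7.ChevCoxElt

set_option autoImplicit false
set_option maxRecDepth 1000000
set_option maxHeartbeats 4000000

namespace Cfsg.Agent.Lib.Helper7.CoxCenter
open Cfsg.Lie Cfsg.Agent.Lib.Helper7.ChevW0 Cfsg.Agent.Lib.Helper7.W0All Cfsg.Agent.Lib.Helper7.ChevWPerm
  Cfsg.Agent.Lib.Helper7.WPermAll Cfsg.Agent.Lib.Helper7.ChevWGrp Cfsg.Agent.Lib.Helper7.ChevChain
  Cfsg.Agent.Lib.Helper7.PoinAbs Cfsg.Agent.Lib.Helper7.ChevCox Cfsg.Agent.Lib.Helper7.CoxAll
  Cfsg.Agent.Lib.Helper7.TitsWord Cfsg.Agent.Lib.Helper7.ChevCoxElt Cfsg.Agent.Lib.Helper7.ChevBruhat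
  Cfsg.Agent.Lib.Helper7.ChevBN Cfsg.Agent.Lib.Helper7.ChevExch Cfsg.Agent.Lib.Helper7.HBaseAll
  Cfsg.Agent.Lib.Helper7.ChevHAll Cfsg.Agent.Lib.Helper7.ChevConjT Equiv

theorem eq_one_of_simple_pos (D : ChevalleyDatum)
    (hD : D ∈ [chevG2, chevB2, chevD4, chevF4, chevE6, chevE7, chevE8])
    (σ : Perm (Fin D.nroots)) (hσ : σ ∈ Wg D hD)
    (h : ∀ i (hi : i < D.rank), D.IsPosRoot (σ (simpF D hD i hi))) : σ = 1 := by
  obtain ⟨is, hgood, rfl⟩ := exists_good D hD σ hσ
  rcases List.eq_nil_or_concat is with rfl | ⟨L, i, rfl⟩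
  · exact permOf_nil D hD
  · exfalso
    rw [List.concat_eq_append] at hgood h
    obtain ⟨hi, -⟩ := goodW_last D L i hgood
    have hv := goodW_valid D _ hgood
    have hL : ∀ j ∈ L, j < D.rank := fun j hj => hv j (List.mem_append_left _ hj)
    have h1 := (Nv_mul_sPerm D hD (permOf D hD (L ++ [i])) (permOf_mem D hD _ hv) i hi).1 (h i hi)
    have h2 : permOf D hD (L ++ [i]) * sPerm D hD i = permOf D hD L := by
      rw [permOf_append, permOf_cons, permOf_nil, mul_one, mul_assoc, sPerm_sq D hD i hi, mul_one]
    rw [h2, Nv_good D hD _ hgood, List.length_append, List.length_singleton] at h1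
    have h3 := Nv_le_length D hD L hL
    omega

def adjB (D : ChevalleyDatum) (caP coP : List ℕ) (a b : ℕ) : Bool :=
  decide (a < D.rank) && decide (b < D.rank) && decide (cP D.rank caP coP (D.simple a) (D.simple b) ≠ 0)

def chainB (D : ChevalleyDatum) (caP coP : List ℕ) : List ℕ → Bool
  | [] => true
  | [_] => true
  | a :: b :: t => adjB D caP coP a b && chainB D caP coP (b :: t)

def centChk (D : ChevalleyDatum) (Wtab caP coP : List ℕ) (paths : List (List ℕ)) : Bool :=
  ((List.range D.rank).all fun i => (List.range D.nroots).all fun r =>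
      !decide (wdig (Wtab.getD i 0) r = D.neg r) || decide (r = D.simple i) ||
        decide (r = D.neg (D.simple i))) &&
  ((List.range D.rank).all fun a => (List.range D.rank).all fun b =>
      decide (D.neg (D.simple b) < D.nroots) &&
      decide (cP D.rank caP coP (D.simple a) (D.neg (D.simple b)) =
        - cP D.rank caP coP (D.simple a) (D.simple b))) &&
  ((List.range D.rank).all fun i => (paths.getD i []).head? == some i &&
      (paths.getD i []).getLast? == some 0 && chainB D caP coP (paths.getD i []))

theorem chain_const (D : ChevalleyDatum) (caP coP : List ℕ) (N : ℕ → Prop)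
    (hf : ∀ a b, adjB D caP coP a b = true → (N a ↔ N b)) :
    ∀ (p : List ℕ), chainB D caP coP p = true → ∀ x y, p.head? = some x → p.getLast? = some y →
      (N x ↔ N y) := by
  intro p
  induction p with
  | nil =>
    intro _ x y hx
    simp at hx
  | cons a t ih =>
    intro hc x y hx hy
    cases t with
    | nil =>
      simp only [List.head?_cons, Option.some.injEq, List.getLast?_singleton] at hx hy
      rw [← hx, ← hy]
    | cons b t' =>
      simp only [chainB, Bool.and_eq_true] at hc
      obtain ⟨hab, hc'⟩ := hc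
      have hx' : a = x := by simpa using hx
      have hy' : (b :: t').getLast? = some y := by
        rw [List.getLast?_cons_cons] at hy
        exact hy
      rw [← hx', hf a b hab]
      exact ih hc' b y rfl hy'

theorem central_perm (D : ChevalleyDatum)
    (hD : D ∈ [chevG2, chevB2, chevD4, chevF4, chevE6, chevE7, chevE8])
    (Wtab caP coP : List ℕ) (hW : WtabOk D Wtab) (hP : PackOk D caP coP)
    (paths : List (List ℕ)) (hchk : centChk D Wtab caP coP paths = true)
    (wd : List ℕ) (hw0 : w0Check D Wtab wd = true)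
    (σ : Perm (Fin D.nroots)) (hσ : σ ∈ Wg D hD)
    (hcomm : ∀ i, i < D.rank → σ * sPerm D hD i = sPerm D hD i * σ) :
    σ = 1 ∨ permOf D hD wd * σ = 1 := by
  have sd := signData_of_mem D hD
  obtain ⟨hC, -, -⟩ := all_of_mem D hD
  unfold centChk at hchk
  simp only [Bool.and_eq_true, List.all_eq_true, List.mem_range, Bool.or_eq_true, Bool.not_eq_true',
    decide_eq_false_iff_not, decide_eq_true_eq, beq_iff_eq] at hchk
  obtain ⟨⟨hc1, hc2⟩, hc3⟩ := hchk
  unfold w0Check at hw0
  simp only [Bool.and_eq_true, List.all_eq_true, decide_eq_true_eq, List.mem_range, Bool.or_eq_true,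
    Bool.not_eq_true', decide_eq_false_iff_not] at hw0
  obtain ⟨hwd, hall0⟩ := hw0
  have hstep1 : ∀ i (hi : i < D.rank), σ (simpF D hD i hi) = simpF D hD i hi ∨
      σ (simpF D hD i hi) = (sgn D hD).ng (simpF D hD i hi) := by
    intro i hi
    have hr := sPerm_refl D hD i hi
    have e1 : sPerm D hD i (σ (simpF D hD i hi)) = (sgn D hD).ng (σ (simpF D hD i hi)) := by
      have := congrArg (fun τ : Perm (Fin D.nroots) => τ (simpF D hD i hi)) (hcomm i hi)
      simp only [Perm.mul_apply] at this
      rw [← this, hr.map_α, Wg_comm D hD σ hσ]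
    have e2 : wdig (Wtab.getD i 0) (σ (simpF D hD i hi) : ℕ) = D.neg (σ (simpF D hD i hi) : ℕ) := by
      have := congrArg Fin.val e1
      rw [sPerm_apply D hD i hi, sgn_ng] at this
      rw [← hW i hi _ (Fin.isLt _)]
      exact this
    have h3 := hc1 i hi (σ (simpF D hD i hi) : ℕ) (Fin.isLt _)
    rcases h3 with (h3 | h3) | h3
    · exact absurd e2 h3
    · left
      exact Fin.ext h3
    · right
      apply Fin.ext
      rw [sgn_ng]
      exact h3
  have hne_ng : ∀ i (hi : i < D.rank), simpF D hD i hi ≠ (sgn D hD).ng (simpF D hD i hi) := by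
    intro i hi e
    have h1 := (sgn D hD).pos_ng (simpF D hD i hi)
    rw [← e] at h1
    have h2 : (sgn D hD).pos (simpF D hD i hi) := posSimple D hD i hi
    exact (h1.mp h2) h2
  by_cases hall : ∀ i (hi : i < D.rank), σ (simpF D hD i hi) = simpF D hD i hi
  · left
    apply eq_one_of_simple_pos D hD σ hσ
    intro i hi
    rw [hall i hi]
    exact posSimple D hD i hi
  · right
    push Not at hall
    obtain ⟨i0, hi0, hne0⟩ := hall
    have hneg0 : σ (simpF D hD i0 hi0) = (sgn D hD).ng (simpF D hD i0 hi0) :=
      (hstep1 i0 hi0).resolve_left hne0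
    let N : ℕ → Prop := fun i => ∃ hi : i < D.rank, σ (simpF D hD i hi) = (sgn D hD).ng (simpF D hD i hi)
    have hpair := Wg_pairing D hD
    have hf : ∀ a b, adjB D caP coP a b = true → (N a ↔ N b) := by
      intro a b hab
      unfold adjB at hab
      simp only [Bool.and_eq_true, decide_eq_true_eq] at hab
      obtain ⟨⟨ha, hb⟩, hne⟩ := hab
      have hinv := hpair.inv σ hσ (simpF D hD a ha) (simpF D hD b hb)
      have hsa : D.simple a < D.nroots := simple_lt D hC a ha
      have hsb : D.simple b < D.nroots := simple_lt D hC b hb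
      have hcd : cF D (simpF D hD a ha) (simpF D hD b hb) ≠ 0 := by
        show cD D (D.simple a) (D.simple b) ≠ 0
        rw [cD_eq_cP D caP coP hP _ _ hsa hsb]
        exact hne
      rcases hstep1 a ha with ea | ea <;> rcases hstep1 b hb with eb | eb
      · constructor
        · rintro ⟨_, h⟩
          rw [ea] at h
          exact absurd h (hne_ng a ha)
        · rintro ⟨_, h⟩
          rw [eb] at h
          exact absurd h (hne_ng b hb)
      · exfalso
        rw [ea, eb] at hinv
        obtain ⟨hlt, h2⟩ := hc2 a ha b hb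
        have h3 : cF D (simpF D hD a ha) ((sgn D hD).ng (simpF D hD b hb)) =
            - cF D (simpF D hD a ha) (simpF D hD b hb) := by
          show cD D (D.simple a) (D.neg (D.simple b)) = - cD D (D.simple a) (D.simple b)
          rw [cD_eq_cP D caP coP hP _ _ hsa hlt, cD_eq_cP D caP coP hP _ _ hsa hsb]
          exact h2
        rw [h3] at hinv
        omega
      · exfalso
        rw [ea, eb, hpair.odd] at hinv
        omega
      · exact ⟨fun _ => ⟨hb, eb⟩, fun _ => ⟨ha, ea⟩⟩
    have hN0 : N 0 := by
      obtain ⟨⟨h1, h2⟩, h3⟩ := hc3 i0 hi0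
      exact (chain_const D caP coP N hf _ h3 i0 0 h1 h2).mp ⟨hi0, hneg0⟩
    have hNall : ∀ j (hj : j < D.rank), σ (simpF D hD j hj) = (sgn D hD).ng (simpF D hD j hj) := by
      intro j hj
      obtain ⟨⟨h1, h2⟩, h3⟩ := hc3 j hj
      obtain ⟨_, h⟩ := (chain_const D caP coP N hf _ h3 j 0 h1 h2).mpr hN0
      exact h
    have hw0mem : permOf D hD wd ∈ Wg D hD := permOf_mem D hD wd hwd
    apply eq_one_of_simple_pos D hD _ (mul_mem hw0mem hσ)
    intro i hi
    rw [Perm.mul_apply, hNall i hi, Wg_comm D hD _ hw0mem]
    show (sgn D hD).pos _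
    rw [(sgn D hD).pos_ng]
    show ¬ D.IsPosRoot (permOf D hD wd (simpF D hD i hi))
    rw [permOf_apply D hD wd hwd]
    have hsi : D.simple i < D.nroots := simple_lt D hC i hi
    have e : wAct D wd (D.simple i) = wActP Wtab wd (D.simple i) := (wAct_eq D hD Wtab hW wd hwd _ hsi).1
    show ¬ D.IsPosRoot (wAct D wd (D.simple i))
    rw [e]
    intro hp
    rcases (hall0 (D.simple i) hsi).1.1 with h1 | h1
    · exact h1 (posSimple D hD i hi)
    · exact sd.not_both _ hp h1

def ncChk (D : ChevalleyDatum) (Wtab wd : List ℕ) : Bool :=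
  (List.range D.rank).any fun i => (List.range D.nroots).any fun r =>
    !decide (wActP Wtab (wd ++ [i]) r = wActP Wtab (i :: wd) r)

def ccChk (D : ChevalleyDatum) (Wtab wd : List ℕ) (k : ℕ) : Bool :=
  ((List.range D.rank).all fun i => (List.range D.nroots).all fun r =>
    decide (wActP Wtab (wd ++ [i]) r = wActP Wtab (i :: wd) r)) &&
  ((List.range D.nroots).all fun r =>
    decide (wActP Wtab (repW (List.range D.rank) k) r = wActP Wtab wd r))

theorem wd_valid (D : ChevalleyDatum) (Wtab wd : List ℕ) (hw0 : w0Check D Wtab wd = true) : ∀ i ∈ wd, i < D.rank := by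
  unfold w0Check at hw0
  simp only [Bool.and_eq_true, List.all_eq_true, decide_eq_true_eq] at hw0
  exact hw0.1

section cox
variable (D : ChevalleyDatum) (hD : D ∈ [chevG2, chevB2, chevD4, chevF4, chevE6, chevE7, chevE8])
  (M : CoxeterMatrix (Fin D.rank)) (hM : ∀ i j : Fin D.rank, orderOf (fS D hD i * fS D hD j) = M i j)

include hD hM

theorem coxHom_coxElt :
    coxHom D hD M hM ((List.finRange D.rank).map M.simple).prod = permOf D hD (List.range D.rank) := by
  have h1 := coxHom_pr D hD M hM (List.finRange D.rank)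
  rw [pr_fS] at h1
  have h2 : (List.finRange D.rank).map Fin.val = List.range D.rank := List.map_coe_finRange_eq_range
  rw [h2] at h1
  exact h1

theorem comm_simple (z : M.Group) (hz : z ∈ Subgroup.center M.Group) (i : ℕ) (hi : i < D.rank) :
    coxHom D hD M hM z * sPerm D hD i = sPerm D hD i * coxHom D hD M hM z := by
  have e : sPerm D hD i = coxHom D hD M hM (M.simple ⟨i, hi⟩) := (coxHom_simple D hD M hM ⟨i, hi⟩).symm
  rw [e, ← map_mul, ← map_mul, Subgroup.mem_center_iff.mp hz (M.simple ⟨i, hi⟩)]

theorem center_cases (Wtab caP coP : List ℕ) (hW : WtabOk D Wtab) (hP : PackOk D caP coP)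
    (paths : List (List ℕ)) (hchk : centChk D Wtab caP coP paths = true)
    (wd : List ℕ) (hw0 : w0Check D Wtab wd = true)
    (z : M.Group) (hz : z ∈ Subgroup.center M.Group) :
    z = 1 ∨ permOf D hD wd * coxHom D hD M hM z = 1 := by
  have hσ : coxHom D hD M hM z ∈ Wg D hD := by
    rw [← coxHom_range D hD M hM]
    exact ⟨z, rfl⟩
  rcases central_perm D hD Wtab caP coP hW hP paths hchk wd hw0 _ hσ
    (fun i hi => comm_simple D hD M hM z hz i hi) with h | h
  · left
    exact coxHom_injective D hD M hM (h.trans (map_one _).symm)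
  · right
    exact h

theorem center_bot (Wtab caP coP : List ℕ) (hW : WtabOk D Wtab) (hP : PackOk D caP coP)
    (paths : List (List ℕ)) (hchk : centChk D Wtab caP coP paths = true)
    (wd : List ℕ) (hw0 : w0Check D Wtab wd = true) (hnc : ncChk D Wtab wd = true) :
    Subgroup.center M.Group = ⊥ := by
  have hwd := wd_valid D Wtab wd hw0
  rw [eq_bot_iff]
  intro z hz
  rw [Subgroup.mem_bot]
  rcases center_cases D hD M hM Wtab caP coP hW hP paths hchk wd hw0 z hz with h | h
  · exact h
  · exfalso
    unfold ncChk at hnc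
    simp only [List.any_eq_true, List.mem_range, Bool.not_eq_eq_eq_not, Bool.not_true,
      decide_eq_false_iff_not] at hnc
    obtain ⟨i, hi, r, hr, hne⟩ := hnc
    apply hne
    have hcomm := comm_simple D hD M hM z hz i hi
    have e1 : coxHom D hD M hM z = (permOf D hD wd)⁻¹ := eq_inv_of_mul_eq_one_right h
    rw [e1] at hcomm
    have hcomm2 : permOf D hD wd * sPerm D hD i = sPerm D hD i * permOf D hD wd := by
      have h3 := congrArg (fun x => permOf D hD wd * x * permOf D hD wd) hcomm
      simp only [mul_assoc, mul_inv_cancel_left, inv_mul_cancel, mul_one] at h3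
      exact h3.symm
    have hv1 : ∀ j ∈ wd ++ [i], j < D.rank := by
      intro j hj
      rcases List.mem_append.mp hj with hj | hj
      · exact hwd j hj
      · rw [List.mem_singleton] at hj
        rw [hj]
        exact hi
    have hv2 : ∀ j ∈ i :: wd, j < D.rank := by
      intro j hj
      rcases List.mem_cons.mp hj with hj | hj
      · rw [hj]
        exact hi
      · exact hwd j hj
    have e2 : permOf D hD (wd ++ [i]) = permOf D hD (i :: wd) := by
      rw [permOf_append, permOf_cons, permOf_cons, permOf_nil, mul_one]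
      exact hcomm2
    have e3 := congrArg (fun τ : Perm (Fin D.nroots) => ((τ ⟨r, hr⟩ : Fin D.nroots) : ℕ)) e2
    rw [permOf_apply D hD _ hv1, permOf_apply D hD _ hv2] at e3
    rw [← (wAct_eq D hD Wtab hW _ hv1 r hr).1, ← (wAct_eq D hD Wtab hW _ hv2 r hr).1]
    exact e3

theorem center_two (Wtab caP coP : List ℕ) (hW : WtabOk D Wtab) (hP : PackOk D caP coP)
    (paths : List (List ℕ)) (hchk : centChk D Wtab caP coP paths = true)
    (wd : List ℕ) (hw0 : w0Check D Wtab wd = true) (k : ℕ) (hcc : ccChk D Wtab wd k = true) :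
    Nat.card (Subgroup.center M.Group) = 2 ∧
      Subgroup.center M.Group ≤ Subgroup.zpowers ((List.finRange D.rank).map M.simple).prod := by
  have sd := signData_of_mem D hD
  obtain ⟨hC, -, -⟩ := all_of_mem D hD
  have hwd := wd_valid D Wtab wd hw0
  unfold ccChk at hcc
  simp only [Bool.and_eq_true, List.all_eq_true, List.mem_range, decide_eq_true_eq] at hcc
  obtain ⟨hcc1, hcc2⟩ := hcc
  have hrv : ∀ x ∈ repW (List.range D.rank) k, x < D.rank :=
    repW_valid D.rank (List.range D.rank) (fun x hx => List.mem_range.mp hx) k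
  have hz0 : coxHom D hD M hM (((List.finRange D.rank).map M.simple).prod ^ k) = permOf D hD wd := by
    rw [map_pow, coxHom_coxElt, ← permOf_repW]
    apply permOf_ext D hD _ _ hrv hwd
    intro r hr
    rw [(wAct_eq D hD Wtab hW _ hrv r hr).1, (wAct_eq D hD Wtab hW _ hwd r hr).1]
    exact hcc2 r hr
  have hcomm : ∀ i (hi : i < D.rank), permOf D hD wd * sPerm D hD i = sPerm D hD i * permOf D hD wd := by
    intro i hi
    have hv1 : ∀ j ∈ wd ++ [i], j < D.rank := by
      intro j hj
      rcases List.mem_append.mp hj with hj | hj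
      · exact hwd j hj
      · rw [List.mem_singleton] at hj
        rw [hj]
        exact hi
    have hv2 : ∀ j ∈ i :: wd, j < D.rank := by
      intro j hj
      rcases List.mem_cons.mp hj with hj | hj
      · rw [hj]
        exact hi
      · exact hwd j hj
    have e2 : permOf D hD (wd ++ [i]) = permOf D hD (i :: wd) := by
      apply permOf_ext D hD _ _ hv1 hv2
      intro r hr
      rw [(wAct_eq D hD Wtab hW _ hv1 r hr).1, (wAct_eq D hD Wtab hW _ hv2 r hr).1]
      exact hcc1 i hi r hr
    rw [permOf_append, permOf_cons, permOf_cons, permOf_nil, mul_one] at e2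
    exact e2
  have hz0c : ((List.finRange D.rank).map M.simple).prod ^ k ∈ Subgroup.center M.Group := by
    rw [Subgroup.mem_center_iff]
    intro g
    have hg : g ∈ Subgroup.centralizer ({((List.finRange D.rank).map M.simple).prod ^ k} : Set M.Group) := by
      have htop : g ∈ (⊤ : Subgroup M.Group) := Subgroup.mem_top g
      rw [← M.toCoxeterSystem.subgroup_closure_range_simple] at htop
      refine (Subgroup.closure_le _).mpr ?_ htop
      rintro _ ⟨i, rfl⟩
      rw [SetLike.mem_coe, Subgroup.mem_centralizer_iff]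
      intro h hh
      rw [Set.mem_singleton_iff] at hh
      subst hh
      apply coxHom_injective D hD M hM
      rw [map_mul, map_mul, hz0, CoxeterMatrix.toCoxeterSystem_simple, coxHom_simple]
      exact hcomm i.val i.isLt
    exact (Subgroup.mem_centralizer_iff.mp hg _ rfl).symm
  have hz0ne : ((List.finRange D.rank).map M.simple).prod ^ k ≠ 1 := by
    intro e
    rw [e, map_one] at hz0
    have hr0 := Cfsg.Agent.Lib.Helper7.ChevExch.rank_pos D hD
    unfold w0Check at hw0
    simp only [Bool.and_eq_true, List.all_eq_true, decide_eq_true_eq, List.mem_range, Bool.or_eq_true,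
      Bool.not_eq_true', decide_eq_false_iff_not] at hw0
    obtain ⟨-, hall0⟩ := hw0
    have hsi : D.simple 0 < D.nroots := simple_lt D hC 0 hr0
    have e3 := congrArg (fun τ : Perm (Fin D.nroots) => ((τ ⟨D.simple 0, hsi⟩ : Fin D.nroots) : ℕ)) hz0
    rw [permOf_apply D hD _ hwd] at e3
    have e4 : wActP Wtab wd (D.simple 0) = D.simple 0 := by
      rw [← (wAct_eq D hD Wtab hW _ hwd _ hsi).1]
      exact e3.symm
    rcases (hall0 (D.simple 0) hsi).1.1 with h1 | h1
    · exact h1 (posSimple D hD 0 hr0)
    · rw [e4] at h1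
      exact sd.not_both _ (posSimple D hD 0 hr0) h1
  have hsq : permOf D hD wd * permOf D hD wd = 1 := by
    rcases center_cases D hD M hM Wtab caP coP hW hP paths hchk wd hw0 _ hz0c with h | h
    · exact absurd h hz0ne
    · rw [hz0] at h
      exact h
  have hcases : ∀ z ∈ Subgroup.center M.Group, z = 1 ∨ z = ((List.finRange D.rank).map M.simple).prod ^ k := by
    intro z hz
    rcases center_cases D hD M hM Wtab caP coP hW hP paths hchk wd hw0 z hz with h | h
    · left
      exact h
    · right
      apply coxHom_injective D hD M hM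
      rw [hz0]
      have e1 : coxHom D hD M hM z = (permOf D hD wd)⁻¹ := eq_inv_of_mul_eq_one_right h
      rw [e1]
      exact inv_eq_of_mul_eq_one_left hsq
  constructor
  · have hset : ((Subgroup.center M.Group : Subgroup M.Group) : Set M.Group) =
        {1, ((List.finRange D.rank).map M.simple).prod ^ k} := by
      ext z
      constructor
      · intro hz
        rcases hcases z hz with h | h
        · left
          exact h
        · right
          exact h
      · intro hz
        rcases hz with h | h
        · rw [h]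
          exact one_mem _
        · rw [Set.mem_singleton_iff] at h
          rw [h]
          exact hz0c
    have h3 : Nat.card ↥(Subgroup.center M.Group) =
        ((Subgroup.center M.Group : Subgroup M.Group) : Set M.Group).ncard := rfl
    rw [h3, hset, Set.ncard_pair (Ne.symm hz0ne)]
  · intro z hz
    rcases hcases z hz with h | h
    · rw [h]
      exact one_mem _
    · rw [h]
      exact Subgroup.npow_mem_zpowers _ k

end cox

end Cfsg.Agent.Lib.Helper7.CoxCenter
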