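import Cfsg.Agent.Lib.Helper7.CoxCenter

set_option autoImplicit false
set_option maxRecDepth 1000000
set_option maxHeartbeats 4000000

namespace Cfsg.Agent.Lib.Helper7.CoxCenterAll
open Cfsg.Lie Cfsg.Agent.Lib.Helper7.ChevW0 Cfsg.Agent.Lib.Helper7.W0All Cfsg.Agent.Lib.Helper7.ChevWPerm
  Cfsg.Agent.Lib.Helper7.WPermAll Cfsg.Agent.Lib.Helper7.ChevWGrp Cfsg.Agent.Lib.Helper7.ChevChain
  Cfsg.Agent.Lib.Helper7.PoinAbs Cfsg.Agent.Lib.Helper7.ChevCox Cfsg.Agent.Lib.Helper7.CoxAll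
  Cfsg.Agent.Lib.Helper7.ChevCoxElt Cfsg.Agent.Lib.Helper7.CoxCenter

def pathsA : List (List ℕ) := [[0], [1, 0]]
def pathsD : List (List ℕ) := [[0], [1, 0], [2, 1, 0], [3, 1, 0]]
def pathsF : List (List ℕ) := [[0], [1, 0], [2, 1, 0], [3, 2, 1, 0]]
def pathsE : List (List ℕ) := [[0], [1, 3, 2, 0], [2, 0], [3, 2, 0], [4, 3, 2, 0], [5, 4, 3, 2, 0],
  [6, 5, 4, 3, 2, 0], [7, 6, 5, 4, 3, 2, 0]]

theorem ckG2 : centChk chevG2 wtG2 caG2 coG2 pathsA = true := by decide +kernel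
theorem ckB2 : centChk chevB2 wtB2 caB2 coB2 pathsA = true := by decide +kernel
theorem ckD4 : centChk chevD4 wtD4 caD4 coD4 pathsD = true := by decide +kernel
theorem ckF4 : centChk chevF4 wtF4 caF4 coF4 pathsF = true := by decide +kernel
theorem ckE6 : centChk chevE6 wtE6 caE6 coE6 pathsE = true := by decide +kernel
theorem ckE7 : centChk chevE7 wtE7 caE7 coE7 pathsE = true := by decide +kernel
theorem ckE8 : centChk chevE8 wtE8 caE8 coE8 pathsE = true := by decide +kernel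

theorem ccG2 : ccChk chevG2 wtG2 wdG2 3 = true := by decide +kernel
theorem ccB2 : ccChk chevB2 wtB2 wdB2 2 = true := by decide +kernel
theorem ccD4 : ccChk chevD4 wtD4 wdD4 3 = true := by decide +kernel
theorem ccF4 : ccChk chevF4 wtF4 wdF4 6 = true := by decide +kernel
theorem ncE6 : ncChk chevE6 wtE6 wdE6 = true := by decide +kernel
theorem ccE7 : ccChk chevE7 wtE7 wdE7 9 = true := by decide +kernel
theorem ccE8 : ccChk chevE8 wtE8 wdE8 15 = true := by decide +kernel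

theorem ctG2 : Nat.card (Subgroup.center (CoxeterMatrix.G₂).Group) = 2 ∧
    Subgroup.center (CoxeterMatrix.G₂).Group ≤
      Subgroup.zpowers ((List.finRange 2).map (CoxeterMatrix.G₂).simple).prod :=
  center_two chevG2 Cfsg.Agent.Lib.Helper7.ChainG2.hm (CoxeterMatrix.G₂) omG2 wtG2 caG2 coG2 woG2
    (pack_of_check _ _ _ pkG2) pathsA ckG2 wdG2 wcG2 3 ccG2

theorem ctB2 : Nat.card (Subgroup.center (CoxeterMatrix.B 2).Group) = 2 ∧
    Subgroup.center (CoxeterMatrix.B 2).Group ≤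
      Subgroup.zpowers ((List.finRange 2).map (CoxeterMatrix.B 2).simple).prod :=
  center_two chevB2 Cfsg.Agent.Lib.Helper7.ChainB2.hm (CoxeterMatrix.B 2) omB2 wtB2 caB2 coB2 woB2
    (pack_of_check _ _ _ pkB2) pathsA ckB2 wdB2 wcB2 2 ccB2

theorem ctD4 : Nat.card (Subgroup.center (Cfsg.Lie.coxeterD4).Group) = 2 ∧
    Subgroup.center (Cfsg.Lie.coxeterD4).Group ≤
      Subgroup.zpowers ((List.finRange 4).map (Cfsg.Lie.coxeterD4).simple).prod :=
  center_two chevD4 Cfsg.Agent.Lib.Helper7.ChainD4.hm (Cfsg.Lie.coxeterD4) omD4 wtD4 caD4 coD4 woD4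
    (pack_of_check _ _ _ pkD4) pathsD ckD4 wdD4 wcD4 3 ccD4

theorem ctF4 : Nat.card (Subgroup.center (CoxeterMatrix.F₄).Group) = 2 ∧
    Subgroup.center (CoxeterMatrix.F₄).Group ≤
      Subgroup.zpowers ((List.finRange 4).map (CoxeterMatrix.F₄).simple).prod :=
  center_two chevF4 Cfsg.Agent.Lib.Helper7.ChainF4.hm (CoxeterMatrix.F₄) omF4 wtF4 caF4 coF4 woF4
    (pack_of_check _ _ _ pkF4) pathsF ckF4 wdF4 wcF4 6 ccF4

theorem ctE6 : Nat.card (Subgroup.center (CoxeterMatrix.E₆).Group) = 1 ∧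
    Subgroup.center (CoxeterMatrix.E₆).Group ≤
      Subgroup.zpowers ((List.finRange 6).map (CoxeterMatrix.E₆).simple).prod := by
  have h : Subgroup.center (CoxeterMatrix.E₆).Group = ⊥ :=
    center_bot chevE6 Cfsg.Agent.Lib.Helper7.ChainE6.hm (CoxeterMatrix.E₆) omE6 wtE6 caE6 coE6 woE6
      (pack_of_check _ _ _ pkE6) pathsE ckE6 wdE6 wcE6 ncE6
  rw [h]
  exact ⟨Subgroup.card_bot, bot_le⟩

theorem ctE7 : Nat.card (Subgroup.center (CoxeterMatrix.E₇).Group) = 2 ∧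
    Subgroup.center (CoxeterMatrix.E₇).Group ≤
      Subgroup.zpowers ((List.finRange 7).map (CoxeterMatrix.E₇).simple).prod :=
  center_two chevE7 Cfsg.Agent.Lib.Helper7.ChainE7.hm (CoxeterMatrix.E₇) omE7 wtE7 caE7 coE7 woE7
    (pack_of_check _ _ _ pkE7) pathsE ckE7 wdE7 wcE7 9 ccE7

theorem ctE8 : Nat.card (Subgroup.center (CoxeterMatrix.E₈).Group) = 2 ∧
    Subgroup.center (CoxeterMatrix.E₈).Group ≤
      Subgroup.zpowers ((List.finRange 8).map (CoxeterMatrix.E₈).simple).prod :=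
  center_two chevE8 Cfsg.Agent.Lib.Helper7.ChainE8.hm (CoxeterMatrix.E₈) omE8 wtE8 caE8 coE8 woE8
    (pack_of_check _ _ _ pkE8) pathsE ckE8 wdE8 wcE8 15 ccE8

end Cfsg.Agent.Lib.Helper7.CoxCenterAll
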