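import Cfsg.Agent.Lib.Helper7.ChevCoxElt

set_option autoImplicit false
set_option maxRecDepth 1000000
set_option maxHeartbeats 4000000

namespace Cfsg.Agent.Lib.Helper7.CoxGen
open Cfsg.Lie Cfsg.Agent.Lib.Helper7.ChevW0 Cfsg.Agent.Lib.Helper7.W0All Cfsg.Agent.Lib.Helper7.ChevWPerm
  Cfsg.Agent.Lib.Helper7.WPermAll Cfsg.Agent.Lib.Helper7.ChevWGrp Cfsg.Agent.Lib.Helper7.ChevChain
  Cfsg.Agent.Lib.Helper7.PoinAbs Cfsg.Agent.Lib.Helper7.ChevCox Cfsg.Agent.Lib.Helper7.CoxAll
  Cfsg.Agent.Lib.Helper7.TitsWord Cfsg.Agent.Lib.Helper7.ChevCoxElt Cfsg.Agent.Lib.Helper7.ChevConjT Equiv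

def letW (D : ChevalleyDatum) (ts : List ℕ) : ℕ → List ℕ
  | 0 => List.range D.rank
  | 1 => (List.range D.rank).reverse
  | (m + 2) => [ts.getD m 0]

def expW (D : ChevalleyDatum) (ts : List ℕ) : List ℕ → List ℕ
  | [] => []
  | x :: w => letW D ts x ++ expW D ts w

def genChk (D : ChevalleyDatum) (Wtab : List ℕ) (ts : List ℕ) (words : List (List ℕ)) : Bool :=
  ts.all (fun i => decide (i < D.rank)) &&
  (List.range D.rank).all fun j =>
    (words.getD j []).all (fun x => decide (x < ts.length + 2)) &&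
    (List.range D.nroots).all fun r =>
      decide (wActP Wtab (expW D ts (words.getD j [])) r = wdig (Wtab.getD j 0) r)

theorem letW_valid (D : ChevalleyDatum) (ts : List ℕ) (hts : ∀ i ∈ ts, i < D.rank) (x : ℕ)
    (hx : x < ts.length + 2) : ∀ i ∈ letW D ts x, i < D.rank := by
  intro i hi
  match x, hx, hi with
  | 0, _, hi => exact List.mem_range.mp hi
  | 1, _, hi => exact List.mem_range.mp (List.mem_reverse.mp hi)
  | (m + 2), hx, hi =>
    simp only [letW, List.mem_singleton] at hi
    rw [hi]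
    have hm : m < ts.length := by omega
    rw [List.getD_eq_getElem _ _ hm]
    exact hts _ (List.getElem_mem hm)

theorem expW_valid (D : ChevalleyDatum) (ts : List ℕ) (hts : ∀ i ∈ ts, i < D.rank) (w : List ℕ)
    (hw : ∀ x ∈ w, x < ts.length + 2) : ∀ i ∈ expW D ts w, i < D.rank := by
  induction w with
  | nil =>
    intro i hi
    simp [expW] at hi
  | cons x w ih =>
    intro i hi
    simp only [expW, List.mem_append] at hi
    rcases hi with hi | hi
    · exact letW_valid D ts hts x (hw x (by simp)) i hi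
    · exact ih (fun y hy => hw y (by simp [hy])) i hi

section cox
variable (D : ChevalleyDatum) (hD : D ∈ [chevG2, chevB2, chevD4, chevF4, chevE6, chevE7, chevE8])
  (M : CoxeterMatrix (Fin D.rank)) (hM : ∀ i j : Fin D.rank, orderOf (fS D hD i * fS D hD j) = M i j)

include hD hM

theorem coxHom_coxElt' :
    coxHom D hD M hM ((List.finRange D.rank).map M.simple).prod = permOf D hD (List.range D.rank) := by
  have h1 := coxHom_pr D hD M hM (List.finRange D.rank)
  rw [pr_fS] at h1
  have h2 : (List.finRange D.rank).map Fin.val = List.range D.rank := List.map_coe_finRange_eq_range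
  rw [h2] at h1
  exact h1

theorem let_mem (ts : List ℕ) (hts : ∀ i ∈ ts, i < D.rank) (S : Set M.Group)
    (hc : ((List.finRange D.rank).map M.simple).prod ∈ S)
    (hS : ∀ i ∈ ts, ∀ hi : i < D.rank, M.simple ⟨i, hi⟩ ∈ S) (x : ℕ) (hx : x < ts.length + 2) :
    ∃ g ∈ Subgroup.closure S, coxHom D hD M hM g = permOf D hD (letW D ts x) := by
  match x, hx with
  | 0, _ =>
    exact ⟨_, Subgroup.subset_closure hc, coxHom_coxElt' D hD M hM⟩
  | 1, _ =>
    refine ⟨(((List.finRange D.rank).map M.simple).prod)⁻¹, inv_mem (Subgroup.subset_closure hc), ?_⟩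
    rw [map_inv, coxHom_coxElt' D hD M hM]
    exact permOf_inv D hD _ (fun i hi => List.mem_range.mp hi)
  | (m + 2), hx =>
    have hm : m < ts.length := by omega
    have hmem : ts.getD m 0 ∈ ts := by
      rw [List.getD_eq_getElem _ _ hm]
      exact List.getElem_mem hm
    have hi := hts _ hmem
    refine ⟨M.simple ⟨ts.getD m 0, hi⟩, Subgroup.subset_closure (hS _ hmem hi), ?_⟩
    rw [coxHom_simple]
    show sPerm D hD (ts.getD m 0) = permOf D hD [ts.getD m 0]
    rw [permOf_cons, permOf_nil, mul_one]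

theorem word_mem (ts : List ℕ) (hts : ∀ i ∈ ts, i < D.rank) (S : Set M.Group)
    (hc : ((List.finRange D.rank).map M.simple).prod ∈ S)
    (hS : ∀ i ∈ ts, ∀ hi : i < D.rank, M.simple ⟨i, hi⟩ ∈ S) (w : List ℕ)
    (hw : ∀ x ∈ w, x < ts.length + 2) :
    ∃ g ∈ Subgroup.closure S, coxHom D hD M hM g = permOf D hD (expW D ts w) := by
  induction w with
  | nil => exact ⟨1, one_mem _, map_one _⟩
  | cons x w ih =>
    obtain ⟨g1, hg1, e1⟩ := let_mem D hD M hM ts hts S hc hS x (hw x (by simp))
    obtain ⟨g2, hg2, e2⟩ := ih (fun y hy => hw y (by simp [hy]))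
    refine ⟨g1 * g2, mul_mem hg1 hg2, ?_⟩
    rw [map_mul, e1, e2]
    show _ = permOf D hD (letW D ts x ++ expW D ts w)
    rw [permOf_append]

theorem gen_top (Wtab : List ℕ) (hW : WtabOk D Wtab) (ts : List ℕ) (words : List (List ℕ))
    (hchk : genChk D Wtab ts words = true) (S : Set M.Group)
    (hc : ((List.finRange D.rank).map M.simple).prod ∈ S)
    (hS : ∀ i ∈ ts, ∀ hi : i < D.rank, M.simple ⟨i, hi⟩ ∈ S) :
    Subgroup.closure S = ⊤ := by
  unfold genChk at hchk
  simp only [Bool.and_eq_true, List.all_eq_true, List.mem_range, decide_eq_true_eq] at hchk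
  obtain ⟨hts, hall⟩ := hchk
  rw [eq_top_iff, ← M.toCoxeterSystem.subgroup_closure_range_simple, Subgroup.closure_le]
  rintro _ ⟨j, rfl⟩
  obtain ⟨hw, hact⟩ := hall j.val j.isLt
  obtain ⟨g, hg, e⟩ := word_mem D hD M hM ts hts S hc hS _ hw
  have hv := expW_valid D ts hts _ hw
  have hvj : ∀ i ∈ [j.val], i < D.rank := by
    intro i hi
    rw [List.mem_singleton] at hi
    rw [hi]
    exact j.isLt
  have e2 : permOf D hD (expW D ts (words.getD j.val [])) = permOf D hD [j.val] := by
    apply permOf_ext D hD _ _ hv hvj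
    intro r hr
    rw [(wAct_eq D hD Wtab hW _ hv r hr).1, (wAct_eq D hD Wtab hW _ hvj r hr).1, hact r hr]
    rfl
  have e3 : g = M.simple j := by
    apply coxHom_injective D hD M hM
    rw [e, e2, coxHom_simple, permOf_cons, permOf_nil, mul_one]
    rfl
  rw [CoxeterMatrix.toCoxeterSystem_simple, SetLike.mem_coe, ← e3]
  exact hg

theorem simple_ne (i j : Fin D.rank) (h : M i j ≠ 1) : M.simple i ≠ M.simple j := by
  intro e
  apply h
  rw [← hM, ← coxHom_simple D hD M hM, ← coxHom_simple D hD M hM, e, ← map_mul]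
  have := M.toCoxeterSystem.simple_mul_simple_self j
  rw [CoxeterMatrix.toCoxeterSystem_simple] at this
  rw [this, map_one, orderOf_one]

end cox

end Cfsg.Agent.Lib.Helper7.CoxGen
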