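import Cfsg.Agent.Lib.Helper7.CoxGen

set_option autoImplicit false
set_option maxRecDepth 1000000
set_option maxHeartbeats 4000000

namespace Cfsg.Agent.Lib.Helper7.CoxGenAll
open Cfsg.Lie Cfsg.Agent.Lib.Helper7.ChevW0 Cfsg.Agent.Lib.Helper7.W0All Cfsg.Agent.Lib.Helper7.ChevWPerm
  Cfsg.Agent.Lib.Helper7.WPermAll Cfsg.Agent.Lib.Helper7.ChevWGrp Cfsg.Agent.Lib.Helper7.ChevChain
  Cfsg.Agent.Lib.Helper7.PoinAbs Cfsg.Agent.Lib.Helper7.ChevCox Cfsg.Agent.Lib.Helper7.CoxAll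
  Cfsg.Agent.Lib.Helper7.ChevCoxElt Cfsg.Agent.Lib.Helper7.CoxGen

def gtXB2 : List ℕ := [1]
def gwXB2 : List (List ℕ) := [[0, 2], [2]]
theorem gkB2 : genChk chevB2 wtB2 gtXB2 gwXB2 = true := by decide +kernel

def gtXG2 : List ℕ := [1]
def gwXG2 : List (List ℕ) := [[0, 2], [2]]
theorem gkG2 : genChk chevG2 wtG2 gtXG2 gwXG2 = true := by decide +kernel

def gtXD4 : List ℕ := [3, 2]
def gwXD4 : List (List ℕ) := [[0, 2, 1, 2, 0, 3], [2, 1, 3, 0, 2], [3], [2]]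
theorem gkD4 : genChk chevD4 wtD4 gtXD4 gwXD4 = true := by decide +kernel

def gtXF4 : List ℕ := [3, 1]
def gwXF4 : List (List ℕ) := [[1, 3, 0], [3], [1, 2, 0], [2]]
theorem gkF4 : genChk chevF4 wtF4 gtXF4 gwXF4 = true := by decide +kernel

def gtXE6 : List ℕ := [3]
def gwXE6 : List (List ℕ) := [[1, 1, 1, 1, 1, 2, 0, 0, 0, 0, 0], [2, 1, 1, 1, 2, 0, 0, 0, 2], [1, 1, 1, 1, 2, 0, 0, 0, 0], [2], [0, 2, 1], [0, 0, 2, 1, 1]]
theorem gkE6 : genChk chevE6 wtE6 gtXE6 gwXE6 = true := by decide +kernel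

def gtXE7 : List ℕ := [3]
def gwXE7 : List (List ℕ) := [[1, 2, 1, 1, 1, 1, 2, 0, 0, 0, 0, 2, 0], [2, 0, 2, 1, 1, 1, 1, 2, 0, 0, 0, 0, 2, 1, 2], [2, 1, 1, 1, 1, 2, 0, 0, 0, 0, 2], [2], [0, 2, 1], [0, 0, 2, 1, 1], [0, 0, 0, 2, 1, 1, 1]]
theorem gkE7 : genChk chevE7 wtE7 gtXE7 gwXE7 = true := by decide +kernel

def gtXE8 : List ℕ := [3]
def gwXE8 : List (List ℕ) := [[1, 2, 0, 0, 0, 0, 0, 0, 2, 1, 1, 1, 1, 1, 1, 2, 0], [2, 0, 2, 0, 0, 0, 0, 0, 0, 2, 1, 1, 1, 1, 1, 1, 2, 1, 2], [2, 0, 0, 0, 0, 0, 0, 2, 1, 1, 1, 1, 1, 1, 2], [2], [0, 2, 1], [0, 0, 2, 1, 1], [0, 0, 0, 2, 1, 1, 1], [0, 0, 0, 0, 2, 1, 1, 1, 1]]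
theorem gkE8 : genChk chevE8 wtE8 gtXE8 gwXE8 = true := by decide +kernel

theorem gnB2 : ∃ T : Finset (CoxeterMatrix.B 2).Group, T.card = 1 ∧
    (∀ t ∈ T, ∃ (g : (CoxeterMatrix.B 2).Group) (i : Fin 2), t = g * (CoxeterMatrix.B 2).simple i * g⁻¹) ∧
    Subgroup.closure (({((List.finRange 2).map (CoxeterMatrix.B 2).simple).prod} : Set (CoxeterMatrix.B 2).Group) ∪ ↑T) = ⊤ := by
  refine ⟨{(CoxeterMatrix.B 2).simple ⟨1, by decide⟩}, Finset.card_singleton _, ?_, ?_⟩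
  · intro t ht
    rw [Finset.mem_singleton] at ht
    exact ⟨1, ⟨1, by decide⟩, by rw [ht, one_mul, inv_one, mul_one]⟩
  · refine gen_top chevB2 Cfsg.Agent.Lib.Helper7.ChainB2.hm (CoxeterMatrix.B 2) omB2 wtB2 woB2 gtXB2 gwXB2 gkB2 _
      (Set.mem_union_left _ (Set.mem_singleton _)) ?_
    intro i hi' hi
    have hi2 : i = 1 := by simpa [gtXB2] using hi'
    subst hi2
    exact Set.mem_union_right _ (Finset.mem_coe.mpr (Finset.mem_singleton_self _))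

theorem gnG2 : ∃ T : Finset (CoxeterMatrix.G₂).Group, T.card = 1 ∧
    (∀ t ∈ T, ∃ (g : (CoxeterMatrix.G₂).Group) (i : Fin 2), t = g * (CoxeterMatrix.G₂).simple i * g⁻¹) ∧
    Subgroup.closure (({((List.finRange 2).map (CoxeterMatrix.G₂).simple).prod} : Set (CoxeterMatrix.G₂).Group) ∪ ↑T) = ⊤ := by
  refine ⟨{(CoxeterMatrix.G₂).simple ⟨1, by decide⟩}, Finset.card_singleton _, ?_, ?_⟩
  · intro t ht
    rw [Finset.mem_singleton] at ht
    exact ⟨1, ⟨1, by decide⟩, by rw [ht, one_mul, inv_one, mul_one]⟩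
  · refine gen_top chevG2 Cfsg.Agent.Lib.Helper7.ChainG2.hm (CoxeterMatrix.G₂) omG2 wtG2 woG2 gtXG2 gwXG2 gkG2 _
      (Set.mem_union_left _ (Set.mem_singleton _)) ?_
    intro i hi' hi
    have hi2 : i = 1 := by simpa [gtXG2] using hi'
    subst hi2
    exact Set.mem_union_right _ (Finset.mem_coe.mpr (Finset.mem_singleton_self _))

theorem gnD4 : ∃ T : Finset (Cfsg.Lie.coxeterD4).Group, T.card = 2 ∧
    (∀ t ∈ T, ∃ (g : (Cfsg.Lie.coxeterD4).Group) (i : Fin 4), t = g * (Cfsg.Lie.coxeterD4).simple i * g⁻¹) ∧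
    Subgroup.closure (({((List.finRange 4).map (Cfsg.Lie.coxeterD4).simple).prod} : Set (Cfsg.Lie.coxeterD4).Group) ∪ ↑T) = ⊤ := by
  classical
  refine ⟨{(Cfsg.Lie.coxeterD4).simple ⟨3, by decide⟩, (Cfsg.Lie.coxeterD4).simple ⟨2, by decide⟩}, Finset.card_pair (simple_ne chevD4 Cfsg.Agent.Lib.Helper7.ChainD4.hm (Cfsg.Lie.coxeterD4) omD4 ⟨3, by decide⟩ ⟨2, by decide⟩ (by decide)), ?_, ?_⟩
  · intro t ht
    rw [Finset.mem_insert, Finset.mem_singleton] at ht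
    rcases ht with ht | ht
    · exact ⟨1, ⟨3, by decide⟩, by rw [ht, one_mul, inv_one, mul_one]⟩
    · exact ⟨1, ⟨2, by decide⟩, by rw [ht, one_mul, inv_one, mul_one]⟩
  · refine gen_top chevD4 Cfsg.Agent.Lib.Helper7.ChainD4.hm (Cfsg.Lie.coxeterD4) omD4 wtD4 woD4 gtXD4 gwXD4 gkD4 _
      (Set.mem_union_left _ (Set.mem_singleton _)) ?_
    intro i hi' hi
    have hi2 : i = 3 ∨ i = 2 := by simpa [gtXD4] using hi'
    rcases hi2 with hi2 | hi2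
    · subst hi2
      exact Set.mem_union_right _ (Finset.mem_coe.mpr (Finset.mem_insert_self _ _))
    · subst hi2
      exact Set.mem_union_right _ (Finset.mem_coe.mpr (Finset.mem_insert_of_mem (Finset.mem_singleton_self _)))

theorem gnF4 : ∃ T : Finset (CoxeterMatrix.F₄).Group, T.card = 2 ∧
    (∀ t ∈ T, ∃ (g : (CoxeterMatrix.F₄).Group) (i : Fin 4), t = g * (CoxeterMatrix.F₄).simple i * g⁻¹) ∧
    Subgroup.closure (({((List.finRange 4).map (CoxeterMatrix.F₄).simple).prod} : Set (CoxeterMatrix.F₄).Group) ∪ ↑T) = ⊤ := by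
  classical
  refine ⟨{(CoxeterMatrix.F₄).simple ⟨3, by decide⟩, (CoxeterMatrix.F₄).simple ⟨1, by decide⟩}, Finset.card_pair (simple_ne chevF4 Cfsg.Agent.Lib.Helper7.ChainF4.hm (CoxeterMatrix.F₄) omF4 ⟨3, by decide⟩ ⟨1, by decide⟩ (by decide)), ?_, ?_⟩
  · intro t ht
    rw [Finset.mem_insert, Finset.mem_singleton] at ht
    rcases ht with ht | ht
    · exact ⟨1, ⟨3, by decide⟩, by rw [ht, one_mul, inv_one, mul_one]⟩
    · exact ⟨1, ⟨1, by decide⟩, by rw [ht, one_mul, inv_one, mul_one]⟩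
  · refine gen_top chevF4 Cfsg.Agent.Lib.Helper7.ChainF4.hm (CoxeterMatrix.F₄) omF4 wtF4 woF4 gtXF4 gwXF4 gkF4 _
      (Set.mem_union_left _ (Set.mem_singleton _)) ?_
    intro i hi' hi
    have hi2 : i = 3 ∨ i = 1 := by simpa [gtXF4] using hi'
    rcases hi2 with hi2 | hi2
    · subst hi2
      exact Set.mem_union_right _ (Finset.mem_coe.mpr (Finset.mem_insert_self _ _))
    · subst hi2
      exact Set.mem_union_right _ (Finset.mem_coe.mpr (Finset.mem_insert_of_mem (Finset.mem_singleton_self _)))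

theorem gnE6 : ∃ T : Finset (CoxeterMatrix.E₆).Group, T.card = 1 ∧
    (∀ t ∈ T, ∃ (g : (CoxeterMatrix.E₆).Group) (i : Fin 6), t = g * (CoxeterMatrix.E₆).simple i * g⁻¹) ∧
    Subgroup.closure (({((List.finRange 6).map (CoxeterMatrix.E₆).simple).prod} : Set (CoxeterMatrix.E₆).Group) ∪ ↑T) = ⊤ := by
  refine ⟨{(CoxeterMatrix.E₆).simple ⟨3, by decide⟩}, Finset.card_singleton _, ?_, ?_⟩
  · intro t ht
    rw [Finset.mem_singleton] at ht
    exact ⟨1, ⟨3, by decide⟩, by rw [ht, one_mul, inv_one, mul_one]⟩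
  · refine gen_top chevE6 Cfsg.Agent.Lib.Helper7.ChainE6.hm (CoxeterMatrix.E₆) omE6 wtE6 woE6 gtXE6 gwXE6 gkE6 _
      (Set.mem_union_left _ (Set.mem_singleton _)) ?_
    intro i hi' hi
    have hi2 : i = 3 := by simpa [gtXE6] using hi'
    subst hi2
    exact Set.mem_union_right _ (Finset.mem_coe.mpr (Finset.mem_singleton_self _))

theorem gnE7 : ∃ T : Finset (CoxeterMatrix.E₇).Group, T.card = 1 ∧
    (∀ t ∈ T, ∃ (g : (CoxeterMatrix.E₇).Group) (i : Fin 7), t = g * (CoxeterMatrix.E₇).simple i * g⁻¹) ∧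
    Subgroup.closure (({((List.finRange 7).map (CoxeterMatrix.E₇).simple).prod} : Set (CoxeterMatrix.E₇).Group) ∪ ↑T) = ⊤ := by
  refine ⟨{(CoxeterMatrix.E₇).simple ⟨3, by decide⟩}, Finset.card_singleton _, ?_, ?_⟩
  · intro t ht
    rw [Finset.mem_singleton] at ht
    exact ⟨1, ⟨3, by decide⟩, by rw [ht, one_mul, inv_one, mul_one]⟩
  · refine gen_top chevE7 Cfsg.Agent.Lib.Helper7.ChainE7.hm (CoxeterMatrix.E₇) omE7 wtE7 woE7 gtXE7 gwXE7 gkE7 _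
      (Set.mem_union_left _ (Set.mem_singleton _)) ?_
    intro i hi' hi
    have hi2 : i = 3 := by simpa [gtXE7] using hi'
    subst hi2
    exact Set.mem_union_right _ (Finset.mem_coe.mpr (Finset.mem_singleton_self _))

theorem gnE8 : ∃ T : Finset (CoxeterMatrix.E₈).Group, T.card = 1 ∧
    (∀ t ∈ T, ∃ (g : (CoxeterMatrix.E₈).Group) (i : Fin 8), t = g * (CoxeterMatrix.E₈).simple i * g⁻¹) ∧
    Subgroup.closure (({((List.finRange 8).map (CoxeterMatrix.E₈).simple).prod} : Set (CoxeterMatrix.E₈).Group) ∪ ↑T) = ⊤ := by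
  refine ⟨{(CoxeterMatrix.E₈).simple ⟨3, by decide⟩}, Finset.card_singleton _, ?_, ?_⟩
  · intro t ht
    rw [Finset.mem_singleton] at ht
    exact ⟨1, ⟨3, by decide⟩, by rw [ht, one_mul, inv_one, mul_one]⟩
  · refine gen_top chevE8 Cfsg.Agent.Lib.Helper7.ChainE8.hm (CoxeterMatrix.E₈) omE8 wtE8 woE8 gtXE8 gwXE8 gkE8 _
      (Set.mem_union_left _ (Set.mem_singleton _)) ?_
    intro i hi' hi
    have hi2 : i = 3 := by simpa [gtXE8] using hi'
    subst hi2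
    exact Set.mem_union_right _ (Finset.mem_coe.mpr (Finset.mem_singleton_self _))

end Cfsg.Agent.Lib.Helper7.CoxGenAll
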