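import Cfsg.Agent.Lib.Helper7.ChevPar
import Cfsg.Prelude.Def_ChevB2

set_option autoImplicit false
set_option maxRecDepth 1000000

namespace Cfsg.Agent.Lib.Helper7.ParB2
open Cfsg.Lie Cfsg.Agent.Lib.Helper7.ChevPar

def COR : ℕ := 11072532446817249143

def RCP : ℕ := 11140086441227810678

theorem jd : jdescCheck chevB2 144960716829426434 281474976710912 = true := by decide +kernel

theorem sp : simpCheck chevB2 = true := by decide +kernel

theorem co : corCheck chevB2 COR = true := by decide +kernel

theorem pm_0 : chunkOk (pmRow chevB2 COR) 0 8 = true := by decide +kernel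

theorem pm : ∀ r < chevB2.nroots, pmRow chevB2 COR r = true := by
  intro r hr
  have hr' : r < 8 := hr
  exact chunk_spec _ 0 8 pm_0 r (by omega) (by omega)

theorem rk_0 : chunkOk (rcRow chevB2 COR RCP) 0 8 = true := by decide +kernel

theorem rk : ∀ r < chevB2.nroots, rcRow chevB2 COR RCP r = true := by
  intro r hr
  have hr' : r < 8 := hr
  exact chunk_spec _ 0 8 rk_0 r (by omega) (by omega)

theorem pd : ParData chevB2 := ⟨⟨_, _, jd⟩, sp, ⟨COR, RCP, co, pm, rk⟩⟩

end Cfsg.Agent.Lib.Helper7.ParB2
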