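import Cfsg.Agent.Lib.Helper7.ChevPar
import Cfsg.Prelude.Def_ChevD4

set_option autoImplicit false
set_option maxRecDepth 1000000

namespace Cfsg.Agent.Lib.Helper7.ParD4
open Cfsg.Lie Cfsg.Agent.Lib.Helper7.ChevPar

def COR : ℕ := 23650823347682353947316815237542903454502794439417508359777837555985772449130485034913705815858301175493870369601383

def RCP : ℕ := 23650823347682353947316815237542903454502794439417508359777837555985772449130485034913705815858301175493870369601383

theorem jd : jdescCheck chevD4 122983893983690507316339691414419857946345098787122512901 24519928653854396299917010871621619540496610130011357185 = true := by decide +kernel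

theorem sp : simpCheck chevD4 = true := by decide +kernel

theorem co : corCheck chevD4 COR = true := by decide +kernel

theorem pm_0 : chunkOk (pmRow chevD4 COR) 0 24 = true := by decide +kernel

theorem pm : ∀ r < chevD4.nroots, pmRow chevD4 COR r = true := by
  intro r hr
  have hr' : r < 24 := hr
  exact chunk_spec _ 0 24 pm_0 r (by omega) (by omega)

theorem rk_0 : chunkOk (rcRow chevD4 COR RCP) 0 24 = true := by decide +kernel

theorem rk : ∀ r < chevD4.nroots, rcRow chevD4 COR RCP r = true := by
  intro r hr
  have hr' : r < 24 := hr
  exact chunk_spec _ 0 24 rk_0 r (by omega) (by omega)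

theorem pd : ParData chevD4 := ⟨⟨_, _, jd⟩, sp, ⟨COR, RCP, co, pm, rk⟩⟩

end Cfsg.Agent.Lib.Helper7.ParD4
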