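import Cfsg.Agent.Lib.Helper7.ChevPar
import Cfsg.Prelude.Def_ChevE6

set_option autoImplicit false
set_option maxRecDepth 1000000

namespace Cfsg.Agent.Lib.Helper7.ParE6
open Cfsg.Lie Cfsg.Agent.Lib.Helper7.ChevPar

def COR : ℕ := 9144599360465614537216584420856813977327299576369876218930453410649097483180025704260490729228809729887421182774184043540399795678099975006078571106948119258884099794771659860718220518489352700976669207858551238329094999062428335393376883532549458303478921498210324354352611052758671143000569300119713795512224885336925992398087286167951882002173394859143654628121966360490915550301535545443421466132497754519634453059866016527540774451314916924561293800515237512128474186484713914318824476680803951461105312309278299751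

def RCP : ℕ := 9144599360465614537216584420856813977327299576369876218930453410649097483180025704260490729228809729887421182774184043540399795678099975006078571106948119258884099794771659860718220518489352700976669207858551238329094999062428335393376883532549458303478921498210324354352611052758671143000569300119713795512224885336925992398087286167951882002173394859143654628121966360490915550301535545443421466132497754519634453059866016527540774451314916924561293800515237512128474186484713914318824476680803951461105312309278299751

theorem jd : jdescCheck chevE6 10665350953182619543419129748197819955115709721719923366535073317373372924840466865307713488087277311115567030050704773916862356812651146523460167135745551137782553559763467 977485867732307648282524061851965261139316914728342710461327747886202754211239830356067799688446841926603690142607396673041821837617696281978862071653980531242980163584769 = true := by decide +kernel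

theorem sp : simpCheck chevE6 = true := by decide +kernel

theorem co : corCheck chevE6 COR = true := by decide +kernel

theorem pm_0 : chunkOk (pmRow chevE6 COR) 0 36 = true := by decide +kernel

theorem pm_1 : chunkOk (pmRow chevE6 COR) 36 36 = true := by decide +kernel

theorem pm : ∀ r < chevE6.nroots, pmRow chevE6 COR r = true := by
  intro r hr
  have hr' : r < 72 := hr
  by_cases h0 : r < 36
  · exact chunk_spec _ 0 36 pm_0 r (by omega) (by omega)
  exact chunk_spec _ 36 36 pm_1 r (by omega) (by omega)

theorem rk_0 : chunkOk (rcRow chevE6 COR RCP) 0 36 = true := by decide +kernel

theorem rk_1 : chunkOk (rcRow chevE6 COR RCP) 36 36 = true := by decide +kernel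

theorem rk : ∀ r < chevE6.nroots, rcRow chevE6 COR RCP r = true := by
  intro r hr
  have hr' : r < 72 := hr
  by_cases h0 : r < 36
  · exact chunk_spec _ 0 36 rk_0 r (by omega) (by omega)
  exact chunk_spec _ 36 36 rk_1 r (by omega) (by omega)

theorem pd : ParData chevE6 := ⟨⟨_, _, jd⟩, sp, ⟨COR, RCP, co, pm, rk⟩⟩

end Cfsg.Agent.Lib.Helper7.ParE6
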