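import Cfsg.Agent.Lib.Helper7.ChevPar
import Cfsg.Prelude.Def_ChevF4

set_option autoImplicit false
set_option maxRecDepth 1000000

namespace Cfsg.Agent.Lib.Helper7.ParF4
open Cfsg.Lie Cfsg.Agent.Lib.Helper7.ChevPar

def COR : ℕ := 1041051507342357115753652640645055979564153177543821134519030871562266089151798713197422947084649990566721418336899905909286465281880812822481298109348097667558868402827580771695631013014298138322560358871179898487703131736055965031

def RCP : ℕ := 1041833274292016043000269155843206394471266916112457439085816790804815346532943482031450675788796047906237763560192541202165794517984347027398114553198091088314917712201796461136432216242827958383307406181805499032560661207391298886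

theorem jd : jdescCheck chevF4 1235535474294835108523616616310325262306704775624697669254258018169508284227562783531836652756885507854978414675720 462947062458960781867509459249122969501853698810668929446558124968027717592364738587815522675024845812825942196739 = true := by decide +kernel

theorem sp : simpCheck chevF4 = true := by decide +kernel

theorem co : corCheck chevF4 COR = true := by decide +kernel

theorem pm_0 : chunkOk (pmRow chevF4 COR) 0 48 = true := by decide +kernel

theorem pm : ∀ r < chevF4.nroots, pmRow chevF4 COR r = true := by
  intro r hr
  have hr' : r < 48 := hr
  exact chunk_spec _ 0 48 pm_0 r (by omega) (by omega)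

theorem rk_0 : chunkOk (rcRow chevF4 COR RCP) 0 48 = true := by decide +kernel

theorem rk : ∀ r < chevF4.nroots, rcRow chevF4 COR RCP r = true := by
  intro r hr
  have hr' : r < 48 := hr
  exact chunk_spec _ 0 48 rk_0 r (by omega) (by omega)

theorem pd : ParData chevF4 := ⟨⟨_, _, jd⟩, sp, ⟨COR, RCP, co, pm, rk⟩⟩

end Cfsg.Agent.Lib.Helper7.ParF4
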