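import Cfsg.Agent.Lib.Helper7.ParG2
import Cfsg.Agent.Lib.Helper7.ParB2
import Cfsg.Agent.Lib.Helper7.ParD4
import Cfsg.Agent.Lib.Helper7.ParF4
import Cfsg.Agent.Lib.Helper7.ParE6
import Cfsg.Agent.Lib.Helper7.ParE7
import Cfsg.Agent.Lib.Helper7.ParE8

set_option autoImplicit false

namespace Cfsg.Agent.Lib.Helper7.ParData
open Cfsg.Lie Cfsg.Agent.Lib.Helper7.ChevPar

theorem parData_of_mem (D : ChevalleyDatum)
    (hD : D ∈ [chevG2, chevB2, chevD4, chevF4, chevE6, chevE7, chevE8]) : ParData D := by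
  simp only [List.mem_cons, List.not_mem_nil, or_false] at hD
  rcases hD with rfl | rfl | rfl | rfl | rfl | rfl | rfl
  · exact Cfsg.Agent.Lib.Helper7.ParG2.pd
  · exact Cfsg.Agent.Lib.Helper7.ParB2.pd
  · exact Cfsg.Agent.Lib.Helper7.ParD4.pd
  · exact Cfsg.Agent.Lib.Helper7.ParF4.pd
  · exact Cfsg.Agent.Lib.Helper7.ParE6.pd
  · exact Cfsg.Agent.Lib.Helper7.ParE7.pd
  · exact Cfsg.Agent.Lib.Helper7.ParE8.pd

end Cfsg.Agent.Lib.Helper7.ParData
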