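import Cfsg.Agent.Lib.Helper7.ChevPar
import Cfsg.Prelude.Def_ChevG2

set_option autoImplicit false
set_option maxRecDepth 1000000

namespace Cfsg.Agent.Lib.Helper7.ParG2
open Cfsg.Lie Cfsg.Agent.Lib.Helper7.ChevPar

def COR : ℕ := 52488814092936629370832189287

def RCP : ℕ := 53110050258195286579817641317

theorem jd : jdescCheck chevG2 930896566794995280476701187 309485028268089142451109889 = true := by decide +kernel

theorem sp : simpCheck chevG2 = true := by decide +kernel

theorem co : corCheck chevG2 COR = true := by decide +kernel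

theorem pm_0 : chunkOk (pmRow chevG2 COR) 0 12 = true := by decide +kernel

theorem pm : ∀ r < chevG2.nroots, pmRow chevG2 COR r = true := by
  intro r hr
  have hr' : r < 12 := hr
  exact chunk_spec _ 0 12 pm_0 r (by omega) (by omega)

theorem rk_0 : chunkOk (rcRow chevG2 COR RCP) 0 12 = true := by decide +kernel

theorem rk : ∀ r < chevG2.nroots, rcRow chevG2 COR RCP r = true := by
  intro r hr
  have hr' : r < 12 := hr
  exact chunk_spec _ 0 12 rk_0 r (by omega) (by omega)

theorem pd : ParData chevG2 := ⟨⟨_, _, jd⟩, sp, ⟨COR, RCP, co, pm, rk⟩⟩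

end Cfsg.Agent.Lib.Helper7.ParG2
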