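import Cfsg.Agent.Lib.Helper7.ReeSyl2
import Cfsg.Agent.Lib.Helper7.ReeSyl
import Cfsg.Agent.Lib.Helper7.ReeOrd3
import Cfsg.Agent.Lib.Helper7.ReeGen

set_option autoImplicit false
set_option maxHeartbeats 400000

namespace Cfsg.Agent.Lib.Helper7.Ree3A
open Cfsg.Lie Cfsg.Agent.Lib.Helper7.ChevEngine Cfsg.Agent.Lib.Helper7.ChevTorus
  Cfsg.Agent.Lib.Helper7.ReeFix Cfsg.Agent.Lib.Helper7.ReeMain Cfsg.Agent.Lib.Helper7.ReeSg
  Cfsg.Agent.Lib.Helper7.ReeTorus Cfsg.Agent.Lib.Helper7.ReeTorMem Cfsg.Agent.Lib.Helper7.ReeOrder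
  Cfsg.Agent.Lib.Helper7.ReeBN Cfsg.Agent.Lib.Helper7.ReePerf Cfsg.Agent.Lib.Helper7.ReeH
  Cfsg.Agent.Lib.Helper7.ReeU Cfsg.Agent.Lib.Helper7.ReeFpf
  Cfsg.Agent.Lib.Helper7.ChevRel
  Cfsg.Agent.Lib.Helper7.ReeStab Cfsg.Agent.Lib.Helper7.SL2Hom
  Cfsg.Agent.Lib.Helper7.TwCore Cfsg.Agent.Lib.Helper7.ReeCent Cfsg.Agent.Lib.Helper7.ReeSyl2
  Cfsg.Agent.Lib.Helper7.ReeSyl Cfsg.Agent.Lib.Helper7.ChevBNP Cfsg.Agent.Lib.Helper7.ChevBN3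
  Cfsg.Agent.Lib.Helper7.ReeOrd3

abbrev K3 : Type := ZMod 3

theorem hK3 : Fintype.card K3 = 3 ^ (2 * 0 + 1) := by
  show Fintype.card (ZMod 3) = 3 ^ (2 * 0 + 1)
  rw [ZMod.card]
  norm_num

theorem fr3 : Frob K3 0 := frob_of_card hK3

abbrev R3 : Subgroup (GL chevG2.Idx K3) := twistedG2 K3 (3 ^ 0)

abbrev U3 : Subgroup ↥R3 := (chevG2.posUnipotent K3 ⊓ R3).subgroupOf R3

theorem units3 (μ : K3ˣ) : μ = 1 ∨ μ = -1 := by
  have h : ∀ x : K3, x ≠ 0 → x = 1 ∨ x = -1 := by decide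
  rcases h (μ : K3) μ.ne_zero with h1 | h1
  · left
    exact Units.ext h1
  · right
    apply Units.ext
    rw [h1, Units.val_neg, Units.val_one]

theorem mem_U3 (x : ↥R3) : x ∈ U3 ↔ (x : GL chevG2.Idx K3) ∈ chevG2.posUnipotent K3 := by
  rw [Subgroup.mem_subgroupOf, Subgroup.mem_inf]
  exact ⟨fun h => h.1, fun h => ⟨h, x.2⟩⟩

theorem card_U3 : Nat.card ↥U3 = 27 := by
  have hle : chevG2.posUnipotent K3 ⊓ R3 ≤ R3 := inf_le_right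
  rw [Nat.card_congr (Subgroup.subgroupOfEquivOfLe hle).toEquiv, (ree_main hK3).2]
  norm_num

theorem card_R3 : Nat.card ↥R3 = 1512 := by
  rw [card_ree hK3]
  norm_num

theorem index_U3 : U3.index = 56 := by
  have h := Subgroup.card_mul_index U3
  rw [card_U3, card_R3] at h
  omega

noncomputable def cR : ↥R3 := ⟨uu 0 ((0 : K3), (1 : K3), (0 : K3)), uu_memR 0 _⟩

noncomputable def eR : ↥R3 := ⟨uu 0 ((1 : K3), (1 : K3), (0 : K3)), uu_memR 0 _⟩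

theorem cR_val : (cR : GL chevG2.Idx K3) = uu 0 ((0 : K3), (1 : K3), (0 : K3)) := rfl

theorem eR_val : (eR : GL chevG2.Idx K3) = uu 0 ((1 : K3), (1 : K3), (0 : K3)) := rfl

theorem k3_a : (-1 : K3) ≠ 0 := by decide

theorem k3_b : (0 : K3) ≠ 1 := by decide

theorem k3_c : (1 : K3) ≠ 0 := by decide

theorem cR_mem : cR ∈ U3 := (mem_U3 _).mpr (uu_memU 0 _)

theorem eR_mem : eR ∈ U3 := (mem_U3 _).mpr (uu_memU 0 _)

theorem uu_pow9 (p : K3 × K3 × K3) : uu 0 p ^ 9 = 1 := by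
  obtain ⟨t, u, v⟩ := p
  have e : (9 : ℕ) = 3 * 3 := rfl
  rw [e, pow_mul, uu_cube fr3, uu_cube fr3]
  have z : -((0 : K3) ^ 2 * ((0 : K3) ^ 3 ^ 0) ^ 3) = 0 := by simp
  rw [z]
  exact uu_zero fr3

theorem cR_pow3 : cR ^ 3 = 1 := by
  apply Subtype.ext
  show uu 0 ((0 : K3), (1 : K3), (0 : K3)) ^ 3 = 1
  rw [uu_cube fr3]
  have z : -((0 : K3) ^ 2 * ((0 : K3) ^ 3 ^ 0) ^ 3) = 0 := by simp
  rw [z]
  exact uu_zero fr3

theorem c_ne_one : uu 0 ((0 : K3), (1 : K3), (0 : K3)) ≠ 1 := by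
  intro h1
  rw [← uu_zero fr3] at h1
  have h4 : (1 : K3) = 0 := congrArg (fun p : K3 × K3 × K3 => p.2.1) (uu_inj fr3 _ _ h1)
  exact k3_c h4

theorem eR_pow3 : (eR : GL chevG2.Idx K3) ^ 3 = uu 0 ((0 : K3), (0 : K3), (-1 : K3)) := by
  show uu 0 ((1 : K3), (1 : K3), (0 : K3)) ^ 3 = _
  rw [uu_cube fr3]
  have z : -((1 : K3) ^ 2 * ((1 : K3) ^ 3 ^ 0) ^ 3) = -1 := by simp
  rw [z]

theorem e_order : orderOf (uu 0 ((1 : K3), (1 : K3), (0 : K3))) = 9 := by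
  haveI : Fact (Nat.Prime 3) := ⟨by norm_num⟩
  have h := orderOf_eq_prime_pow (x := uu 0 ((1 : K3), (1 : K3), (0 : K3))) (p := 3) (n := 1) ?_ ?_
  · exact h.trans (by norm_num)
  · intro h1
    rw [pow_one] at h1
    have h2 : (eR : GL chevG2.Idx K3) ^ 3 = 1 := h1
    rw [eR_pow3, ← uu_zero fr3] at h2
    have h4 : (-1 : K3) = 0 := congrArg (fun p : K3 × K3 × K3 => p.2.2) (uu_inj fr3 _ _ h2)
    exact k3_a h4
  · have e : (3 : ℕ) ^ (1 + 1) = 9 := by norm_num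
    rw [e]
    exact uu_pow9 _

theorem eU_order : orderOf (⟨eR, eR_mem⟩ : ↥U3) = 9 := by
  rw [← Subgroup.orderOf_coe, ← Subgroup.orderOf_coe]
  exact e_order

noncomputable def U0 : Subgroup ↥U3 := Subgroup.zpowers (⟨eR, eR_mem⟩ : ↥U3)

theorem card_U0 : Nat.card ↥U0 = 9 := by
  unfold U0
  rw [Nat.card_zpowers, eU_order]

theorem index_U0 : U0.index = 3 := by
  have h := Subgroup.card_mul_index U0
  rw [card_U0, card_U3] at h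
  omega

theorem U0_normal : U0.Normal := by
  apply Subgroup.normal_of_index_eq_minFac_card
  rw [index_U0, card_U3]
  norm_num

theorem comm_le_U0 : commutator ↥U3 ≤ U0 := by
  haveI : Fact (Nat.Prime 3) := ⟨by norm_num⟩
  haveI := U0_normal
  have hc : Nat.card (↥U3 ⧸ U0) = 3 := by
    rw [← Subgroup.index_eq_card, index_U0]
  haveI : IsCyclic (↥U3 ⧸ U0) := isCyclic_of_prime_card hc
  exact Subgroup.Normal.quotient_commutative_iff_commutator_le.mp IsCyclic.isMulCommutative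

theorem cU_not_mem : (⟨cR, cR_mem⟩ : ↥U3) ∉ U0 := by
  intro h
  obtain ⟨k, hk⟩ := Subgroup.mem_zpowers_iff.mp h
  have hk2 : (⟨eR, eR_mem⟩ : ↥U3) ^ (k % 9) = ⟨cR, cR_mem⟩ := by
    have h0 := zpow_mod_orderOf (⟨eR, eR_mem⟩ : ↥U3) k
    rw [eU_order] at h0
    rw [← hk]
    exact h0
  obtain ⟨r, hr, hr9⟩ : ∃ r : ℕ, k % 9 = (r : ℤ) ∧ r < 9 := ⟨(k % 9).toNat, by omega, by omega⟩
  rw [hr, zpow_natCast] at hk2
  have h3 : (⟨eR, eR_mem⟩ : ↥U3) ^ (r * 3) = 1 := by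
    rw [pow_mul, hk2]
    exact Subtype.ext cR_pow3
  have hd : 9 ∣ r * 3 := by
    have h0 := orderOf_dvd_of_pow_eq_one h3
    rwa [eU_order] at h0
  have hcoe1 : ((⟨eR, eR_mem⟩ : ↥U3) : ↥R3) ^ r = cR := by
    rw [← Subgroup.coe_pow, hk2]
  have hcoe1' : eR ^ r = cR := hcoe1
  have hcoe : (eR : GL chevG2.Idx K3) ^ r = (cR : GL chevG2.Idx K3) := by
    rw [← Subgroup.coe_pow, hcoe1']
  rw [cR_val] at hcoe
  have hr3 : r = 0 ∨ r = 3 ∨ r = 6 := by omega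
  rcases hr3 with rfl | rfl | rfl
  · rw [pow_zero, ← uu_zero fr3] at hcoe
    have h4 : (0 : K3) = 1 := congrArg (fun p : K3 × K3 × K3 => p.2.1) (uu_inj fr3 _ _ hcoe)
    exact k3_b h4
  · rw [eR_pow3] at hcoe
    have h4 : (0 : K3) = 1 := congrArg (fun p : K3 × K3 × K3 => p.2.1) (uu_inj fr3 _ _ hcoe)
    exact k3_b h4
  · have e6 : (eR : GL chevG2.Idx K3) ^ 6 = uu 0 ((0 : K3), (0 : K3), (-1 : K3) + (-1 : K3)) := by
      have e : (6 : ℕ) = 3 * 2 := rfl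
      rw [e, pow_mul, eR_pow3, pow_two, uu_z_add fr3]
    rw [e6] at hcoe
    have h4 : (0 : K3) = 1 := congrArg (fun p : K3 × K3 × K3 => p.2.1) (uu_inj fr3 _ _ hcoe)
    exact k3_b h4

theorem of_c_ne : Abelianization.of (⟨cR, cR_mem⟩ : ↥U3) ≠ 1 := by
  intro h
  have h1 : (⟨cR, cR_mem⟩ : ↥U3) ∈ (Abelianization.of : ↥U3 →* Abelianization ↥U3).ker :=
    MonoidHom.mem_ker.mpr h
  rw [Abelianization.ker_of] at h1
  exact cU_not_mem (comm_le_U0 h1)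

theorem conj_form (k : ↥R3) (h : k⁻¹ * cR * k ∈ U3) :
    ∃ u₂ : ↥U3, k⁻¹ * cR * k = (u₂ : ↥R3)⁻¹ * cR * (u₂ : ↥R3) := by
  have hkB : ((k : GL chevG2.Idx K3))⁻¹ ∈ chevG2.borelSubgroup K3 := by
    refine key_ree hK3 _ (uu 0 ((0 : K3), (1 : K3), (0 : K3))) (inv_mem k.2) (uu_memU 0 _) ?_
      c_ne_one
    rw [inv_inv]
    exact (mem_U3 _).mp h
  have hkB' : (k : GL chevG2.Idx K3) ∈ chevG2.borelSubgroup K3 := by
    have h0 := inv_mem hkB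
    rwa [inv_inv] at h0
  obtain ⟨σ, hσ⟩ := exists_sigma fr3
  rcases fx_eq hK3 σ hσ (k : GL chevG2.Idx K3) (twisted_le_Fx fr3 σ hσ k.2) with
    ⟨p, μ, e⟩ | ⟨p, μ, p', e⟩
  · rcases units3 μ with rfl | rfl
    · rw [th_one, mul_one] at e
      refine ⟨⟨⟨uu 0 p, uu_memR 0 p⟩, (mem_U3 _).mpr (uu_memU 0 p)⟩, ?_⟩
      apply Subtype.ext
      show ((k : GL chevG2.Idx K3))⁻¹ * uu 0 ((0 : K3), (1 : K3), (0 : K3)) *
        (k : GL chevG2.Idx K3) = (uu 0 p)⁻¹ * uu 0 ((0 : K3), (1 : K3), (0 : K3)) * uu 0 p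
      rw [e]
    · obtain ⟨t, u, v⟩ := p
      have e2 := conj_neg fr3 t u v
      have hai : (th 0 (-1 : K3ˣ))⁻¹ = th 0 (-1 : K3ˣ) := inv_eq_of_mul_eq_one_left (a_sq 0)
      have hac : th 0 (-1 : K3ˣ) * uu 0 ((0 : K3), (1 : K3), (0 : K3)) * (th 0 (-1 : K3ˣ))⁻¹ =
          uu 0 ((0 : K3), (1 : K3), (0 : K3)) := by
        rw [a_comm_uu fr3, mul_inv_cancel_right]
      refine ⟨⟨⟨uu 0 (-t, u, -v), uu_memR 0 _⟩, (mem_U3 _).mpr (uu_memU 0 _)⟩, ?_⟩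
      apply Subtype.ext
      show ((k : GL chevG2.Idx K3))⁻¹ * uu 0 ((0 : K3), (1 : K3), (0 : K3)) *
        (k : GL chevG2.Idx K3) =
        (uu 0 (-t, u, -v))⁻¹ * uu 0 ((0 : K3), (1 : K3), (0 : K3)) * uu 0 (-t, u, -v)
      rw [e, ← e2]
      calc (uu 0 (t, u, v) * th 0 (-1 : K3ˣ))⁻¹ * uu 0 ((0 : K3), (1 : K3), (0 : K3)) *
            (uu 0 (t, u, v) * th 0 (-1 : K3ˣ))
          = (th 0 (-1 : K3ˣ))⁻¹ * ((uu 0 (t, u, v))⁻¹ * uu 0 ((0 : K3), (1 : K3), (0 : K3)) *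
              uu 0 (t, u, v)) * th 0 (-1 : K3ˣ) := by group
        _ = th 0 (-1 : K3ˣ) * ((uu 0 (t, u, v))⁻¹ * uu 0 ((0 : K3), (1 : K3), (0 : K3)) *
              uu 0 (t, u, v)) * (th 0 (-1 : K3ˣ))⁻¹ := by rw [hai]
        _ = (th 0 (-1 : K3ˣ) * uu 0 (t, u, v) * (th 0 (-1 : K3ˣ))⁻¹)⁻¹ *
              (th 0 (-1 : K3ˣ) * uu 0 ((0 : K3), (1 : K3), (0 : K3)) * (th 0 (-1 : K3ˣ))⁻¹) *
              (th 0 (-1 : K3ˣ) * uu 0 (t, u, v) * (th 0 (-1 : K3ˣ))⁻¹) := by group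
        _ = _ := by rw [hac]
  · exfalso
    apply n0_not_B (K := K3)
    have h1 : n0 K3 = (uu 0 p * th 0 μ)⁻¹ * (k : GL chevG2.Idx K3) * (uu 0 p')⁻¹ := by
      rw [e]
      group
    rw [h1]
    exact mul_mem (mul_mem (inv_mem (mul_mem (U_le_B chevG2 (uu_memU 0 p))
      (H_le_B chevG2 (th_memH 0 μ)))) hkB') (inv_mem (U_le_B chevG2 (uu_memU 0 p')))

theorem key_factor (k : ↥R3) (n : ℕ) (hn : n ∣ 3) (hmem : k⁻¹ * cR ^ n * k ∈ U3) :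
    Abelianization.of (⟨k⁻¹ * cR ^ n * k, hmem⟩ : ↥U3) =
      Abelianization.of (⟨cR, cR_mem⟩ : ↥U3) ^ n := by
  rcases (Nat.dvd_prime Nat.prime_three).mp hn with rfl | rfl
  · have hmem' : k⁻¹ * cR * k ∈ U3 := by
      have h0 := hmem
      rw [pow_one] at h0
      exact h0
    obtain ⟨u₂, hu₂⟩ := conj_form k hmem'
    have e : (⟨k⁻¹ * cR ^ 1 * k, hmem⟩ : ↥U3) = u₂⁻¹ * ⟨cR, cR_mem⟩ * u₂ := by
      apply Subtype.ext
      show k⁻¹ * cR ^ 1 * k = (u₂ : ↥R3)⁻¹ * cR * (u₂ : ↥R3)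
      rw [pow_one]
      exact hu₂
    rw [e, map_mul, map_mul, map_inv, pow_one,
      mul_comm _ (Abelianization.of (⟨cR, cR_mem⟩ : ↥U3)), mul_assoc, inv_mul_cancel, mul_one]
  · have e : (⟨k⁻¹ * cR ^ 3 * k, hmem⟩ : ↥U3) = 1 := by
      apply Subtype.ext
      show k⁻¹ * cR ^ 3 * k = 1
      rw [cR_pow3]
      group
    have e2 : (⟨cR, cR_mem⟩ : ↥U3) ^ 3 = 1 := Subtype.ext cR_pow3
    rw [e, map_one, ← map_pow, e2, map_one]

noncomputable def Tr : ↥R3 →* Abelianization ↥U3 :=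
  (Abelianization.of : ↥U3 →* Abelianization ↥U3).transfer

theorem Tr_c : Tr cR = Abelianization.of (⟨cR, cR_mem⟩ : ↥U3) ^ U3.index := by
  classical
  have : Fintype (Quotient (MulAction.orbitRel (Subgroup.zpowers cR) (↥R3 ⧸ U3))) :=
    Fintype.ofFinite _
  unfold Tr
  rw [Subgroup.index_eq_sum_minimalPeriod U3 cR, ← Finset.prod_pow_eq_pow_sum,
    MonoidHom.transfer_eq_prod_quotient_orbitRel_zpowers_quot]
  apply Finset.prod_congr rfl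
  intro q _
  apply key_factor
  apply Function.IsPeriodicPt.minimalPeriod_dvd
  rw [MulAction.isPeriodicPt_smul_iff, cR_pow3, one_smul]

theorem Tr_c_ne : Tr cR ≠ 1 := by
  rw [Tr_c, index_U3]
  intro h
  have h3 : Abelianization.of (⟨cR, cR_mem⟩ : ↥U3) ^ 3 = 1 := by
    have e2 : (⟨cR, cR_mem⟩ : ↥U3) ^ 3 = 1 := Subtype.ext cR_pow3
    rw [← map_pow, e2, map_one]
  have h1 : orderOf (Abelianization.of (⟨cR, cR_mem⟩ : ↥U3)) ∣ Nat.gcd 56 3 :=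
    Nat.dvd_gcd (orderOf_dvd_of_pow_eq_one h) (orderOf_dvd_of_pow_eq_one h3)
  have h2 : Nat.gcd 56 3 = 1 := by decide
  rw [h2, Nat.dvd_one, orderOf_eq_one_iff] at h1
  exact of_c_ne h1

noncomputable def N3 : Subgroup ↥R3 := Tr.ker

theorem N3_normal : N3.Normal := by
  unfold N3
  infer_instance

theorem cR_not_mem_N3 : cR ∉ N3 := fun h => Tr_c_ne (MonoidHom.mem_ker.mp h)

theorem comm_le_N3 : commutator ↥R3 ≤ N3 := Abelianization.commutator_subset_ker Tr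

theorem card_ab_dvd : Nat.card (Abelianization ↥U3) ∣ 27 := by
  have h2 : Nat.card (Abelianization ↥U3) ∣ Nat.card ↥U3 :=
    Subgroup.card_quotient_dvd_card (commutator ↥U3)
  rwa [card_U3] at h2

theorem N3_index_dvd : N3.index ∣ 27 := by
  unfold N3
  rw [Subgroup.index_ker]
  exact (Subgroup.card_subgroup_dvd_card _).trans card_ab_dvd

theorem sq_mem_N3 (x : ↥R3) (hx : x * x = 1) : x ∈ N3 := by
  unfold N3
  rw [MonoidHom.mem_ker]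
  have h2 : Tr x ^ 2 = 1 := by rw [← map_pow, pow_two, hx, map_one]
  have h27 : Tr x ^ 27 = 1 := by
    obtain ⟨d, hd⟩ := card_ab_dvd
    rw [hd, pow_mul, pow_card_eq_one', one_pow]
  have h1 : orderOf (Tr x) ∣ Nat.gcd 2 27 :=
    Nat.dvd_gcd (orderOf_dvd_of_pow_eq_one h2) (orderOf_dvd_of_pow_eq_one h27)
  have e : Nat.gcd 2 27 = 1 := by decide
  rw [e, Nat.dvd_one, orderOf_eq_one_iff] at h1
  exact h1

end Cfsg.Agent.Lib.Helper7.Ree3A
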