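import Cfsg.Agent.Lib.Helper7.Ree3A

set_option autoImplicit false
set_option maxHeartbeats 400000

namespace Cfsg.Agent.Lib.Helper7.Ree3B
open Cfsg.Lie Cfsg.Agent.Lib.Helper7.ChevEngine Cfsg.Agent.Lib.Helper7.ChevTorus
  Cfsg.Agent.Lib.Helper7.ReeFix Cfsg.Agent.Lib.Helper7.ReeMain Cfsg.Agent.Lib.Helper7.ReeSg
  Cfsg.Agent.Lib.Helper7.ReeTorus Cfsg.Agent.Lib.Helper7.ReeTorMem Cfsg.Agent.Lib.Helper7.ReeOrder
  Cfsg.Agent.Lib.Helper7.ReeBN Cfsg.Agent.Lib.Helper7.ReePerf Cfsg.Agent.Lib.Helper7.ReeH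
  Cfsg.Agent.Lib.Helper7.ReeU Cfsg.Agent.Lib.Helper7.ReeFpf
  Cfsg.Agent.Lib.Helper7.ChevRel
  Cfsg.Agent.Lib.Helper7.ReeStab Cfsg.Agent.Lib.Helper7.SL2Hom
  Cfsg.Agent.Lib.Helper7.TwCore Cfsg.Agent.Lib.Helper7.ReeCent Cfsg.Agent.Lib.Helper7.ReeSyl2
  Cfsg.Agent.Lib.Helper7.ReeSyl Cfsg.Agent.Lib.Helper7.ChevBNP Cfsg.Agent.Lib.Helper7.ChevBN3
  Cfsg.Agent.Lib.Helper7.ReeOrd3 Cfsg.Agent.Lib.Helper7.Ree3A

section
variable {K : Type*} [Field K]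

theorem exists_fused' [Fintype K] {m : ℕ} (hT : ∀ (ψ : ↥(twistedG2 K (3 ^ m)) →* M2) (x : ↥(twistedG2 K (3 ^ m))), ψ x = 1) (hK : Fintype.card K = 3 ^ (2 * m + 1))
    (fr : Frob K m) (α β : K) (h : α ^ 2 + β ^ 2 = -1) :
    ∃ g₀ : ↥(twistedG2 K (3 ^ m)), g₀⁻¹ * aR fr * g₀ ∈ (FF fr α β h).range ∧ g₀⁻¹ * aR fr * g₀ ≠ aR fr := by
  by_contra hcon
  push_neg at hcon
  have haE : aR fr ∈ (FF fr α β h).range := ⟨gA3, FF_A fr α β h⟩
  have hϕ : ∃ ϕ : ↥(FF fr α β h).range →* M2, ϕ ⟨aR fr, haE⟩ = Multiplicative.ofAdd 1 := by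
    refine ⟨(MonoidHom.fst M2 (M2 × M2)).comp
      (MonoidHom.ofInjective (FF_inj fr α β h)).symm.toMonoidHom, ?_⟩
    have e1 : (MonoidHom.ofInjective (FF_inj fr α β h)).symm ⟨aR fr, haE⟩ = gA3 := by
      rw [MulEquiv.symm_apply_eq]
      apply Subtype.ext
      exact (FF_A fr α β h).symm
    show ((MonoidHom.ofInjective (FF_inj fr α β h)).symm ⟨aR fr, haE⟩).1 = _
    rw [e1]
    rfl
  obtain ⟨ϕ, hϕa⟩ := hϕ
  have key : ∀ (k : ℕ) (g₀ : ↥(twistedG2 K (3 ^ m))), g₀⁻¹ * aR fr ^ k * g₀ ∈ (FF fr α β h).range →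
      g₀⁻¹ * aR fr ^ k * g₀ = aR fr ^ k := by
    intro k g₀ hk
    rcases Nat.even_or_odd k with ⟨j, rfl⟩ | ⟨j, rfl⟩
    · have e2 : aR fr ^ (j + j) = 1 := by
        rw [← two_mul, pow_mul, pow_two, aR_sq, one_pow]
      rw [e2, mul_one, inv_mul_cancel]
    · have e2 : aR fr ^ (2 * j + 1) = aR fr := by
        rw [pow_succ, pow_mul, pow_two, aR_sq, one_pow, one_mul]
      rw [e2] at hk ⊢
      exact hcon g₀ hk
  have htr := MonoidHom.transfer_eq_pow ϕ (aR fr) key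
  have hidx : (FF fr α β h).range.index % 2 = 1 := by
    have h1 := Subgroup.card_mul_index (FF fr α β h).range
    rw [E_card, card_ree hK] at h1
    have h2 := card_mod16 m
    rw [← h1] at h2
    omega
  have hpow : aR fr ^ (FF fr α β h).range.index = aR fr := by
    obtain ⟨j, hj⟩ := Nat.odd_iff.mpr hidx
    rw [hj, pow_succ, pow_mul, pow_two, aR_sq, one_pow, one_mul]
  have htriv : ϕ.transfer (aR fr) = 1 := hT _ _
  rw [htriv] at htr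
  have e3 : ∀ (hx : aR fr ^ (FF fr α β h).range.index ∈ (FF fr α β h).range),
      ϕ ⟨aR fr ^ (FF fr α β h).range.index, hx⟩ = ϕ ⟨aR fr, haE⟩ :=
    fun hx => congrArg ϕ (Subtype.ext hpow)
  rw [e3, hϕa] at htr
  exact z2_ne htr.symm

theorem exists_norm_move' [Fintype K] {m : ℕ} (hT : ∀ (ψ : ↥(twistedG2 K (3 ^ m)) →* M2) (x : ↥(twistedG2 K (3 ^ m))), ψ x = 1) (hK : Fintype.card K = 3 ^ (2 * m + 1))
    (fr : Frob K m) (α β : K) (h : α ^ 2 + β ^ 2 = -1) :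
    ∃ n ∈ Subgroup.normalizer (((FF fr α β h).range : Subgroup ↥(twistedG2 K (3 ^ m))) : Set ↥(twistedG2 K (3 ^ m))), n⁻¹ * aR fr * n ∈ (FF fr α β h).range ∧ n⁻¹ * aR fr * n ≠ aR fr := by
  obtain ⟨g₀, hg1, hg2⟩ := exists_fused' hT hK fr α β h
  obtain ⟨Q, hQ⟩ := E_sylow hK fr α β h
  have e8 : (Q : Set ↥(twistedG2 K (3 ^ m))) = (((FF fr α β h).range : Subgroup ↥(twistedG2 K (3 ^ m))) : Set ↥(twistedG2 K (3 ^ m))) := by
    rw [← hQ]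
    rfl
  have hcent : ∀ x ∈ (FF fr α β h).range, x ∈ Subgroup.centralizer (Q : Set ↥(twistedG2 K (3 ^ m))) := by
    intro x hx
    rw [Subgroup.mem_centralizer_iff]
    intro y hy
    rw [e8] at hy
    exact E_comm fr α β h y x hy hx
  obtain ⟨n, hn, hn2⟩ := Sylow.conj_eq_normalizer_conj_of_mem_centralizer Q (aR fr) g₀
    (hcent _ ⟨gA3, FF_A fr α β h⟩) (hcent _ hg1)
  rw [e8] at hn
  refine ⟨n, hn, ?_, ?_⟩
  · rw [← hn2]
    exact hg1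
  · rw [← hn2]
    exact hg2

theorem orbit_all' [Fintype K] {m : ℕ} (hT : ∀ (ψ : ↥(twistedG2 K (3 ^ m)) →* M2) (x : ↥(twistedG2 K (3 ^ m))), ψ x = 1) (hK : Fintype.card K = 3 ^ (2 * m + 1))
    (fr : Frob K m) (α β : K) (h : α ^ 2 + β ^ 2 = -1) (t0 : Z3) (ht0 : t0 ≠ 1) :
    ∃ n ∈ Subgroup.normalizer (((FF fr α β h).range : Subgroup ↥(twistedG2 K (3 ^ m))) : Set ↥(twistedG2 K (3 ^ m))), n * aR fr * n⁻¹ = FF fr α β h t0 := by
  classical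
  have hv := v_norm fr α β h
  have haE : aR fr ∈ (FF fr α β h).range := ⟨gA3, FF_A fr α β h⟩
  obtain ⟨O', hO'⟩ : ∃ O' : Finset Z3, ∀ t, t ∈ O' ↔
      ∃ n ∈ Subgroup.normalizer (((FF fr α β h).range : Subgroup ↥(twistedG2 K (3 ^ m))) : Set ↥(twistedG2 K (3 ^ m))), n * aR fr * n⁻¹ = FF fr α β h t :=
    ⟨Finset.univ.filter (fun t => ∃ n ∈ Subgroup.normalizer (((FF fr α β h).range : Subgroup ↥(twistedG2 K (3 ^ m))) : Set ↥(twistedG2 K (3 ^ m))), n * aR fr * n⁻¹ = FF fr α β h t), fun t => by simp⟩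
  have hch : ∀ t : {t : Z3 // t ∈ O'}, ∃ n ∈ Subgroup.normalizer (((FF fr α β h).range : Subgroup ↥(twistedG2 K (3 ^ m))) : Set ↥(twistedG2 K (3 ^ m))), n * aR fr * n⁻¹ = FF fr α β h t.1 :=
    fun t => (hO' t.1).mp t.2
  choose nn hnnN hnn using hch
  let Ψ : {t : Z3 // t ∈ O'} × ↥(Subgroup.normalizer (((FF fr α β h).range : Subgroup ↥(twistedG2 K (3 ^ m))) : Set ↥(twistedG2 K (3 ^ m))) ⊓ Subgroup.centralizer {aR fr}) → ↥(Subgroup.normalizer (((FF fr α β h).range : Subgroup ↥(twistedG2 K (3 ^ m))) : Set ↥(twistedG2 K (3 ^ m)))) :=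
    fun p => ⟨nn p.1 * (p.2 : ↥(twistedG2 K (3 ^ m))), mul_mem (hnnN p.1) p.2.2.1⟩
  have hs : ∀ (t : {t : Z3 // t ∈ O'}) (s : ↥(Subgroup.normalizer (((FF fr α β h).range : Subgroup ↥(twistedG2 K (3 ^ m))) : Set ↥(twistedG2 K (3 ^ m))) ⊓ Subgroup.centralizer {aR fr})),
      (nn t * (s : ↥(twistedG2 K (3 ^ m)))) * aR fr * (nn t * (s : ↥(twistedG2 K (3 ^ m))))⁻¹ = FF fr α β h t.1 := by
    intro t s
    have hsa : (s : ↥(twistedG2 K (3 ^ m))) * aR fr = aR fr * (s : ↥(twistedG2 K (3 ^ m))) :=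
      Subgroup.mem_centralizer_singleton_iff.mp s.2.2
    have e1 : (nn t * (s : ↥(twistedG2 K (3 ^ m)))) * aR fr * (nn t * (s : ↥(twistedG2 K (3 ^ m))))⁻¹ =
        nn t * ((s : ↥(twistedG2 K (3 ^ m))) * aR fr * (s : ↥(twistedG2 K (3 ^ m)))⁻¹) * (nn t)⁻¹ := by group
    rw [e1, hsa, mul_inv_cancel_right, hnn]
  have hΨ : Function.Bijective Ψ := by
    constructor
    · rintro ⟨t, s⟩ ⟨t', s'⟩ hp
      have h1 : nn t * (s : ↥(twistedG2 K (3 ^ m))) = nn t' * (s' : ↥(twistedG2 K (3 ^ m))) :=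
        congrArg (fun y : ↥(Subgroup.normalizer (((FF fr α β h).range : Subgroup ↥(twistedG2 K (3 ^ m))) : Set ↥(twistedG2 K (3 ^ m)))) => (y : ↥(twistedG2 K (3 ^ m)))) hp
      have h2 := hs t s
      rw [h1, hs t' s'] at h2
      have ht : t' = t := Subtype.ext (FF_inj fr α β h h2)
      subst ht
      have hs' : (s : ↥(twistedG2 K (3 ^ m))) = s' := mul_left_cancel h1
      rw [Subtype.ext hs']
    · rintro ⟨n, hn⟩
      have hy : n * aR fr * n⁻¹ ∈ (FF fr α β h).range := (Subgroup.mem_normalizer_iff.mp hn _).mp haE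
      obtain ⟨t, ht⟩ := hy
      have htO : t ∈ O' := (hO' t).mpr ⟨n, hn, ht.symm⟩
      have hsN : (nn ⟨t, htO⟩)⁻¹ * n ∈ Subgroup.normalizer (((FF fr α β h).range : Subgroup ↥(twistedG2 K (3 ^ m))) : Set ↥(twistedG2 K (3 ^ m))) := mul_mem (inv_mem (hnnN _)) hn
      have hsC : (nn ⟨t, htO⟩)⁻¹ * n ∈ Subgroup.centralizer {aR fr} := by
        rw [Subgroup.mem_centralizer_singleton_iff]
        have e2 : n * aR fr * n⁻¹ = nn ⟨t, htO⟩ * aR fr * (nn ⟨t, htO⟩)⁻¹ := by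
          rw [hnn]
          exact ht.symm
        calc (nn ⟨t, htO⟩)⁻¹ * n * aR fr = (nn ⟨t, htO⟩)⁻¹ * (n * aR fr * n⁻¹) * n := by group
          _ = (nn ⟨t, htO⟩)⁻¹ * (nn ⟨t, htO⟩ * aR fr * (nn ⟨t, htO⟩)⁻¹) * n := by rw [e2]
          _ = aR fr * ((nn ⟨t, htO⟩)⁻¹ * n) := by group
      refine ⟨(⟨t, htO⟩, ⟨_, Subgroup.mem_inf.mpr ⟨hsN, hsC⟩⟩), ?_⟩
      apply Subtype.ext
      show nn ⟨t, htO⟩ * ((nn ⟨t, htO⟩)⁻¹ * n) = n
      group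
  have hcard : Nat.card ↥(Subgroup.normalizer (((FF fr α β h).range : Subgroup ↥(twistedG2 K (3 ^ m))) : Set ↥(twistedG2 K (3 ^ m)))) = O'.card * 24 := by
    rw [← Nat.card_congr (Equiv.ofBijective Ψ hΨ), Nat.card_prod, S0_card hK fr α β h,
      Nat.card_eq_fintype_card, Fintype.card_coe]
  have h1 : gA3 ∈ O' := (hO' _).mpr ⟨1, one_mem _, by rw [FF_A]; group⟩
  have h2 : (1 : Z3) ∉ O' := by
    intro hc
    obtain ⟨n, -, hn⟩ := (hO' _).mp hc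
    rw [map_one] at hn
    apply aR_ne fr
    have e : aR fr = n⁻¹ * (n * aR fr * n⁻¹) * n := by group
    rw [e, hn]
    group
  have h3 : ∀ t ∈ O', sgm t ∈ O' := by
    intro t ht
    obtain ⟨n, hn, hnt⟩ := (hO' _).mp ht
    refine (hO' _).mpr ⟨vR fr α β h * n, mul_mem hv hn, ?_⟩
    rw [← v_conj, ← hnt]
    group
  have h4 : ∃ t ∈ O', t ≠ gA3 := by
    obtain ⟨n, hn, hn1, hn2⟩ := exists_norm_move' hT hK fr α β h
    obtain ⟨t, ht⟩ := hn1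
    refine ⟨t, (hO' _).mpr ⟨n⁻¹, inv_mem hn, ?_⟩, ?_⟩
    · rw [ht, inv_inv]
    · intro hc
      apply hn2
      rw [← ht, hc, FF_A]
  have h5 : ¬ 16 ∣ O'.card * 24 := by
    rw [← hcard]
    intro hd
    have hd2 := hd.trans (Subgroup.card_subgroup_dvd_card (Subgroup.normalizer (((FF fr α β h).range : Subgroup ↥(twistedG2 K (3 ^ m))) : Set ↥(twistedG2 K (3 ^ m)))))
    rw [card_ree hK] at hd2
    have h6 := Nat.mod_eq_zero_of_dvd hd2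
    have h7 := card_mod16 m
    rw [h6] at h7
    norm_num at h7
  have h7 := comb3' O' h1 h2 h3 h4 h5
  by_contra hcon
  have htO : t0 ∉ O' := fun hc => hcon ((hO' t0).mp hc)
  have hsub : O' ⊆ (Finset.univ.erase (1 : Z3)).erase t0 := by
    intro s hs
    rw [Finset.mem_erase, Finset.mem_erase]
    exact ⟨fun e => htO (e ▸ hs), fun e => h2 (e ▸ hs), Finset.mem_univ _⟩
  have hle := Finset.card_le_card hsub
  rw [Finset.card_erase_of_mem (Finset.mem_erase.mpr ⟨ht0, Finset.mem_univ _⟩),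
    Finset.card_erase_of_mem (Finset.mem_univ _), Finset.card_univ, h7] at hle
  have h8 : Fintype.card Z3 = 8 := rfl
  omega

theorem all_inv' [Fintype K] {m : ℕ} (hT : ∀ (ψ : ↥(twistedG2 K (3 ^ m)) →* M2) (x : ↥(twistedG2 K (3 ^ m))), ψ x = 1) (hK : Fintype.card K = 3 ^ (2 * m + 1))
    (fr : Frob K m) (t : ↥(twistedG2 K (3 ^ m))) (ht1 : t ≠ 1) (ht2 : t * t = 1) :
    ∃ g : ↥(twistedG2 K (3 ^ m)), g⁻¹ * t * g = aR fr := by
  have hodd : Fintype.card K % 2 = 1 := by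
    rw [hK]
    exact Nat.odd_iff.mp (Odd.pow (by decide))
  obtain ⟨α, β, h⟩ := Cfsg.Agent.Lib.Helper7.ReeGen.sum_two_sq hodd (-1 : K)
  obtain ⟨Q, hQ⟩ := E_sylow hK fr α β h
  have htP : IsPGroup 2 (Subgroup.zpowers t) :=
    IsPGroup.of_card (n := 1) (by
      rw [Nat.card_zpowers, orderOf_eq_prime (by rw [pow_two]; exact ht2) ht1, pow_one])
  obtain ⟨S, hS⟩ := htP.exists_le_sylow
  obtain ⟨g, hg⟩ := MulAction.exists_smul_eq ↥(twistedG2 K (3 ^ m)) Q S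
  have h1 : t ∈ (S : Subgroup ↥(twistedG2 K (3 ^ m))) := hS (Subgroup.mem_zpowers t)
  rw [← hg, Sylow.coe_subgroup_smul, Subgroup.mem_pointwise_smul_iff_inv_smul_mem, MulAut.smul_def,
    ← map_inv, MulAut.conj_apply, inv_inv, hQ] at h1
  obtain ⟨t0, ht0⟩ := h1
  have ht0ne : t0 ≠ 1 := by
    rintro rfl
    rw [map_one] at ht0
    apply ht1
    have e : t = g * (g⁻¹ * t * g) * g⁻¹ := by group
    rw [e, ← ht0]
    group
  obtain ⟨n, -, hn⟩ := orbit_all' hT hK fr α β h t0 ht0ne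
  refine ⟨g * n, ?_⟩
  have e : (g * n)⁻¹ * t * (g * n) = n⁻¹ * (g⁻¹ * t * g) * n := by group
  rw [e, ← ht0, ← hn]
  group


end

theorem m2_sq (z : M2) : z * z = 1 := by
  revert z
  decide

theorem hom_M2_triv (ψ : ↥R3 →* M2) (x : ↥R3) : ψ x = 1 := by
  have hU : ∀ (p : K3 × K3 × K3) (hp : uu 0 p ∈ R3), ψ ⟨uu 0 p, hp⟩ = 1 := by
    intro p hp
    have h9 : (⟨uu 0 p, hp⟩ : ↥R3) ^ 9 = 1 := Subtype.ext (uu_pow9 p)
    have h2 : ψ ⟨uu 0 p, hp⟩ ^ 9 = 1 := by rw [← map_pow, h9, map_one]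
    have h3 : ψ ⟨uu 0 p, hp⟩ ^ 2 = 1 := by
      rw [pow_two]
      exact m2_sq _
    have h1 : orderOf (ψ ⟨uu 0 p, hp⟩) ∣ Nat.gcd 9 2 :=
      Nat.dvd_gcd (orderOf_dvd_of_pow_eq_one h2) (orderOf_dvd_of_pow_eq_one h3)
    have e : Nat.gcd 9 2 = 1 := by decide
    rw [e, Nat.dvd_one, orderOf_eq_one_iff] at h1
    exact h1
  have hle : R3 ≤ (ψ.ker).map R3.subtype := by
    obtain ⟨hn0N, hmap⟩ := n0_map (K := K3)
    have hn0R := n0_mem hK3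
    apply gen_le (g2Words K3 (3 ^ 0))
    rintro w ⟨t, u, v, rfl | rfl⟩
    · exact ⟨⟨uu 0 (t, u, v), uu_memR 0 _⟩, MonoidHom.mem_ker.mpr (hU _ _), rfl⟩
    · have hgR : wordGL chevG2 hG2 (reeWordV (3 ^ 0) t u v) ∈ twistedG2 K3 (3 ^ 0) :=
        gen_mem chevG2 hG2 (g2Words K3 (3 ^ 0)) _ ⟨t, u, v, Or.inr rfl⟩
      have hgV : wordGL chevG2 hG2 (reeWordV (3 ^ 0) t u v) ∈ chevG2.negUnipotent K3 := by
        rw [reeV_eq]
        apply Cfsg.Agent.Lib.Helper7.ChevGen.wordGL_mem_of chevG2 hG2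
        intro p hp
        simp only [List.mem_cons, List.not_mem_nil, or_false] at hp
        rcases hp with rfl | rfl | rfl | rfl | rfl | rfl
        · exact Cfsg.Agent.Lib.Helper7.ReeDich.xGL_mem_neg chevG2 hG2 4 (by decide) _
        · exact Cfsg.Agent.Lib.Helper7.ReeDich.xGL_mem_neg chevG2 hG2 5 (by decide) _
        · exact Cfsg.Agent.Lib.Helper7.ReeDich.xGL_mem_neg chevG2 hG2 3 (by decide) _
        · exact Cfsg.Agent.Lib.Helper7.ReeDich.xGL_mem_neg chevG2 hG2 2 (by decide) _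
        · exact Cfsg.Agent.Lib.Helper7.ReeDich.xGL_mem_neg chevG2 hG2 1 (by decide) _
        · exact Cfsg.Agent.Lib.Helper7.ReeDich.xGL_mem_neg chevG2 hG2 0 (by decide) _
      have hU' : (n0 K3)⁻¹ * wordGL chevG2 hG2 (reeWordV (3 ^ 0) t u v) * n0 K3 ∈
          chevG2.posUnipotent K3 := by
        rw [← hmap] at hgV
        obtain ⟨x, hx, e⟩ := hgV
        rw [← e]
        have e2 : (n0 K3)⁻¹ * (MulAut.conj (n0 K3)).toMonoidHom x * n0 K3 = x := by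
          show (n0 K3)⁻¹ * (n0 K3 * x * (n0 K3)⁻¹) * n0 K3 = x
          group
        rw [e2]
        exact hx
      obtain ⟨t', u', v', e⟩ := mem_imp fr3 _
        (Subgroup.mem_inf.mpr ⟨hU', mul_mem (mul_mem (inv_mem hn0R) hgR) hn0R⟩)
      have e3 : n0 K3 * uu 0 (t', u', v') * (n0 K3)⁻¹ =
          wordGL chevG2 hG2 (reeWordV (3 ^ 0) t u v) := by
        show n0 K3 * wordGL chevG2 hG2 (reeWordU (3 ^ 0) t' u' v') * (n0 K3)⁻¹ = _
        rw [← e]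
        group
      refine ⟨⟨n0 K3, hn0R⟩ * ⟨uu 0 (t', u', v'), uu_memR 0 _⟩ * ⟨n0 K3, hn0R⟩⁻¹, ?_, ?_⟩
      · rw [SetLike.mem_coe, MonoidHom.mem_ker, map_mul, map_mul, map_inv, hU, mul_one,
          mul_inv_cancel]
      · rw [map_mul, map_mul, map_inv]
        exact e3
  obtain ⟨y, hy, hyx⟩ := hle x.2
  have hxy : y = x := Subtype.ext hyx
  rw [← hxy]
  exact MonoidHom.mem_ker.mp hy

theorem all_inv3 (t : ↥R3) (ht1 : t ≠ 1) (ht2 : t * t = 1) :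
    ∃ g : ↥R3, g⁻¹ * t * g = aR fr3 :=
  all_inv' hom_M2_triv hK3 fr3 t ht1 ht2

end Cfsg.Agent.Lib.Helper7.Ree3B
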