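import Cfsg.Agent.Lib.Helper7.Ree3B
import Cfsg.Agent.S0243

set_option autoImplicit false
set_option maxHeartbeats 400000

namespace Cfsg.Agent.Lib.Helper7.Ree3C
open Cfsg.Lie Cfsg.Agent.Lib.Helper7.ChevEngine Cfsg.Agent.Lib.Helper7.ChevTorus
  Cfsg.Agent.Lib.Helper7.ReeFix Cfsg.Agent.Lib.Helper7.ReeMain Cfsg.Agent.Lib.Helper7.ReeSg
  Cfsg.Agent.Lib.Helper7.ReeTorus Cfsg.Agent.Lib.Helper7.ReeTorMem Cfsg.Agent.Lib.Helper7.ReeOrder
  Cfsg.Agent.Lib.Helper7.ReeBN Cfsg.Agent.Lib.Helper7.ReePerf Cfsg.Agent.Lib.Helper7.ReeH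
  Cfsg.Agent.Lib.Helper7.ReeU Cfsg.Agent.Lib.Helper7.ReeFpf
  Cfsg.Agent.Lib.Helper7.ChevRel
  Cfsg.Agent.Lib.Helper7.ReeStab Cfsg.Agent.Lib.Helper7.SL2Hom
  Cfsg.Agent.Lib.Helper7.TwCore Cfsg.Agent.Lib.Helper7.ReeCent Cfsg.Agent.Lib.Helper7.ReeSyl2
  Cfsg.Agent.Lib.Helper7.ReeSyl Cfsg.Agent.Lib.Helper7.ChevBNP Cfsg.Agent.Lib.Helper7.ChevBN3
  Cfsg.Agent.Lib.Helper7.ReeOrd3 Cfsg.Agent.Lib.Helper7.Ree3A Cfsg.Agent.Lib.Helper7.Ree3B

theorem two_sq (x : ↥R3) (k : ℕ) (hx : x ^ 2 ^ k = 1) : x * x = 1 := by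
  haveI : Fact (Nat.Prime 2) := ⟨Nat.prime_two⟩
  have hP : IsPGroup 2 ↥(Subgroup.zpowers x) := by
    obtain ⟨j, -, hj⟩ := (Nat.dvd_prime_pow Nat.prime_two).mp (orderOf_dvd_of_pow_eq_one hx)
    exact IsPGroup.of_card (n := j) (by rw [Nat.card_zpowers, hj])
  obtain ⟨S, hS⟩ := hP.exists_le_sylow
  exact syl2_exp hK3 S x (hS (Subgroup.mem_zpowers x))

theorem psl3_card : Nat.card (Matrix.ProjectiveSpecialLinearGroup (Fin 2) K3) = 12 := by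
  have hF : Fintype.card K3 = 3 := ZMod.card 3
  have hc := Cfsg.Agent.S0243.result (F := K3) hF 2 le_rfl
  have h2 : Nat.gcd 2 (3 - 1) = 2 := by decide
  rw [h2, Fin.prod_univ_two] at hc
  norm_num [-Nat.card_eq_fintype_card] at hc
  omega

theorem aR_H : ((aR fr3 : ↥R3) : GL chevG2.Idx K3) ∈ chevG2.diagonalSubgroup K3 :=
  th_memH 0 _

theorem cent_card : Nat.card ↥(Subgroup.centralizer ({aR fr3} : Set ↥R3)) = 24 := by
  obtain ⟨e⟩ := cent_iso hK3 (aR fr3) aR_H (aR_ne fr3) (aR_sq fr3)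
  have h2 : Nat.card (Multiplicative (ZMod 2)) = 2 := by
    rw [Nat.card_eq_fintype_card]
    rfl
  rw [Nat.card_congr e.toEquiv, Nat.card_prod, psl3_card, h2]

theorem cR_comm : cR * aR fr3 = aR fr3 * cR := by
  apply Subtype.ext
  show uu 0 ((0 : K3), (1 : K3), (0 : K3)) * th 0 (-1 : K3ˣ) =
    th 0 (-1 : K3ˣ) * uu 0 ((0 : K3), (1 : K3), (0 : K3))
  exact (a_comm_uu fr3 1).symm

theorem cent_sq_a (x : ↥R3) (hx : x ∈ Subgroup.centralizer ({aR fr3} : Set ↥R3))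
    (hxN : x ∈ N3) : x * x = 1 := by
  have hcC : cR ∈ Subgroup.centralizer ({aR fr3} : Set ↥R3) :=
    Subgroup.mem_centralizer_singleton_iff.mpr cR_comm
  obtain ⟨f, hf⟩ : ∃ f : ↥(Subgroup.centralizer ({aR fr3} : Set ↥R3)) →* Abelianization ↥U3,
      ∀ y, f y = Tr (y : ↥R3) :=
    ⟨Tr.comp (Subgroup.centralizer ({aR fr3} : Set ↥R3)).subtype, fun y => rfl⟩
  have hfc : f ⟨cR, hcC⟩ ≠ 1 := by
    rw [hf]
    exact Tr_c_ne
  have h1 : Nat.card ↥f.range ∣ 27 := (Subgroup.card_subgroup_dvd_card _).trans card_ab_dvd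
  have h2 : Nat.card ↥f.ker * Nat.card ↥f.range = 24 := by
    rw [← Subgroup.index_ker, Subgroup.card_mul_index]
    exact cent_card
  have h3 : Nat.card ↥f.range ∣ 3 := by
    have h4 : Nat.card ↥f.range ∣ 24 := Dvd.intro_left _ h2
    have h5 := Nat.dvd_gcd h1 h4
    have e : Nat.gcd 27 24 = 3 := by decide
    rwa [e] at h5
  have h6 : Nat.card ↥f.range ≠ 1 := by
    intro h7
    have h8 : f.range = ⊥ := Subgroup.card_eq_one.mp h7
    have h9 : f ⟨cR, hcC⟩ ∈ f.range := ⟨_, rfl⟩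
    rw [h8, Subgroup.mem_bot] at h9
    exact hfc h9
  have h7 : Nat.card ↥f.range = 3 := by
    rcases (Nat.dvd_prime Nat.prime_three).mp h3 with h | h
    · exact absurd h h6
    · exact h
  have h8 : Nat.card ↥f.ker = 8 := by
    rw [h7] at h2
    omega
  have hy : (⟨x, hx⟩ : ↥(Subgroup.centralizer ({aR fr3} : Set ↥R3))) ∈ f.ker := by
    rw [MonoidHom.mem_ker, hf]
    exact MonoidHom.mem_ker.mp hxN
  have h9 : (⟨⟨x, hx⟩, hy⟩ : ↥f.ker) ^ 8 = 1 := by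
    rw [← h8]
    exact pow_card_eq_one'
  have e1 : (⟨x, hx⟩ : ↥(Subgroup.centralizer ({aR fr3} : Set ↥R3))) ^ 8 = 1 := by
    have h0 := congrArg Subtype.val h9
    rw [Subgroup.coe_pow] at h0
    exact h0
  have e2 : x ^ 8 = 1 := by
    have h0 := congrArg Subtype.val e1
    rw [Subgroup.coe_pow] at h0
    exact h0
  have e3 : (2 : ℕ) ^ 3 = 8 := by norm_num
  exact two_sq x 3 (by rw [e3]; exact e2)

theorem cent_sq (t : ↥R3) (ht1 : t ≠ 1) (ht2 : t * t = 1) (x : ↥R3) (hx : x * t = t * x)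
    (hxN : x ∈ N3) : x * x = 1 := by
  obtain ⟨g, hg⟩ := all_inv3 t ht1 ht2
  have h1 : g⁻¹ * x * g ∈ Subgroup.centralizer ({aR fr3} : Set ↥R3) := by
    rw [Subgroup.mem_centralizer_singleton_iff, ← hg]
    calc g⁻¹ * x * g * (g⁻¹ * t * g) = g⁻¹ * (x * t) * g := by group
      _ = g⁻¹ * (t * x) * g := by rw [hx]
      _ = g⁻¹ * t * g * (g⁻¹ * x * g) := by group
  have h2 : g⁻¹ * x * g ∈ N3 := by
    have h0 := N3_normal.conj_mem x hxN g⁻¹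
    rwa [inv_inv] at h0
  have h3 := cent_sq_a _ h1 h2
  calc x * x = g * ((g⁻¹ * x * g) * (g⁻¹ * x * g)) * g⁻¹ := by group
    _ = 1 := by
      rw [h3]
      group

theorem N3_card_mul : Nat.card ↥N3 * N3.index = 1512 := by
  rw [Subgroup.card_mul_index, card_R3]

theorem sylN_card (P : Sylow 2 ↥N3) : Nat.card ↥(P : Subgroup ↥N3) = 8 := by
  haveI : Fact (Nat.Prime 2) := ⟨Nat.prime_two⟩
  rw [Sylow.card_eq_multiplicity]
  have hne : Nat.card ↥N3 ≠ 0 := Nat.card_pos.ne'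
  have hcop : Nat.Coprime 8 N3.index := Nat.Coprime.coprime_dvd_right N3_index_dvd (by decide)
  have h8 : 2 ^ 3 ∣ Nat.card ↥N3 := by
    have h0 : 8 ∣ Nat.card ↥N3 * N3.index := by
      rw [N3_card_mul]
      decide
    exact hcop.dvd_of_dvd_mul_right h0
  have h16 : ¬ 2 ^ 4 ∣ Nat.card ↥N3 := by
    intro h
    have h0 : 2 ^ 4 ∣ 1512 := by
      rw [← N3_card_mul]
      exact h.trans (dvd_mul_right _ _)
    exact absurd h0 (by decide)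
  rw [Nat.Prime.pow_dvd_iff_le_factorization Nat.prime_two hne] at h8 h16
  have h3 : (Nat.card ↥N3).factorization 2 = 3 := by omega
  rw [h3]
  norm_num

theorem sylN_sq (P : Sylow 2 ↥N3) (y : ↥N3) (hy : y ∈ P) : y * y = 1 := by
  obtain ⟨k, hk⟩ := P.isPGroup' ⟨y, hy⟩
  have e2 : y ^ 2 ^ k = 1 := by
    have h0 := congrArg Subtype.val hk
    rw [Subgroup.coe_pow] at h0
    exact h0
  have h1 : (y : ↥R3) ^ 2 ^ k = 1 := by
    have h0 := congrArg Subtype.val e2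
    rw [Subgroup.coe_pow] at h0
    exact h0
  exact Subtype.ext (two_sq _ k h1)

theorem sylN_not_cyclic (P : Sylow 2 ↥N3) : ¬ IsCyclic ↥(P : Subgroup ↥N3) := by
  intro hc
  obtain ⟨y, hy⟩ := hc.exists_generator
  have h1 : orderOf y = Nat.card ↥(P : Subgroup ↥N3) := orderOf_eq_card_of_forall_mem_zpowers hy
  rw [sylN_card] at h1
  have h2 : y ^ 2 = 1 := by
    rw [pow_two]
    apply Subtype.ext
    exact sylN_sq P y.1 y.2
  have h3 := orderOf_dvd_of_pow_eq_one h2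
  rw [h1] at h3
  exact absurd h3 (by decide)

noncomputable def u1 : ↥R3 := ⟨uu 0 ((1 : K3), (0 : K3), (0 : K3)), uu_memR 0 _⟩

theorem u1_val : (u1 : GL chevG2.Idx K3) = uu 0 ((1 : K3), (0 : K3), (0 : K3)) := rfl

theorem w_eq : ((aR fr3 : ↥R3) : GL chevG2.Idx K3) * ((u1 : GL chevG2.Idx K3) *
    ((aR fr3 : ↥R3) : GL chevG2.Idx K3) * ((u1 : GL chevG2.Idx K3))⁻¹) =
    uu 0 ((1 : K3), (1 : K3) * ((1 : K3) ^ 3 ^ 0) ^ 3, (1 : K3) ^ 2 * ((1 : K3) ^ 3 ^ 0) ^ 3) := by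
  have e1 : th 0 (-1 : K3ˣ) * uu 0 ((1 : K3), (0 : K3), (0 : K3)) * (th 0 (-1 : K3ˣ))⁻¹ =
      uu 0 (-(1 : K3), (0 : K3), (0 : K3)) := by
    have h0 := conj_neg fr3 (1 : K3) 0 0
    rw [neg_zero] at h0
    exact h0
  have e2 := uu_comm fr3 (1 : K3)
  have hai : (th 0 (-1 : K3ˣ))⁻¹ = th 0 (-1 : K3ˣ) := inv_eq_of_mul_eq_one_left (a_sq 0)
  rw [aR_val, u1_val, ← e2, ← e1, hai]
  group

theorem w_ne : ((aR fr3 : ↥R3) : GL chevG2.Idx K3) * ((u1 : GL chevG2.Idx K3) *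
    ((aR fr3 : ↥R3) : GL chevG2.Idx K3) * ((u1 : GL chevG2.Idx K3))⁻¹) *
    (((aR fr3 : ↥R3) : GL chevG2.Idx K3) * ((u1 : GL chevG2.Idx K3) *
    ((aR fr3 : ↥R3) : GL chevG2.Idx K3) * ((u1 : GL chevG2.Idx K3))⁻¹)) ≠ 1 := by
  rw [w_eq]
  intro h
  have h9 := uu_pow9 ((1 : K3), (1 : K3) * ((1 : K3) ^ 3 ^ 0) ^ 3, (1 : K3) ^ 2 * ((1 : K3) ^ 3 ^ 0) ^ 3)
  have h2 : uu 0 ((1 : K3), (1 : K3) * ((1 : K3) ^ 3 ^ 0) ^ 3, (1 : K3) ^ 2 * ((1 : K3) ^ 3 ^ 0) ^ 3) ^ 2 = 1 := by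
    rw [pow_two]
    exact h
  have h1 : orderOf (uu 0 ((1 : K3), (1 : K3) * ((1 : K3) ^ 3 ^ 0) ^ 3,
      (1 : K3) ^ 2 * ((1 : K3) ^ 3 ^ 0) ^ 3)) ∣ Nat.gcd 2 9 :=
    Nat.dvd_gcd (orderOf_dvd_of_pow_eq_one h2) (orderOf_dvd_of_pow_eq_one h9)
  have e : Nat.gcd 2 9 = 1 := by decide
  rw [e, Nat.dvd_one, orderOf_eq_one_iff, ← uu_zero fr3] at h1
  have h4 : (1 : K3) = 0 := congrArg (fun p : K3 × K3 × K3 => p.1) (uu_inj fr3 _ _ h1)
  exact k3_c h4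

theorem sylN_not_normal (P : Sylow 2 ↥N3) : ¬ (P : Subgroup ↥N3).Normal := by
  intro hn
  haveI : Fact (Nat.Prime 2) := ⟨Nat.prime_two⟩
  have hall : ∀ z : ↥N3, z * z = 1 → z ∈ P := by
    intro z hz
    have hP : IsPGroup 2 ↥(Subgroup.zpowers z) := by
      have hz2 : z ^ 2 ^ 1 = 1 := by
        rw [pow_one, pow_two]
        exact hz
      obtain ⟨j, -, hj⟩ := (Nat.dvd_prime_pow Nat.prime_two).mp (orderOf_dvd_of_pow_eq_one hz2)
      exact IsPGroup.of_card (n := j) (by rw [Nat.card_zpowers, hj])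
    obtain ⟨S, hS⟩ := hP.exists_le_sylow
    obtain ⟨g, hg⟩ := MulAction.exists_smul_eq ↥N3 P S
    have hSP : S = P := by
      rw [← hg]
      exact Sylow.smul_eq_of_normal
    rw [← hSP]
    exact hS (Subgroup.mem_zpowers z)
  have ha2 := aR_sq fr3
  have hb2 : (u1 * aR fr3 * u1⁻¹) * (u1 * aR fr3 * u1⁻¹) = 1 := by
    calc (u1 * aR fr3 * u1⁻¹) * (u1 * aR fr3 * u1⁻¹) = u1 * (aR fr3 * aR fr3) * u1⁻¹ := by group
      _ = 1 := by
        rw [ha2]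
        group
  have haN : aR fr3 ∈ N3 := sq_mem_N3 _ ha2
  have hbN : u1 * aR fr3 * u1⁻¹ ∈ N3 := sq_mem_N3 _ hb2
  have haP : (⟨aR fr3, haN⟩ : ↥N3) ∈ P := hall _ (Subtype.ext ha2)
  have hbP : (⟨u1 * aR fr3 * u1⁻¹, hbN⟩ : ↥N3) ∈ P := hall _ (Subtype.ext hb2)
  have hab := sylN_sq P _ (mul_mem haP hbP)
  have hab' : (aR fr3 * (u1 * aR fr3 * u1⁻¹)) * (aR fr3 * (u1 * aR fr3 * u1⁻¹)) = 1 := by
    have h0 := congrArg Subtype.val hab
    simp only [Subgroup.coe_mul, Subgroup.coe_one] at h0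
    exact h0
  have h1 := congrArg Subtype.val hab'
  simp only [Subgroup.coe_mul, Subgroup.coe_inv, Subgroup.coe_one] at h1
  exact w_ne h1

theorem comm_of_sq {H : Type*} [Group H] (a b : H) (ha : a * a = 1) (hb : b * b = 1)
    (hab : (a * b) * (a * b) = 1) : a * b = b * a := by
  calc a * b = (a * b)⁻¹ := (inv_eq_of_mul_eq_one_left hab).symm
    _ = b⁻¹ * a⁻¹ := mul_inv_rev _ _
    _ = b * a := by
      rw [inv_eq_of_mul_eq_one_left hb, inv_eq_of_mul_eq_one_left ha]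

theorem hC3 (t : ↥N3) (ht : orderOf t = 2) :
    IsMulCommutative ↥(Subgroup.centralizer ({t} : Set ↥N3)) ∧
      ∀ c ∈ Subgroup.centralizer ({t} : Set ↥N3), c ^ 2 = 1 := by
  have ht2 : t * t = 1 := by
    have h0 := pow_orderOf_eq_one t
    rw [ht, pow_two] at h0
    exact h0
  have ht1 : t ≠ 1 := by
    rintro rfl
    rw [orderOf_one] at ht
    exact absurd ht (by decide)
  have ht2' : (t : ↥R3) * (t : ↥R3) = 1 := by
    rw [← Subgroup.coe_mul, ht2, Subgroup.coe_one]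
  have ht1' : (t : ↥R3) ≠ 1 := by
    intro h
    apply ht1
    apply Subtype.ext
    rw [h, Subgroup.coe_one]
  have hsq : ∀ c ∈ Subgroup.centralizer ({t} : Set ↥N3), c * c = 1 := by
    intro c hc
    have hc' : c * t = t * c := Subgroup.mem_centralizer_singleton_iff.mp hc
    have hc'' : (c : ↥R3) * (t : ↥R3) = (t : ↥R3) * (c : ↥R3) := by
      rw [← Subgroup.coe_mul, ← Subgroup.coe_mul, hc']
    have h0 := cent_sq (t : ↥R3) ht1' ht2' (c : ↥R3) hc'' c.2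
    apply Subtype.ext
    rw [Subgroup.coe_mul, Subgroup.coe_one]
    exact h0
  have hcomm : ∀ x y : ↥(Subgroup.centralizer ({t} : Set ↥N3)), x * y = y * x := by
    intro x y
    exact Subtype.ext (comm_of_sq (x : ↥N3) (y : ↥N3) (hsq x.1 x.2) (hsq y.1 y.2)
      (hsq (x.1 * y.1) (mul_mem x.2 y.2)))
  constructor
  · exact ⟨⟨hcomm⟩⟩
  · intro c hc
    rw [pow_two]
    exact hsq c hc

end Cfsg.Agent.Lib.Helper7.Ree3C
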