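import Cfsg.Agent.Lib.Helper7.ReePerf
import Cfsg.Agent.S0319
import Cfsg.Agent.S1050

set_option autoImplicit false
set_option maxHeartbeats 400000

namespace Cfsg.Agent.Lib.Helper7.ReeSimple
open Cfsg.Lie Cfsg.Agent.Lib.Helper7.ChevEngine Cfsg.Agent.Lib.Helper7.ChevTorus
  Cfsg.Agent.Lib.Helper7.ReeFix Cfsg.Agent.Lib.Helper7.ReeMain
  Cfsg.Agent.Lib.Helper7.ReeOrder Cfsg.Agent.Lib.Helper7.ReeBN Cfsg.Agent.Lib.Helper7.ReePerf

open scoped commutatorElement

section
variable {K : Type*} [Field K]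

theorem solv_abs (R : Subgroup (GL chevG2.Idx K)) : Group.IsSolvable ↥(Bs R) := by
  haveI := Cfsg.Agent.S1050.result (F := K) chevG2 hG2
  let f : ↥(Bs R) →* ↥(chevG2.borelSubgroup K) :=
    { toFun := fun x => ⟨(x.1 : GL chevG2.Idx K), (Subgroup.mem_subgroupOf.mp x.2).1⟩
      map_one' := rfl
      map_mul' := fun _ _ => rfl }
  apply Group.isSolvable_of_isSolvable_injective (f := f)
  intro x y h
  have h2 : (x.1 : GL chevG2.Idx K) = y.1 :=
    congrArg (fun z : ↥(chevG2.borelSubgroup K) => (z : GL chevG2.Idx K)) h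
  exact Subtype.ext (Subtype.ext h2)

theorem simple_ree [Fintype K] {m : ℕ} (hm : 1 ≤ m) (hK : Fintype.card K = 3 ^ (2 * m + 1)) :
    IsSimpleGroup ↥(twistedG2 K (3 ^ m)) ∧ ¬ IsMulCommutative ↥(twistedG2 K (3 ^ m)) := by
  have hperf := perf_ree hm hK
  obtain ⟨P, hB, hN, hS⟩ := bn_ree_S hK
  obtain ⟨u, huU, huR, hu1⟩ := U_ne hK
  haveI : Nontrivial ↥(twistedG2 K (3 ^ m)) :=
    ⟨⟨⟨u, huR⟩, 1, fun h => hu1 (congrArg Subtype.val h)⟩⟩
  have hirr : P.Irreducible := by
    intro J hJ hJne hne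
    exfalso
    obtain ⟨s, hs⟩ := hJne
    obtain ⟨s', hs', hs'J⟩ := hne
    rw [hS] at hJ hs'
    have e1 := hJ hs
    rw [Set.mem_singleton_iff] at e1 hs'
    apply hs'J
    rw [hs', ← e1]
    exact hs
  have hsolv : Group.IsSolvable ↥P.B := by
    rw [hB]
    exact solv_abs (twistedG2 K (3 ^ m))
  have hcore : P.B.normalCore = ⊥ := by
    rw [hB]
    exact Cfsg.Agent.S1117.result hK
  constructor
  · exact Cfsg.Agent.S0319.result P hirr hsolv hperf hcore
  · intro hc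
    have h1 : commutator ↥(twistedG2 K (3 ^ m)) = ⊥ := by
      rw [commutator_def, eq_bot_iff, Subgroup.commutator_le]
      intro a _ b _
      rw [Subgroup.mem_bot, commutatorElement_def, hc.is_comm.comm a b]
      group
    rw [hperf] at h1
    exact top_ne_bot h1

end

end Cfsg.Agent.Lib.Helper7.ReeSimple
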