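import Cfsg.Agent.Lib.Helper7.ReeBN

set_option autoImplicit false
set_option maxHeartbeats 400000

namespace Cfsg.Agent.Lib.Helper7.ReeW
open Cfsg.Lie Cfsg.Agent.Lib.Helper7.ChevEngine Cfsg.Agent.Lib.Helper7.ChevTorus
  Cfsg.Agent.Lib.Helper7.ReeFix Cfsg.Agent.Lib.Helper7.ReeMain Cfsg.Agent.Lib.Helper7.ReeSg
  Cfsg.Agent.Lib.Helper7.ReeTorus Cfsg.Agent.Lib.Helper7.ReeTorMem Cfsg.Agent.Lib.Helper7.ReeOrder
  Cfsg.Agent.Lib.Helper7.ReeBN Cfsg.Agent.Lib.Helper7.ChevBNP Cfsg.Agent.Lib.Helper7.ChevBN3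

theorem hom_of_index_two {G : Type*} [Group G] (H : Subgroup G) (hn : H.Normal) (hi : H.index = 2) :
    ∃ φ : G →* Multiplicative (ZMod 2), Function.Surjective φ ∧ φ.ker = H := by
  haveI := hn
  haveI : Fact (Nat.Prime 2) := ⟨Nat.prime_two⟩
  have h1 : Nat.card (G ⧸ H) = 2 := hi
  have h2 : Nat.card (Multiplicative (ZMod 2)) = 2 := by
    rw [Nat.card_eq_fintype_card, Fintype.card_multiplicative, ZMod.card]
  let e : G ⧸ H ≃* Multiplicative (ZMod 2) := mulEquivOfPrimeCardEq (p := 2) h1 h2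
  refine ⟨e.toMonoidHom.comp (QuotientGroup.mk' H), ?_, ?_⟩
  · exact e.surjective.comp (QuotientGroup.mk'_surjective H)
  · ext x
    rw [MonoidHom.mem_ker, MonoidHom.comp_apply]
    constructor
    · intro hx
      have h3 : QuotientGroup.mk' H x = 1 := e.injective (by rw [map_one]; exact hx)
      rw [← QuotientGroup.ker_mk' H]
      exact h3
    · intro hx
      have h3 : QuotientGroup.mk' H x = 1 := by
        rw [← QuotientGroup.ker_mk' H] at hx
        exact hx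
      rw [h3]
      exact map_one _

section
variable {K : Type*} [Field K]

theorem weyl_ree [Fintype K] {m : ℕ} (hK : Fintype.card K = 3 ^ (2 * m + 1)) :
    ∃ φ : ↥(chevG2.monomialSubgroup K ⊓ twistedG2 K (3 ^ m)) →* Multiplicative (ZMod 2),
      Function.Surjective φ ∧
      φ.ker = (chevG2.diagonalSubgroup K ⊓ twistedG2 K (3 ^ m)).subgroupOf
        (chevG2.monomialSubgroup K ⊓ twistedG2 K (3 ^ m)) := by
  obtain ⟨hn0N, -⟩ := n0_map (K := K)
  have hn0R := n0_mem hK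
  have hsq := n0_sq (K := K)
  have memH : ∀ x : ↥(chevG2.monomialSubgroup K ⊓ twistedG2 K (3 ^ m)),
      x ∈ (chevG2.diagonalSubgroup K ⊓ twistedG2 K (3 ^ m)).subgroupOf
        (chevG2.monomialSubgroup K ⊓ twistedG2 K (3 ^ m)) ↔
      (x : GL chevG2.Idx K) ∈ chevG2.diagonalSubgroup K := by
    intro x
    rw [Subgroup.mem_subgroupOf, Subgroup.mem_inf]
    exact ⟨fun h => h.1, fun h => ⟨h, x.2.2⟩⟩
  apply hom_of_index_two
  · constructor
    intro h hh g
    rw [memH] at hh ⊢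
    exact N_conj_H chevG2 hG2 _ g.2.1 _ hh
  · rw [Subgroup.index_eq_two_iff]
    refine ⟨⟨n0 K, Subgroup.mem_inf.mpr ⟨hn0N, hn0R⟩⟩, fun b => ?_⟩
    by_cases hb : (b : GL chevG2.Idx K) ∈ chevG2.diagonalSubgroup K
    · right
      refine ⟨(memH b).mpr hb, fun h => ?_⟩
      have h2 : (b : GL chevG2.Idx K) * n0 K ∈ chevG2.diagonalSubgroup K := (memH _).mp h
      have h3 : (b : GL chevG2.Idx K)⁻¹ * ((b : GL chevG2.Idx K) * n0 K) = n0 K := by group
      have h4 := mul_mem (inv_mem hb) h2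
      rw [h3] at h4
      exact n0_not_H h4
    · left
      refine ⟨?_, fun h => hb ((memH b).mp h)⟩
      rw [memH]
      rcases N_struct hK _ b.2.1 b.2.2 with h1 | h1
      · exact absurd h1 hb
      · have h2 := N_conj_H chevG2 hG2 (n0 K)⁻¹ (inv_mem hn0N) _ h1
        rw [inv_inv] at h2
        have e : (b : GL chevG2.Idx K) * n0 K =
            (n0 K * n0 K) * ((n0 K)⁻¹ * ((n0 K)⁻¹ * (b : GL chevG2.Idx K)) * n0 K) := by group
        show (b : GL chevG2.Idx K) * n0 K ∈ chevG2.diagonalSubgroup K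
        rw [e]
        exact mul_mem hsq h2

end

end Cfsg.Agent.Lib.Helper7.ReeW
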