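import Cfsg.Prelude.Def_SteinbergCover

set_option autoImplicit false
set_option maxHeartbeats 400000

namespace Cfsg.Agent.Lib.Helper7.StCover
open Cfsg.Lie

def liveT (D : ChevalleyDatum) (dead : List ℕ) (r s : ℕ) : List (ℕ × ℤ × ℕ × ℕ) :=
  (D.commTerms r s).filter (fun c => !dead.contains c.1)

structure St where
  isB : Bool
  r : ℕ
  s : ℕ
  c : ℕ
  κ : ℤ
  i : ℕ
  j : ℕ
  c1 : ℕ
  κ1 : ℤ

def stOk (D : ChevalleyDatum) (dead : List ℕ) (st : St) : Bool :=
  decide (st.r < D.nroots) && decide (st.s < D.nroots) && decide (st.s ≠ st.r) &&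
  decide (st.s ≠ D.neg st.r) && decide (st.c < D.nroots) && decide (st.κ = 1 ∨ st.κ = -1) &&
  (if st.isB then
    decide (liveT D dead st.r st.s = [(st.c1, st.κ1, 1, 1), (st.c, st.κ, st.i, st.j)]) &&
      decide ((st.i = 2 ∧ st.j = 1) ∨ (st.i = 1 ∧ st.j = 2))
  else
    decide (liveT D dead st.r st.s = [(st.c, st.κ, st.i, st.j)]) && decide (st.i = 1 ∨ st.j = 1))

def chkAll (D : ChevalleyDatum) (noB : Bool) : List ℕ → List St → Bool
  | dead, [] => (List.range D.nroots).all fun c => dead.contains c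
  | dead, st :: rest => stOk D dead st && !(noB && st.isB) && chkAll D noB (st.c :: dead) rest

section abs
variable {K : Type*} [Field K] {A : Type*} [CommGroup A] (D : ChevalleyDatum) (X : ℕ → K → A)

theorem filter_prod (dead : List ℕ) (hdead : ∀ c ∈ dead, ∀ v : K, X c v = 1) (g : ℕ × ℤ × ℕ × ℕ → K)
    (L : List (ℕ × ℤ × ℕ × ℕ)) :
    (L.map fun c => X c.1 (g c)).prod =
      ((L.filter (fun c => !dead.contains c.1)).map fun c => X c.1 (g c)).prod := by
  induction L with
  | nil => rfl
  | cons a L ih =>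
    by_cases ha : dead.contains a.1 = true
    · have h1 : X a.1 (g a) = 1 := hdead a.1 (List.contains_iff_mem.mp ha) _
      rw [List.map_cons, List.prod_cons, h1, one_mul, ih, List.filter_cons_of_neg (by simpa using ha)]
    · rw [List.map_cons, List.prod_cons, ih, List.filter_cons_of_pos (by simpa using ha), List.map_cons,
        List.prod_cons]

variable (hadd : ∀ r < D.nroots, ∀ t u : K, X r (t + u) = X r t * X r u)
  (hcomm : ∀ r s : ℕ, ∀ t u : K, r < D.nroots → s < D.nroots → s ≠ r → s ≠ D.neg r →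
    ((D.commTerms r s).map fun c => X c.1 ((c.2.1 : K) * (-t) ^ c.2.2.1 * u ^ c.2.2.2)).prod = 1)

include hadd hcomm

theorem step_sound (dead : List ℕ) (hdead : ∀ c ∈ dead, ∀ v : K, X c v = 1) (st : St)
    (hx : st.isB = true → ∃ x : K, x ≠ 0 ∧ x ≠ 1) (hok : stOk D dead st = true) :
    ∀ v : K, X st.c v = 1 := by
  unfold stOk at hok
  simp only [Bool.and_eq_true, decide_eq_true_eq] at hok
  obtain ⟨⟨⟨⟨⟨⟨hr, hs⟩, hsr⟩, hsn⟩, hc⟩, hκ⟩, hrest⟩ := hok
  have hrel : ∀ t u : K, ((liveT D dead st.r st.s).map fun c =>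
      X c.1 ((c.2.1 : K) * (-t) ^ c.2.2.1 * u ^ c.2.2.2)).prod = 1 := by
    intro t u
    have h := hcomm st.r st.s t u hr hs hsr hsn
    rw [filter_prod X dead hdead] at h
    exact h
  have hκ2 : ∀ v : K, (st.κ : K) * ((st.κ : K) * v) = v := by
    intro v
    rcases hκ with h | h <;> rw [h] <;> simp
  by_cases hB : st.isB = true
  · rw [if_pos hB] at hrest
    simp only [Bool.and_eq_true, decide_eq_true_eq] at hrest
    obtain ⟨hlive, hij⟩ := hrest
    obtain ⟨x, hx0, hx1⟩ := hx hB
    rw [hlive] at hrel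
    simp only [List.map_cons, List.map_nil, List.prod_cons, List.prod_nil, mul_one, pow_one] at hrel
    have hsub : ∀ a b : K, X st.c (a - b) = X st.c a * (X st.c b)⁻¹ := by
      intro a b
      have h := hadd st.c hc (a - b) b
      rw [sub_add_cancel] at h
      rw [h, mul_inv_cancel_right]
    have hx1' : x - 1 ≠ 0 := sub_ne_zero.mpr hx1
    intro v
    rcases hij with ⟨hi, hj⟩ | ⟨hi, hj⟩
    · rw [hi, hj] at hrel
      have h1 := hrel (-1) ((st.κ : K) * v / (x - 1))
      have h2 := hrel (-x) ((st.κ : K) * v / (x - 1) / x)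
      have e1 : (st.κ1 : K) * -(-x) * ((st.κ : K) * v / (x - 1) / x) =
          (st.κ1 : K) * -(-1) * ((st.κ : K) * v / (x - 1)) := by
        field_simp
      rw [e1, ← h1] at h2
      have h3 := mul_left_cancel h2
      have e2 : v = (st.κ : K) * (-(-x)) ^ 2 * ((st.κ : K) * v / (x - 1) / x) ^ 1 -
          (st.κ : K) * (-(-1)) ^ 2 * ((st.κ : K) * v / (x - 1)) ^ 1 := by
        have := hκ2 v
        field_simp
        linear_combination (-1 : K) * this
      rw [e2, hsub, h3, mul_inv_cancel]
    · rw [hi, hj] at hrel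
      have h1 := hrel (-((st.κ : K) * v / (x - 1))) 1
      have h2 := hrel (-((st.κ : K) * v / (x - 1)) / x) x
      have e1 : (st.κ1 : K) * -(-((st.κ : K) * v / (x - 1)) / x) * x =
          (st.κ1 : K) * -(-((st.κ : K) * v / (x - 1))) * 1 := by
        field_simp
      rw [e1, ← h1] at h2
      have h3 := mul_left_cancel h2
      have e2 : v = (st.κ : K) * (-(-((st.κ : K) * v / (x - 1)) / x)) ^ 1 * x ^ 2 -
          (st.κ : K) * (-(-((st.κ : K) * v / (x - 1)))) ^ 1 * 1 ^ 2 := by
        have := hκ2 v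
        field_simp
        linear_combination (-1 : K) * this
      rw [e2, hsub, h3, mul_inv_cancel]
  · rw [if_neg hB] at hrest
    simp only [Bool.and_eq_true, decide_eq_true_eq] at hrest
    obtain ⟨hlive, hij⟩ := hrest
    rw [hlive] at hrel
    simp only [List.map_cons, List.map_nil, List.prod_cons, List.prod_nil, mul_one] at hrel
    intro v
    rcases hij with hi | hj
    · have h := hrel (-((st.κ : K) * v)) 1
      rw [hi, neg_neg, pow_one, one_pow, mul_one, hκ2] at h
      exact h
    · have h := hrel (-1) ((st.κ : K) * v)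
      rw [hj, neg_neg, one_pow, mul_one, pow_one, hκ2] at h
      exact h

theorem chk_sound (noB : Bool) (hx : noB = false → ∃ x : K, x ≠ 0 ∧ x ≠ 1) (steps : List St) :
    ∀ dead : List ℕ, (∀ c ∈ dead, ∀ v : K, X c v = 1) → chkAll D noB dead steps = true →
      ∀ c < D.nroots, ∀ v : K, X c v = 1 := by
  induction steps with
  | nil =>
    intro dead hdead hchk c hc v
    unfold chkAll at hchk
    rw [List.all_eq_true] at hchk
    exact hdead c (List.contains_iff_mem.mp (hchk c (List.mem_range.mpr hc))) v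
  | cons st rest ih =>
    intro dead hdead hchk
    unfold chkAll at hchk
    simp only [Bool.and_eq_true, Bool.not_eq_true'] at hchk
    obtain ⟨⟨hok, hnb⟩, hrest⟩ := hchk
    have hx' : st.isB = true → ∃ x : K, x ≠ 0 ∧ x ≠ 1 := by
      intro hB
      apply hx
      rw [hB, Bool.and_true] at hnb
      exact hnb
    have hst := step_sound D X hadd hcomm dead hdead st hx' hok
    apply ih (st.c :: dead) _ hrest
    intro c hc
    rcases List.mem_cons.mp hc with rfl | hc
    · exact hst
    · exact hdead c hc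

end abs

theorem comm_one {A : Type*} [CommGroup A] (a b : A) : a⁻¹ * b⁻¹ * a * b = 1 := by
  rw [mul_right_comm a⁻¹ b⁻¹ a, inv_mul_cancel, one_mul, inv_mul_cancel]

section cover
variable {K : Type*} [Field K] (D : ChevalleyDatum)

noncomputable def XA (r : ℕ) (t : K) : Abelianization (D.SteinbergCover K) :=
  Abelianization.of (D.scGen K r t)

theorem XA_add (r : ℕ) (hr : r < D.nroots) (t u : K) : XA D r (t + u) = XA D r t * XA D r u := by
  unfold XA
  rw [← map_mul]
  congr 1
  unfold ChevalleyDatum.scGen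
  rw [← map_mul]
  symm
  apply PresentedGroup.mk_eq_mk_of_mul_inv_mem
  left
  exact ⟨r, t, u, hr, rfl⟩

theorem mk_stWord (w : List (ℕ × K)) :
    PresentedGroup.mk (D.steinbergRelsAB K) (D.stWord w) = (w.map fun p => D.scGen K p.1 p.2).prod := by
  unfold ChevalleyDatum.stWord ChevalleyDatum.scGen
  rw [map_list_prod, List.map_map]
  rfl

theorem XA_comm (r s : ℕ) (t u : K) (hr : r < D.nroots) (hs : s < D.nroots) (hsr : s ≠ r)
    (hsn : s ≠ D.neg r) :
    ((D.commTerms r s).map fun c => XA D c.1 ((c.2.1 : K) * (-t) ^ c.2.2.1 * u ^ c.2.2.2)).prod = 1 := by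
  have h1 : PresentedGroup.mk (D.steinbergRelsAB K)
      ((D.stX s u)⁻¹ * (D.stX r t)⁻¹ * D.stX s u * D.stX r t) =
      PresentedGroup.mk (D.steinbergRelsAB K) (D.stWord (D.commWord K r s t u)) := by
    apply PresentedGroup.mk_eq_mk_of_mul_inv_mem
    right
    exact ⟨r, s, t, u, hr, hs, hsr, hsn, rfl⟩
  have h2 := congrArg (Abelianization.of (G := D.SteinbergCover K)) h1
  rw [mk_stWord, map_list_prod, List.map_map] at h2
  simp only [map_mul, map_inv] at h2
  rw [comm_one] at h2
  unfold ChevalleyDatum.commWord at h2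
  rw [List.map_map] at h2
  exact h2.symm

theorem perfect_of_chk (noB : Bool) (hx : noB = false → ∃ x : K, x ≠ 0 ∧ x ≠ 1) (steps : List St)
    (h : chkAll D noB [] steps = true) : commutator (D.SteinbergCover K) = ⊤ := by
  have key := chk_sound D (XA (K := K) D) (XA_add D) (XA_comm D) noB hx steps []
    (fun c hc => absurd hc List.not_mem_nil) h
  rw [eq_top_iff]
  intro g _
  apply PresentedGroup.generated_by
  rintro ⟨⟨r, hr⟩, t⟩
  have h1 := key r hr t
  unfold XA at h1
  have h2 : D.scGen K r t ∈ (Abelianization.of (G := D.SteinbergCover K)).ker := MonoidHom.mem_ker.mpr h1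
  rw [Abelianization.ker_of] at h2
  have e : (PresentedGroup.of (⟨r, hr⟩, t) : D.SteinbergCover K) = D.scGen K r t := by
    unfold ChevalleyDatum.scGen ChevalleyDatum.stX PresentedGroup.of
    rw [dif_pos hr]
  rw [e]
  exact h2

end cover

end Cfsg.Agent.Lib.Helper7.StCover
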